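/-
Solvable signalizer functors: definitions (Glauberman's completeness theorem, rank 3, `p` odd).
-/
import Cfsg.Agent.Lib.G.Coprime
import Cfsg.Agent.Lib.G.PLen
import Cfsg.Agent.Lib.G.GenCent
import Cfsg.Agent.Lib.Loc.Repl

set_option autoImplicit false

namespace CA.SF

open Cfsg CA Subgroup

variable {G : Type*} [Group G]

/-- `θ` is a solvable `A`-signalizer functor (values at `1` and outside `A` are irrelevant). -/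
structure Fn (p : ℕ) (A : Subgroup G) (θ : G → Subgroup G) : Prop where
  cent : ∀ a ∈ A, a ≠ 1 → θ a ≤ 𝐂[a]
  norm : ∀ a ∈ A, a ≠ 1 → A ≤ 𝐍(θ a)
  solv : ∀ a ∈ A, a ≠ 1 → Group.IsSolvable (θ a)
  cop : ∀ a ∈ A, a ≠ 1 → PiGrp {p}ᶜ (θ a)
  bal : ∀ a ∈ A, a ≠ 1 → ∀ b ∈ A, b ≠ 1 → θ a ⊓ 𝐂[b] ≤ θ b

/-- `U` is a `θ`-subgroup. -/
structure TS (p : ℕ) (A : Subgroup G) (θ : G → Subgroup G) (U : Subgroup G) : Prop where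
  norm : A ≤ 𝐍(U)
  solv : Group.IsSolvable U
  cop : PiGrp {p}ᶜ U
  fix : ∀ a ∈ A, a ≠ 1 → U ⊓ 𝐂[a] ≤ θ a

/-- `θ` is complete: one `θ`-subgroup contains all `θ a`. -/
def Complete (p : ℕ) (A : Subgroup G) (θ : G → Subgroup G) : Prop :=
  ∃ U, TS p A θ U ∧ ∀ a ∈ A, a ≠ 1 → θ a ≤ U

/-- `θ(B) = ⋂ θ(b)` over `b ∈ B#`; `th A θ` is the group `C = C_θ(A)`. -/
def th (B : Subgroup G) (θ : G → Subgroup G) : Subgroup G := ⨅ b : {b : G // b ∈ B ∧ b ≠ 1}, θ b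

theorem mem_th {B : Subgroup G} {θ : G → Subgroup G} {x : G} :
    x ∈ th B θ ↔ ∀ b ∈ B, b ≠ 1 → x ∈ θ b := by
  simp [th, mem_iInf]

theorem th_le {B : Subgroup G} {θ : G → Subgroup G} {b : G} (hb : b ∈ B) (h1 : b ≠ 1) : th B θ ≤ θ b :=
  fun _ hx => mem_th.1 hx b hb h1

theorem le_th {B U : Subgroup G} {θ : G → Subgroup G} (h : ∀ b ∈ B, b ≠ 1 → U ≤ θ b) : U ≤ th B θ :=
  fun _ hx => mem_th.2 fun b hb h1 => h b hb h1 hx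

/-- A minimal counterexample to the completeness theorem. -/
structure Conf (G : Type*) [Group G] where
  p : ℕ
  A : Subgroup G
  θ : G → Subgroup G
  hp : p.Prime
  p2 : p ≠ 2
  ab : IsMulCommutative A
  ex : ∀ a ∈ A, a ^ p = 1
  card : Nat.card A = p ^ 3
  fn : Fn p A θ
  /-- local completeness -/
  loc : ∀ U, TS p A θ U → U ≠ ⊥ →
    ∃ N, TS p A θ N ∧ N ≤ 𝐍(U) ∧ ∀ V, TS p A θ V → V ≤ 𝐍(U) → V ≤ N
  /-- completeness of `θ_π` for `π` missing a prime of `θ` -/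
  sub : ∀ π : Set ℕ, (∃ q : ℕ, q.Prime ∧ q ∉ π ∧ ∃ a ∈ A, a ≠ 1 ∧ q ∣ Nat.card (θ a)) →
    ∃ L, TS p A θ L ∧ PiGrp π L ∧ th A θ ≤ 𝐍(L) ∧
      ∀ V, TS p A θ V → PiGrp π V → th A θ ≤ 𝐍(V) → V ≤ L
  inc : ¬ Complete p A θ

/-- The minimal faithful configuration. -/
structure MS (p q t : ℕ) (V F S A : Subgroup G) (x : G) : Prop where
  hp : p.Prime
  ht : t.Prime
  hq : q = 2 ∨ q = 3
  p2 : p ≠ 2
  pq : p ≠ q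
  tq : t ≠ q
  tp : t ≠ p
  hV : IsElementaryAbelian q V
  hF : PiGrp {t} F
  hS : PiGrp {q} S
  hA : PiGrp {p} A
  FV : F ≤ 𝐍(V)
  SV : S ≤ 𝐍(V)
  AV : A ≤ 𝐍(V)
  SnF : S ≤ 𝐍(F)
  AF : A ≤ 𝐍(F)
  AS : A ≤ 𝐍(S)
  faith : F ⊓ 𝐂(V) = ⊥
  fix : F ⊓ 𝐂(A) ≤ 𝐂(S)
  comm : ⁅F, S⁆ = F
  xS : x ∈ S
  xq : x ^ q = 1
  idx : (𝐂[x]).relIndex V ≤ q ^ 2
  xF : x ∉ 𝐂(F)

end CA.SF
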