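/-
Components of an elementary abelian group acting coprimely on an elementary abelian group, and small tools
for the minimal configuration `MS`.
-/
import Cfsg.Agent.Lib.SF.Defs
import Cfsg.Agent.Lib.G.Critical
import Cfsg.Agent.Lib.G.OddP

set_option autoImplicit false
set_option linter.unusedSectionVars false

namespace CA.SF
open Cfsg CA Subgroup
open scoped commutatorElement

variable {G : Type*} [Group G] [Finite G]

/-! ### the index `|U : C_U(g)|` -/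
section ix
variable {U V W : Subgroup G} {g h v x : G}

/-- `|U : C_U(g)|` -/
noncomputable abbrev ix (U : Subgroup G) (g : G) : ℕ := (𝐂[g]).relIndex U

theorem ix_mono (hU : U ≤ V) (g : G) : ix U g ≤ ix V g := relIndex_le_of_le_right hU (relIndex_ne_zero' _ _)
theorem card_mul_ix (U : Subgroup G) (g : G) : Nat.card ↥(U ⊓ 𝐂[g]) * ix U g = Nat.card U := by
  rw [inf_comm]; exact card_inf_mul_relIndex _ _
theorem ix_fpf (h1 : U ⊓ 𝐂[g] = ⊥) : ix U g = Nat.card U := by rw [← card_mul_ix U g, h1, card_bot, one_mul]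
theorem card_le_ix (hU : U ≤ V) (h1 : U ⊓ 𝐂[g] = ⊥) : Nat.card U ≤ ix V g := ix_fpf h1 ▸ ix_mono hU g
theorem ix_dvd (U : Subgroup G) (g : G) : ix U g ∣ Nat.card U := Dvd.intro_left _ (card_mul_ix U g)
theorem ix_mul (U : Subgroup G) (g h : G) : ix U (g * h) ≤ ix U g * ix U h :=
  (relIndex_le_of_le_left (H := 𝐂[g] ⊓ 𝐂[h]) (fun _ hy => mem_cent1_comm.1
    (mul_mem (mem_cent1_comm.1 hy.1) (mem_cent1_comm.1 hy.2))) (relIndex_ne_zero' _ _)).trans relIndex_inf_le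
theorem ix_inv (U : Subgroup G) (g : G) : ix U g⁻¹ = ix U g := by rw [ix, ix, ← cent_zpowers, zpowers_inv, cent_zpowers]
theorem ix_conj (hv : v ∈ 𝐍(U)) (g : G) : ix U (v * g * v⁻¹) = ix U g := by
  rw [ix, ← cj_centralizer_singleton]; nth_rewrite 1 [← cj_eq_of_mem_normalizer hv]; exact relIndex_cj _ _ _
theorem ix_comm (hv : v ∈ 𝐍(U)) (x : G) : ix U (v * x * v⁻¹ * x⁻¹) ≤ ix U x ^ 2 := by
  have := ix_mul U (v * x * v⁻¹) x⁻¹
  rwa [ix_conj hv, ix_inv, ← sq] at this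
/-- if `C_U(g) ∩ C_U(h) = 1` -/
theorem card_le_ix_mul (h1 : U ⊓ 𝐂[g] ⊓ 𝐂[h] = ⊥) : Nat.card U ≤ ix U g * ix U h := by
  have := card_inf_mul_relIndex (𝐂[g] ⊓ 𝐂[h]) U
  rw [inf_comm, ← inf_assoc, h1, card_bot, one_mul] at this
  exact this ▸ relIndex_inf_le
theorem sup_inf_cent1 (hi : U ⊓ W = ⊥) (hn : W ≤ 𝐍(U)) (hU : g ∈ 𝐍(U)) (hW : g ∈ 𝐍(W)) :
    (U ⊔ W) ⊓ 𝐂[g] = (U ⊓ 𝐂[g]) ⊔ (W ⊓ 𝐂[g]) :=
  cent_zpowers g ▸ sup_inf_cent_of_disjoint hi (zpowers_le.2 hU) (zpowers_le.2 hW) (Or.inl hn)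
theorem ix_sup (hi : U ⊓ W = ⊥) (hn : W ≤ 𝐂(U)) (hU : g ∈ 𝐍(U)) (hW : g ∈ 𝐍(W)) : ix (U ⊔ W) g = ix U g * ix W g := by
  have h1 := card_mul_ix (U ⊔ W) g
  rw [sup_inf_cent1 hi (norms_of_cents hn) hU hW, card_sup_of_disjoint (Or.inl (norms_of_cents hn)) hi,
    card_sup_of_disjoint (Or.inl (norms_of_cents (cents_mono hn inf_le_left inf_le_left)))
      (eq_bot_iff.2 ((inf_le_inf inf_le_left inf_le_left).trans hi.le)), ← card_mul_ix U g, ← card_mul_ix W g,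
    mul_mul_mul_comm] at h1
  exact Nat.eq_of_mul_eq_mul_left (Nat.mul_pos Nat.card_pos Nat.card_pos) h1
/-- an involution on an elementary abelian `2`-group -/
theorem ix_le_card (hU : IsElementaryAbelian 2 U) (hx : x ∈ 𝐍(U)) (h2 : x ^ 2 = 1) : ix U x ≤ Nat.card ↥(U ⊓ 𝐂[x]) :=
  relIndex_cent1_le_card fun a ha => by
    have h1 : x * a⁻¹ * x⁻¹ ∈ U := conj_mem_of_mem_normalizer hx (inv_mem ha)
    have e : ⁅a, x⁆ = a * (x * a⁻¹ * x⁻¹) := by rw [commutatorElement_def]; group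
    have i : a⁻¹ = a := inv_eq_of_mul_eq_one_left (sq a ▸ hU.2 a ha)
    have j : x⁻¹ = x := inv_eq_of_mul_eq_one_left (sq x ▸ h2)
    refine ⟨e ▸ mul_mem ha h1, mem_cent1_iff.2 ?_⟩
    have c := hU.mul_comm ha h1
    rw [e]; nth_rewrite 2 [c]; rw [i, j]
    calc _ = a * x * a * (x * x) := by group
      _ = x * x * (a * x * a) := by rw [← sq, h2, mul_one, one_mul]
      _ = _ := by group
end ix

/-! ### `p`-groups acting on sets of subgroups and of elements -/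
section orb
variable {p : ℕ} {T H : Subgroup G} {g : G}

theorem mem_of_pow_mem {n : ℕ} (hc : (orderOf g).Coprime n) (h : g ^ n ∈ H) : g ∈ H := by
  obtain ⟨m, e⟩ := exists_pow_eq_self_of_coprime hc.symm
  exact e ▸ pow_mem h m

theorem mem_of_pow_mem' {n : ℕ} (hp : p.Prime) (hg : g ^ p = 1) (hn : ¬ p ∣ n) (h : g ^ n ∈ H) : g ∈ H :=
  mem_of_pow_mem (Nat.Coprime.coprime_dvd_left (orderOf_dvd_of_pow_eq_one hg) ((hp.coprime_iff_not_dvd).2 hn)) h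

theorem mem_of_pow_mem_pi {n : ℕ} (hg : PiElt {p} g) (hn : ¬ p ∣ n) (h : g ^ n ∈ H) : g ∈ H :=
  mem_of_pow_mem (coprime_iff_forall_prime.2 fun r hr h1 => (show r = p from hg r hr h1) ▸ hn) h

/-- the elements mapping a set of subgroups into itself -/
def stabS (X : Set (Subgroup G)) : Subgroup G where
  carrier := {g | ∀ B ∈ X, cj g B ∈ X}
  one_mem' := fun B hB => by rwa [cj_one]
  mul_mem' := fun ha hb B hB => by rw [cj_mul]; exact ha _ (hb B hB)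
  inv_mem' := fun {g} hg => by
    obtain ⟨n, e⟩ := (Submonoid.mem_powers_iff _ _).1 (mem_powers_iff_mem_zpowers.2 (inv_mem (mem_zpowers g)))
    rw [← e]; clear e
    induction n with
    | zero => intro B hB; rwa [pow_zero, cj_one]
    | succ n ih => intro B hB; rw [pow_succ, cj_mul]; exact ih _ (hg B hB)

theorem mem_stabS {X : Set (Subgroup G)} : g ∈ stabS X ↔ ∀ B ∈ X, cj g B ∈ X := Iff.rfl

theorem dvd_ncard_cj (hp : p.Prime) (hT : PiGrp {p} T) {X : Set (Subgroup G)} (h1 : T ≤ stabS X)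
    (h2 : ∀ B ∈ X, ¬ T ≤ 𝐍(B)) : p ∣ X.ncard := by
  haveI := Fact.mk hp
  letI : MulAction T X :=
    { smul := fun g B => ⟨cj g B, h1 g.2 B B.2⟩
      one_smul := fun B => Subtype.ext (cj_one _)
      mul_smul := fun g h B => Subtype.ext (cj_mul _ _ _) }
  have h := (hT.isPGroup hp).card_modEq_card_fixedPoints X
  haveI : IsEmpty (MulAction.fixedPoints T X) := ⟨fun a => h2 _ a.1.2 fun g hg =>
    mem_normalizer_iff_cj.2 (congrArg Subtype.val (a.2 ⟨g, hg⟩))⟩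
  rw [Nat.card_of_isEmpty (α := MulAction.fixedPoints T X)] at h
  exact Nat.modEq_zero_iff_dvd.1 h

/-- a `p`-group fixes every member of an invariant set of size less than `p` -/
theorem norm_of_ncard_lt (hp : p.Prime) (hT : PiGrp {p} T) {X : Set (Subgroup G)} (h1 : T ≤ stabS X)
    (h2 : X.ncard < p) {B : Subgroup G} (hB : B ∈ X) : T ≤ 𝐍(B) := by
  by_contra c
  have := dvd_ncard_cj hp hT (X := {B ∈ X | ¬ T ≤ 𝐍(B)}) (fun g hg B hB => ⟨h1 hg B hB.1, fun e => hB.2 (by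
    rw [← cj_normalizer, ← cj_eq_of_mem hg, cj_le_cj] at e; exact e)⟩) fun B hB => hB.2
  have h3 := Nat.le_of_dvd ((Set.ncard_pos (s := {B ∈ X | ¬ T ≤ 𝐍(B)}) (Set.toFinite _)).2 ⟨B, hB, c⟩) this
  exact absurd (h3.trans (Set.ncard_le_ncard (Set.sep_subset _ _))) (not_le.2 h2)

theorem dvd_ncard_conj (hp : p.Prime) (hT : PiGrp {p} T) {X : Set G} (h1 : ∀ g ∈ T, ∀ y ∈ X, g * y * g⁻¹ ∈ X)
    (h2 : ∀ y ∈ X, y ∉ 𝐂(T)) : p ∣ X.ncard := by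
  haveI := Fact.mk hp
  letI : MulAction T X :=
    { smul := fun g y => ⟨g * y * (g : G)⁻¹, h1 g g.2 y y.2⟩
      one_smul := fun y => Subtype.ext (by show ((1 : T) : G) * y * ((1 : T) : G)⁻¹ = y; simp)
      mul_smul := fun g h y => Subtype.ext (by
        show ((g * h : T) : G) * y * ((g * h : T) : G)⁻¹ = g * (h * y * (h : G)⁻¹) * (g : G)⁻¹; simp [mul_assoc]) }
  have h := (hT.isPGroup hp).card_modEq_card_fixedPoints X
  haveI : IsEmpty (MulAction.fixedPoints T X) := ⟨fun a => h2 _ a.1.2 (mem_cent_iff.2 fun g hg =>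
    mul_inv_eq_iff_eq_mul.1 (congrArg Subtype.val (a.2 ⟨g, hg⟩)))⟩
  rw [Nat.card_of_isEmpty (α := MulAction.fixedPoints T X)] at h
  exact Nat.modEq_zero_iff_dvd.1 h
end orb

/-! ### the lemmas SMALL and NORM -/
section small
variable {p : ℕ} {A F D : Subgroup G}

theorem relIndex_modEq (hp : p.Prime) (hA : PiGrp {p} A) (hF : PiGrp {p}ᶜ F) (AF : A ≤ 𝐍(F)) (AD : A ≤ 𝐍(D))
    (DF : D ≤ F) : D.relIndex F ≡ D.relIndex (F ⊓ 𝐂(A)) [MOD p] := by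
  haveI := Fact.mk hp
  have h1 := card_modEq_card_inf_cent (hA.isPGroup hp) AF
  have h2 := card_modEq_card_inf_cent (hA.isPGroup hp) AD
  rw [← card_mul_relIndex DF, ← card_inf_mul_relIndex D (F ⊓ 𝐂(A)), ← inf_assoc, inf_eq_left.2 DF] at h1
  exact Nat.ModEq.cancel_left_of_coprime (c := Nat.card D)
    ((piGrp_compl_singleton_iff_coprime hp).1 (hF.of_le DF)).symm (h1.trans (h2.symm.mul_right _))

/-- SMALL: a `p`-group acts trivially on `F / D` if no proper divisor of `|F : D|` is congruent to it -/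
theorem small (hp : p.Prime) (hA : PiGrp {p} A) (hF : PiGrp {p}ᶜ F) (AF : A ≤ 𝐍(F)) (AD : A ≤ 𝐍(D))
    (DF : D ≤ F) (FD : F ≤ 𝐍(D)) (h : ∀ m, m ∣ D.relIndex F → D.relIndex F ≡ m [MOD p] → m = D.relIndex F) :
    ∀ a ∈ A, ∀ u ∈ F, a * u * a⁻¹ * u⁻¹ ∈ D := fun a ha u hu => by
  have n : F ⊓ 𝐂(A) ≤ 𝐍(D) := inf_le_left.trans FD
  have h1 := h _ (relIndex_dvd_of_norm DF inf_le_left n) (relIndex_modEq hp hA hF AF AD DF)
  have h2 : D ⊔ F ⊓ 𝐂(A) = F := eq_of_le_of_card_eq (sup_le DF inf_le_left) (by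
    rw [← card_mul_relIndex DF, ← h1, ← relIndex_sup_of_norm n, card_mul_relIndex le_sup_left])
  obtain ⟨d, hd, c, hc, rfl⟩ := (mem_sup_of_norm_right n).1 (h2.ge hu)
  have := mul_mem (conj_mem_of_mem_normalizer (AD ha) hd) (inv_mem hd)
  convert this using 1
  rw [mul_inv_rev, ← mul_assoc a, mul_assoc _ c, mem_cent_iff'.1 hc.2 _ (inv_mem ha)]; group

/-- prime index -/
theorem small_prime {t : ℕ} (ht : t.Prime) (hp : p.Prime) (hA : PiGrp {p} A) (hF : PiGrp {p}ᶜ F) (AF : A ≤ 𝐍(F))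
    (AD : A ≤ 𝐍(D)) (DF : D ≤ F) (FD : F ≤ 𝐍(D)) (hi : D.relIndex F = t) (h : ¬ p ∣ t - 1) :
    ∀ a ∈ A, ∀ u ∈ F, a * u * a⁻¹ * u⁻¹ ∈ D :=
  small hp hA hF AF AD DF FD fun m h1 h2 => by
    rw [hi] at h1 h2 ⊢
    exact ((Nat.dvd_prime ht).1 h1).resolve_left fun e => h ((Nat.modEq_iff_dvd' ht.one_le).1 (e ▸ h2.symm))

/-- NORM -/
theorem norm_lem (hp : p.Prime) (hA : PiGrp {p} A) (hF : PiGrp {p}ᶜ F) (AF : A ≤ 𝐍(F)) (hD : ⁅F, F⁆ ≤ D) (DF : D ≤ F)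
    (hC : F ⊓ 𝐂(A) ≤ D) {A0 : Subgroup G} {u : G} (hu : u ∈ F) (h0 : ∀ a ∈ A, a ∈ A0 → a * u * a⁻¹ * u⁻¹ ∈ D)
    (h1 : ∀ a ∈ A, a ∉ A0 → a * u * a⁻¹ ∈ D) : u ∈ D := by
  classical
  haveI := Fintype.ofFinite A
  haveI : (D.subgroupOf F).Normal := NormalIn.normal_subgroupOf (normalIn_of_der_le hD DF)
  letI : CommGroup (F ⧸ D.subgroupOf F) := { (inferInstance : Group (F ⧸ D.subgroupOf F)) with
    mul_comm := by
      intro a b
      obtain ⟨a, rfl⟩ := QuotientGroup.mk_surjective a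
      obtain ⟨b, rfl⟩ := QuotientGroup.mk_surjective b
      rw [← QuotientGroup.mk_mul, ← QuotientGroup.mk_mul, QuotientGroup.eq, mem_subgroupOf]
      simpa [mul_assoc] using hD (comm_mem (inv_mem b.2) (inv_mem a.2)) }
  let φ := QuotientGroup.mk' (D.subgroupOf F)
  have hφ : ∀ g : F, φ g = 1 ↔ (g : G) ∈ D := fun g => (QuotientGroup.eq_one_iff g).trans mem_subgroupOf
  let c : A →* MulAut F := F.normalizerMonoidHom.comp (inclusion AF)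
  have hc : ∀ (a : A) (g : F), (c a g : G) = a * g * (a : G)⁻¹ := fun _ _ => rfl
  let ψ : F →* F ⧸ D.subgroupOf F := ∏ a : A, φ.comp (c a).toMonoidHom
  have hψ : ∀ g, ψ g = ∏ a : A, φ (c a g) := fun g => MonoidHom.finset_prod_apply _ _ _
  have k : F ≤ ψ.ker.map F.subtype := by
    refine (copAct_p_right AF hF hA).comm_sup_cent.ge.trans (sup_le (comm_le_iff.2 fun g hg b hb => ?_) fun g hg => ?_)
    · refine ⟨⟨g, hg⟩ * (c ⟨b, hb⟩ ⟨g, hg⟩)⁻¹, ?_, by simp [hc, mul_assoc]⟩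
      rw [SetLike.mem_coe, MonoidHom.mem_ker, map_mul, map_inv, mul_inv_eq_one, hψ, hψ]
      refine (Fintype.prod_equiv (Equiv.mulRight ⟨b, hb⟩) _ _ fun a => ?_).symm
      rw [Equiv.coe_mulRight, map_mul, MulAut.mul_apply]
    · refine ⟨⟨g, hg.1⟩, ?_, rfl⟩
      rw [SetLike.mem_coe, MonoidHom.mem_ker, hψ]
      exact Finset.prod_eq_one fun a _ => (hφ _).2 (by rw [hc, mem_cent_iff.1 hg.2 a a.2, mul_inv_cancel_right]; exact hC hg)
  obtain ⟨v, hv, rfl⟩ := k hu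
  rw [SetLike.mem_coe, MonoidHom.mem_ker, hψ, Finset.prod_congr rfl (g := fun a : A => if (a : G) ∈ A0 then φ v else 1)
    (fun a _ => by
      split_ifs with h
      · rw [← mul_inv_eq_one, ← map_inv, ← map_mul, hφ]; exact h0 a a.2 h
      · exact (hφ _).2 (h1 a a.2 h)), Finset.prod_ite, Finset.prod_const_one, mul_one, Finset.prod_const, ← map_pow, hφ] at hv
  refine mem_of_pow_mem (PiNum.coprime' (hF.piElt hu) ((hA.inf_left A0).of_dvd (Eq.dvd ?_))) hv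
  rw [inf_comm, ← card_subgroupOf, Nat.card_eq_fintype_card, Fintype.card_subtype]
  rfl
end small

/-! ### components -/

/-- `Y` is an elementary abelian `t`-group acting on the elementary abelian `q`-group `V` -/
structure Cmp (q t : ℕ) (V Y : Subgroup G) : Prop where
  hq : q.Prime
  ht : t.Prime
  tq : t ≠ q
  hV : IsElementaryAbelian q V
  hY : IsElementaryAbelian t Y
  YV : Y ≤ 𝐍(V)

/-- a hyperplane of `Y` with extra fixed points on `V` -/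
structure Hyp (t : ℕ) (V Y B : Subgroup G) : Prop where
  le : B ≤ Y
  idx : B.relIndex Y = t
  ne : ¬ V ⊓ 𝐂(B) ≤ 𝐂(Y)

/-- the component of a hyperplane -/
def VB (V Y B : Subgroup G) : Subgroup G := ⁅V ⊓ 𝐂(B), Y⁆

section cmp
variable {q t : ℕ} {V Y B B' B'' X U : Subgroup G} {g y u : G}

theorem Hyp.cj (h : Hyp t V Y B) (hV : g ∈ 𝐍(V)) (hY : g ∈ 𝐍(Y)) : Hyp t V Y (cj g B) :=
  ⟨cj_le_of_mem_normalizer h.le hY, by rw [← cj_eq_of_mem_normalizer hY, relIndex_cj, h.idx], by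
    rw [← cj_eq_of_mem_normalizer hY, ← cj_eq_of_mem_normalizer hV, ← cj_centralizer, ← cj_centralizer, ← cj_inf, cj_le_cj]
    exact h.ne⟩

theorem cj_VB (hV : g ∈ 𝐍(V)) (hY : g ∈ 𝐍(Y)) (B : Subgroup G) : cj g (VB V Y B) = VB V Y (cj g B) := by
  rw [VB, VB, cj_commutator, cj_inf, cj_centralizer, cj_eq_of_mem_normalizer hV, cj_eq_of_mem_normalizer hY]

theorem norms_VB (hV : X ≤ 𝐍(V)) (hY : X ≤ 𝐍(Y)) (hB : X ≤ 𝐍(B)) : X ≤ 𝐍(VB V Y B) :=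
  norms_commutator (norms_inf hV (norms_cent hB)) hY

theorem mem_norm_VB (hV : g ∈ 𝐍(V)) (hY : g ∈ 𝐍(Y)) (hB : g ∈ 𝐍(B)) : g ∈ 𝐍(VB V Y B) :=
  zpowers_le.1 (norms_VB (zpowers_le.2 hV) (zpowers_le.2 hY) (zpowers_le.2 hB))

theorem Hyp.exists_not_mem (h : Hyp t V Y B) (h' : Hyp t V Y B') (ne : B ≠ B') : ∃ y ∈ B, y ∉ B' := by
  by_contra c
  push Not at c
  exact ne (eq_of_le_of_card_eq c (Nat.eq_of_mul_eq_mul_right (relIndex_pos' B Y) (by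
    rw [card_mul_relIndex h.le, h.idx, ← h'.idx, card_mul_relIndex h'.le])))

namespace Cmp
variable (c : Cmp q t V Y)
include c

theorem piV : PiGrp {q} V := c.hV.isPGroup.piGrp c.hq
theorem piY : PiGrp {t} Y := c.hY.isPGroup.piGrp c.ht
theorem cop : CopAct V Y := copAct_of_ne c.YV c.piV c.piY c.tq.symm
theorem Y_norm (hB : B ≤ Y) : Y ≤ 𝐍(B) := norms_of_abelian c.hY.1 hB le_rfl
theorem copB (hB : B ≤ Y) : CopAct (V ⊓ 𝐂(B)) Y := c.cop.inf (norms_cent (c.Y_norm hB))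
theorem VB_le (hB : B ≤ Y) : VB V Y B ≤ V ⊓ 𝐂(B) := (c.copB hB).comm_le
theorem VB_leV (hB : B ≤ Y) : VB V Y B ≤ V := (c.VB_le hB).trans inf_le_left
theorem le_cent_VB (hB : B ≤ Y) : B ≤ 𝐂(VB V Y B) := cents_symm ((c.VB_le hB).trans inf_le_right)
theorem Y_norm_VB (B : Subgroup G) : Y ≤ 𝐍(VB V Y B) := comm_norm_right _ _
theorem elem_VB (hB : B ≤ Y) : IsElementaryAbelian q (VB V Y B) := c.hV.mono (c.VB_leV hB)
theorem VB_cents (hB : B ≤ Y) (hU : U ≤ V) : VB V Y B ≤ 𝐂(U) := cents_of_abelian c.hV.1 hU (c.VB_leV hB)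
theorem VB_inf_cent (hB : B ≤ Y) : VB V Y B ⊓ 𝐂(Y) = ⊥ :=
  (c.copB hB).comm_inf_cent_of_abelian (abelian_of_le c.hV.1 inf_le_left)
theorem VB_ne_bot (h : Hyp t V Y B) : VB V Y B ≠ ⊥ := fun e => h.ne (comm_eq_bot_iff.1 e)
theorem sup_zpowers (h : Hyp t V Y B) (hy : y ∈ Y) (hB : y ∉ B) : B ⊔ zpowers y = Y :=
  CovBy.eq_sup_zpowers (covBy_of_relIndex_prime h.le (h.idx ▸ c.ht)) hy hB
theorem exists_mul_pow (h : Hyp t V Y B) (hy : y ∈ Y) (hB : y ∉ B) (hg : g ∈ Y) : ∃ b ∈ B, ∃ k : ℕ, g = b * y ^ k := by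
  obtain ⟨b, hb, z, hz, e⟩ := (mem_sup_of_norm_right (zpowers_le.2 (c.Y_norm h.le hy))).1 ((c.sup_zpowers h hy hB).ge hg)
  obtain ⟨k, rfl⟩ := (Submonoid.mem_powers_iff _ _).1 (mem_powers_iff_mem_zpowers.2 hz)
  exact ⟨b, hb, k, e.symm⟩
theorem mem_of_pow (hy : y ∈ Y) {n : ℕ} (hn : ¬ t ∣ n) (h : y ^ n ∈ B) : y ∈ B := mem_of_pow_mem' c.ht (c.hY.2 y hy) hn h
/-- (c1) the elements of `Y ∖ B` act fixed point freely on the component -/
theorem fpf (h : Hyp t V Y B) (hy : y ∈ Y) (hB : y ∉ B) : VB V Y B ⊓ 𝐂[y] = ⊥ :=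
  eq_bot_iff.2 ((le_inf inf_le_left (by
    nth_rewrite 2 [← c.sup_zpowers h hy hB]
    rw [cent_sup, cent_zpowers]
    exact inf_le_inf_right _ ((c.VB_le h.le).trans inf_le_right))).trans (c.VB_inf_cent h.le).le)
theorem eq_one (h : Hyp t V Y B) (hy : y ∈ Y) (hB : y ∉ B) {w : G} (hw : w ∈ VB V Y B) (hc : w ∈ 𝐂[y]) : w = 1 :=
  mem_bot.1 ((c.fpf h hy hB).le ⟨hw, hc⟩)
theorem mem_of_cent (h : Hyp t V Y B) (hy : y ∈ Y) (hc : y ∈ 𝐂(VB V Y B)) : y ∈ B := by_contra fun hB =>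
  c.VB_ne_bot h (by rw [← c.fpf h hy hB, eq_comm, inf_eq_left]; exact mem_cent_iff_le_cent1.1 hc)
theorem ix_VB (h : Hyp t V Y B) (hy : y ∈ Y) (hB : y ∉ B) : ix (VB V Y B) y = Nat.card (VB V Y B) := ix_fpf (c.fpf h hy hB)
theorem exists_not_mem (h : Hyp t V Y B) : ∃ y ∈ Y, y ∉ B := by
  by_contra k
  push Not at k
  exact c.ht.one_lt.ne' (h.idx ▸ relIndex_eq_one.2 k)
/-- orders of `Y`-invariant subgroups of a component -/
theorem card_sub (h : Hyp t V Y B) (hU : U ≤ VB V Y B) (hn : Y ≤ 𝐍(U)) : ∃ k, Nat.card U = q ^ k ∧ q ^ k ≡ 1 [MOD t] := by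
  haveI := Fact.mk c.hq
  haveI := Fact.mk c.ht
  obtain ⟨k, e⟩ := ((c.elem_VB h.le).mono hU).exists_card
  have := card_modEq_card_inf_cent c.hY.isPGroup hn
  rw [eq_bot_iff.2 ((inf_le_inf_right _ hU).trans (c.VB_inf_cent h.le).le), card_bot] at this
  exact ⟨k, e, e ▸ this⟩
theorem card_VB (h : Hyp t V Y B) : ∃ k, 0 < k ∧ Nat.card (VB V Y B) = q ^ k ∧ q ^ k ≡ 1 [MOD t] := by
  obtain ⟨k, e, h1⟩ := c.card_sub h le_rfl (c.Y_norm_VB B)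
  exact ⟨k, Nat.pos_of_ne_zero fun e0 => c.VB_ne_bot h (card_eq_one.1 (by rw [e, e0, pow_zero])), e, h1⟩
/-- (c3) independence -/
theorem VB_le_comm (h : Hyp t V Y B) (h' : Hyp t V Y B') (ne : B ≠ B') : VB V Y B' ≤ ⁅V, B⁆ := by
  obtain ⟨y, hy, hy'⟩ := h.exists_not_mem h' ne
  have k := ((c.cop.left (c.VB_leV h'.le) (c.Y_norm_VB B')).zpowers (h.le hy)).comm_eq_self_of_cent_eq_bot
    (cent_zpowers y ▸ c.fpf h' (h.le hy) hy')
  exact k.ge.trans (commutator_mono (c.VB_leV h'.le) (zpowers_le.2 hy))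
theorem comm_leV (hB : B ≤ Y) : ⁅V, B⁆ ≤ V := comm_le_left (hB.trans c.YV)
theorem disj (hB : B ≤ Y) (hU : U ≤ ⁅V, B⁆) : U ⊓ VB V Y B = ⊥ :=
  eq_bot_iff.2 ((inf_le_inf hU ((c.VB_le hB).trans inf_le_right)).trans
    ((c.cop.right hB).comm_inf_cent_of_abelian c.hV.1).le)
theorem eq_one_of_comm (hB : B ≤ Y) {w : G} (h1 : w ∈ ⁅V, B⁆) (h2 : w ∈ VB V Y B) : w = 1 :=
  mem_bot.1 ((c.disj hB le_rfl).le ⟨h1, h2⟩)
theorem disj2 (h : Hyp t V Y B) (h' : Hyp t V Y B') (ne : B ≠ B') : VB V Y B ⊓ VB V Y B' = ⊥ :=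
  c.disj h'.le (c.VB_le_comm h' h ne.symm)
theorem disj3 (h : Hyp t V Y B) (h' : Hyp t V Y B') (h'' : Hyp t V Y B'') (n1 : B ≠ B'') (n2 : B' ≠ B'') :
    (VB V Y B ⊔ VB V Y B') ⊓ VB V Y B'' = ⊥ :=
  c.disj h''.le (sup_le (c.VB_le_comm h'' h n1.symm) (c.VB_le_comm h'' h' n2.symm))
theorem ix2 (h : Hyp t V Y B) (h' : Hyp t V Y B') (ne : B ≠ B') (hg : g ∈ 𝐍(VB V Y B)) (hg' : g ∈ 𝐍(VB V Y B')) :
    ix (VB V Y B) g * ix (VB V Y B') g ≤ ix V g :=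
  ix_sup (c.disj2 h h' ne) (c.VB_cents h'.le (c.VB_leV h.le)) hg hg' ▸ ix_mono (sup_le (c.VB_leV h.le) (c.VB_leV h'.le)) g
theorem ix3 (h : Hyp t V Y B) (h' : Hyp t V Y B') (h'' : Hyp t V Y B'') (ne : B ≠ B') (n1 : B ≠ B'') (n2 : B' ≠ B'')
    (hg : g ∈ 𝐍(VB V Y B)) (hg' : g ∈ 𝐍(VB V Y B')) (hg'' : g ∈ 𝐍(VB V Y B'')) :
    ix (VB V Y B) g * ix (VB V Y B') g * ix (VB V Y B'') g ≤ ix V g := by
  have l := sup_le (c.VB_leV h.le) (c.VB_leV h'.le)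
  rw [← ix_sup (c.disj2 h h' ne) (c.VB_cents h'.le (c.VB_leV h.le)) hg hg', ← ix_sup (c.disj3 h h' h'' n1 n2)
    (c.VB_cents h''.le l) (zpowers_le.1 (norms_sup (zpowers_le.2 hg) (zpowers_le.2 hg'))) hg'']
  exact ix_mono (sup_le l (c.VB_leV h''.le)) g
theorem card2 (h : Hyp t V Y B) (h' : Hyp t V Y B') (ne : B ≠ B') :
    Nat.card ↥(VB V Y B ⊔ VB V Y B') = Nat.card (VB V Y B) * Nat.card (VB V Y B') :=
  card_sup_of_disjoint (Or.inl (norms_of_cents (c.VB_cents h'.le (c.VB_leV h.le)))) (c.disj2 h h' ne)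
theorem card3 (h : Hyp t V Y B) (h' : Hyp t V Y B') (h'' : Hyp t V Y B'') (ne : B ≠ B') (n1 : B ≠ B'') (n2 : B' ≠ B'') :
    Nat.card ↥(VB V Y B ⊔ VB V Y B' ⊔ VB V Y B'') = Nat.card (VB V Y B) * Nat.card (VB V Y B') * Nat.card (VB V Y B'') := by
  rw [card_sup_of_disjoint (Or.inl (norms_of_cents (c.VB_cents h''.le (sup_le (c.VB_leV h.le) (c.VB_leV h'.le)))))
    (c.disj3 h h' h'' n1 n2), c.card2 h h' ne]
/-- (c4) generation -/
theorem le_of_all {J : Subgroup G} (h0 : V ⊓ 𝐂(Y) ≤ J) (h : ∀ B, Hyp t V Y B → VB V Y B ≤ J) : V ≤ J :=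
  c.cop.le_of_cent_cocyclic c.hY.1 fun B hB hc => by
    by_cases e : V ⊓ 𝐂(B) ≤ 𝐂(Y)
    · exact (le_inf inf_le_left e).trans h0
    · have i := ((Nat.dvd_prime c.ht).1 (relIndex_dvd_of_cocyclic c.hY hB hc)).resolve_left fun i =>
        e (inf_le_right.trans (cent_mono (relIndex_eq_one.1 i)))
      exact (c.copB hB).comm_sup_cent.ge.trans (sup_le (h B ⟨hB, i, e⟩) ((inf_le_inf_right _ inf_le_left).trans h0))
theorem cent_of_all (h0 : g ∈ 𝐂(V ⊓ 𝐂(Y))) (h : ∀ B, Hyp t V Y B → g ∈ 𝐂(VB V Y B)) : g ∈ 𝐂(V) :=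
  mem_cent_iff_le_cent1.2 (c.le_of_all (mem_cent_iff_le_cent1.1 h0) fun B hB => mem_cent_iff_le_cent1.1 (h B hB))
theorem cent_of_mem_all (hy : y ∈ Y) (h : ∀ B, Hyp t V Y B → y ∈ B) : y ∈ 𝐂(V) :=
  c.cent_of_all (cents_symm inf_le_right hy) fun B hB => c.le_cent_VB hB.le (h B hB)
end Cmp
end cmp

/-! ### the minimal configuration -/

/-- `D_B`: the elements of `F` that are central modulo `B` -/
def DB (F B : Subgroup G) : Subgroup G where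
  carrier := {g | g ∈ F ∧ g ∈ 𝐍(B) ∧ ∀ f ∈ F, g * f * g⁻¹ * f⁻¹ ∈ B}
  one_mem' := ⟨one_mem _, one_mem _, fun f _ => by simpa using one_mem B⟩
  mul_mem' := fun {a b} ha hb => ⟨mul_mem ha.1 hb.1, mul_mem ha.2.1 hb.2.1, fun f hf => by
    convert mul_mem (conj_mem_of_mem_normalizer ha.2.1 (hb.2.2 f hf)) (ha.2.2 f hf) using 1; group⟩
  inv_mem' := fun {a} ha => ⟨inv_mem ha.1, inv_mem ha.2.1, fun f hf => by
    convert conj_inv_mem_of_mem_normalizer ha.2.1 (inv_mem (ha.2.2 f hf)) using 1; group⟩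

theorem DB_le (F B : Subgroup G) : DB F B ≤ F := fun _ h => h.1

theorem cj_DB {F : Subgroup G} {a : G} (ha : a ∈ 𝐍(F)) (B : Subgroup G) : cj a (DB F B) = DB F (cj a B) := by
  have k : ∀ {a : G}, a ∈ 𝐍(F) → ∀ B : Subgroup G, cj a (DB F B) ≤ DB F (cj a B) := fun {a} ha B =>
    cj_le_iff'.2 fun g hg => ⟨conj_mem_of_mem_normalizer ha hg.1, cj_normalizer a B ▸ conj_mem_cj.2 hg.2.1, fun f hf => by
      convert conj_mem_cj.2 (hg.2.2 _ (conj_inv_mem_of_mem_normalizer ha hf)) using 1; group⟩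
  refine le_antisymm (k ha B) (le_cj_iff.2 ?_)
  simpa using k (inv_mem ha) (cj a B)

theorem norms_DB {F B X : Subgroup G} (hF : X ≤ 𝐍(F)) (hB : X ≤ 𝐍(B)) : X ≤ 𝐍(DB F B) := fun g hg =>
  mem_normalizer_iff_cj.2 (by rw [cj_DB (hF hg), cj_eq_of_mem_normalizer (hB hg)])

namespace MS
variable {p q t : ℕ} {V F S A B B' : Subgroup G} {x g f u : G} (h : MS p q t V F S A x)
include h

theorem qp : q.Prime := by rcases h.hq with rfl | rfl <;> norm_num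
theorem Fp : PiGrp {p}ᶜ F := h.hF.compl_singleton (Ne.symm h.tp)
theorem Fq : PiGrp {q}ᶜ F := h.hF.compl_singleton (Ne.symm h.tq)
theorem copS : CopAct F S := copAct_of_ne h.SnF h.hF h.hS h.tq
theorem copA : CopAct F A := copAct_of_ne h.AF h.hF h.hA h.tp
theorem copx : CopAct F (zpowers x) := h.copS.zpowers h.xS
theorem xV : x ∈ 𝐍(V) := h.SV h.xS
theorem xF' : x ∈ 𝐍(F) := h.SnF h.xS
theorem eq_one (hg : g ∈ F) (hc : g ∈ 𝐂(V)) : g = 1 := mem_bot.1 (h.faith.le ⟨hg, hc⟩)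
/-- commutators with `x` have index at most `q ^ 4` -/
theorem ix_comm (hg : g ∈ F) : ix V (g * x * g⁻¹ * x⁻¹) ≤ q ^ 4 :=
  (SF.ix_comm (h.FV hg) x).trans ((Nat.pow_le_pow_left h.idx 2).trans (by rw [← pow_mul]))
theorem comm_mem (hg : g ∈ F) : g * x * g⁻¹ * x⁻¹ ∈ F := by
  convert mul_mem hg (conj_mem_of_mem_normalizer h.xF' (inv_mem hg)) using 1; group
theorem cmp {Y : Subgroup G} (hY : IsElementaryAbelian t Y) (hF : Y ≤ F) : Cmp q t V Y :=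
  ⟨h.qp, h.ht, h.tq, h.hV, hY, hF.trans h.FV⟩
theorem exists_supp {Y : Subgroup G} (hY : IsElementaryAbelian t Y) (hF : Y ≤ F) (hu : u ∈ Y) (h1 : u ≠ 1) :
    ∃ B, Hyp t V Y B ∧ u ∉ B := by
  by_contra k
  push Not at k
  exact h1 (h.eq_one (hF hu) ((h.cmp hY hF).cent_of_mem_all hu k))

/-! #### the special case: `Y = Z(F)` -/
variable (hs : Special t F) (hZ : F ⊓ 𝐂(S) = 𝐙(F))
include hs

theorem elemZ : IsElementaryAbelian t 𝐙(F) := haveI := Fact.mk h.ht; hs.elemAb_center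
theorem cmpZ : Cmp q t V 𝐙(F) := h.cmp (h.elemZ hs) inf_le_left
theorem commZ (hg : g ∈ F) (hf : f ∈ F) : g * f * g⁻¹ * f⁻¹ ∈ 𝐙(F) := hs.commutator_mem hg hf
theorem powZ (hg : g ∈ F) : g ^ t ∈ 𝐙(F) := haveI := Fact.mk h.ht; hs.pow_mem hg
theorem F_norm (hB : B ≤ 𝐙(F)) : F ≤ 𝐍(B) := norms_of_le_center hB
theorem F_norm_VB (hB : B ≤ 𝐙(F)) : F ≤ 𝐍(VB V 𝐙(F) B) := norms_VB h.FV (norms_center le_normalizer) (h.F_norm hs hB)
theorem mem_DB (hB : B ≤ 𝐙(F)) : g ∈ DB F B ↔ g ∈ F ∧ ∀ f ∈ F, g * f * g⁻¹ * f⁻¹ ∈ B :=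
  ⟨fun k => ⟨k.1, k.2.2⟩, fun k => ⟨k.1, h.F_norm hs hB k.1, k.2⟩⟩
theorem Z_le_DB (hB : B ≤ 𝐙(F)) : 𝐙(F) ≤ DB F B := fun g hg => (h.mem_DB hs hB).2 ⟨hg.1, fun f hf => by
  rw [mem_cent_iff'.1 hg.2 f hf]; simpa using one_mem B⟩
theorem der_le_DB (hB : B ≤ 𝐙(F)) : ⁅F, F⁆ ≤ DB F B := hs.der_eq.le.trans (h.Z_le_DB hs hB)
theorem F_norm_DB (hB : B ≤ 𝐙(F)) : F ≤ 𝐍(DB F B) := norms_DB le_normalizer (h.F_norm hs hB)
/-- `C_F(V_B) ≤ D_B` -/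
theorem mem_DB_of_cent (hB : Hyp t V 𝐙(F) B) (hg : g ∈ F) (hc : g ∈ 𝐂(VB V 𝐙(F) B)) : g ∈ DB F B :=
  (h.mem_DB hs hB.le).2 ⟨hg, fun f hf => (h.cmpZ hs).mem_of_cent hB (h.commZ hs hg hf) (by
    convert mul_mem hc (conj_mem_of_mem_normalizer (norms_cent (h.F_norm_VB hs hB.le) hf) (inv_mem hc)) using 1; group)⟩
/-- `⋂ D_B = Z` -/
theorem mem_Z_of_all (hg : g ∈ F) (k : ∀ B, Hyp t V 𝐙(F) B → g ∈ DB F B) : g ∈ 𝐙(F) :=
  ⟨hg, mem_cent_iff'.2 fun f hf => by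
    have := h.eq_one (h.commZ hs hg hf).1 ((h.cmpZ hs).cent_of_mem_all (h.commZ hs hg hf) fun B hB => (k B hB).2.2 f hf)
    rwa [mul_inv_eq_one, mul_inv_eq_iff_eq_mul] at this⟩
theorem hyp_cj (hB : Hyp t V 𝐙(F) B) {a : G} (ha : a ∈ A) : Hyp t V 𝐙(F) (cj a B) :=
  hB.cj (h.AV ha) (norms_center h.AF ha)

include hZ
theorem S_cent_Z : S ≤ 𝐂(𝐙(F)) := cents_symm (hZ.ge.trans inf_le_right)
theorem S_norm (hB : B ≤ 𝐙(F)) : S ≤ 𝐍(B) := norms_of_cents ((h.S_cent_Z hs hZ).trans (cent_mono hB))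
theorem S_norm_VB (hB : B ≤ 𝐙(F)) : S ≤ 𝐍(VB V 𝐙(F) B) := norms_VB h.SV (norms_center h.SnF) (h.S_norm hs hZ hB)
theorem S_norm_DB (hB : B ≤ 𝐙(F)) : S ≤ 𝐍(DB F B) := norms_DB h.SnF (h.S_norm hs hZ hB)
/-- some commutator with `x` is not central -/
theorem exists_comm : ∃ g ∈ F, g * x * g⁻¹ * x⁻¹ ∉ 𝐙(F) := by
  by_contra k
  push Not at k
  refine h.xF (zpowers_le.1 (h.copx.cents_of_comm_le (K := 𝐙(F)) ?_ (zpowers_le.2 (h.S_cent_Z hs hZ h.xS))))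
  rw [commutator_comm, zpowers_eq_closure]
  refine comm_closure_le (fun y hy g hg => ?_) ((closure_le _).2 fun y hy => hy ▸ norms_center h.SnF h.xS)
  convert inv_mem (k g hg) using 1; rw [hy]; group
theorem exists_suppZ : ∃ g ∈ F, ∃ B, Hyp t V 𝐙(F) B ∧ g * x * g⁻¹ * x⁻¹ ∉ DB F B := by
  obtain ⟨g, hg, k⟩ := h.exists_comm hs hZ
  by_contra c
  push Not at c
  exact k (h.mem_Z_of_all hs (h.comm_mem hg) (c g hg))
/-- `S` acts fixed point freely on `F / Z`: indices of invariant sections are `1` modulo `q` -/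
theorem relIndex_modS {D X : Subgroup G} (h1 : 𝐙(F) ≤ D) (h2 : D ≤ X) (h3 : X ≤ F) (SD : S ≤ 𝐍(D)) (SX : S ≤ 𝐍(X)) :
    D.relIndex X ≡ 1 [MOD q] := by
  have := relIndex_modEq h.qp h.hS (h.Fq.of_le h3) SX SD h2
  rwa [relIndex_eq_one.2 (((inf_le_inf_right _ h3).trans hZ.le).trans h1)] at this
/-- the final contradiction in the special case -/
theorem finZ (hB : Hyp t V 𝐙(F) B) (hu : u ∈ F) (hn : u ∉ DB F B)
    (h0 : ∀ a ∈ A, a ∈ 𝐍(B) → a * u * a⁻¹ * u⁻¹ ∈ DB F B) (h1 : ∀ a ∈ A, cj a B ≠ B → u ∈ DB F (cj a B)) : False :=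
  hn (norm_lem h.hp h.hA h.Fp h.AF (h.der_le_DB hs hB.le) (DB_le _ _)
    (((le_inf inf_le_left h.fix).trans hZ.le).trans (h.Z_le_DB hs hB.le)) hu h0 fun a ha k => by
      have := h1 _ (inv_mem ha) fun e => k (inv_mem_iff.1 (mem_normalizer_iff_cj.2 e))
      rwa [← cj_DB (h.AF (inv_mem ha)), mem_cj_inv] at this)

end MS
end CA.SF
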