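/-
General coprime-action lemmas used in the proof of the solvable signalizer functor theorem.
-/
import Cfsg.Agent.Lib.SF.Defs
import Cfsg.Agent.Lib.BG.S03
import Cfsg.Agent.Lib.Loc.NPC

set_option autoImplicit false

namespace CA.SF

open Cfsg CA Subgroup

variable {G : Type*} [Group G] [Finite G] {p s t r : ℕ} {A B H J K L M T X Y E : Subgroup G} {a b g : G}

/-- The elements centralizing `Y` modulo `L`. -/
def cmod (Y L : Subgroup G) : Subgroup G := coq L 𝐂(Y /ₛ L)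

omit [Finite G] in
theorem le_cmod (hX : X ≤ 𝐍(L)) (hY : Y ≤ 𝐍(L)) : X ≤ cmod Y L ↔ ⁅X, Y⁆ ≤ L := by
  rw [cmod, le_coq_iff hX, quo_cents_iff hX hY]

/-- The normal closure of `X` under `H`. -/
def ncl (X H : Subgroup G) : Subgroup G := ⨆ g : H, cj (g : G) X

omit [Finite G] in
theorem cj_le_ncl (hg : g ∈ H) : cj g X ≤ ncl X H := le_iSup (fun g : H => cj (g : G) X) ⟨g, hg⟩

omit [Finite G] in
theorem le_ncl (X H : Subgroup G) : X ≤ ncl X H := by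
  simpa using cj_le_ncl (X := X) H.one_mem

omit [Finite G] in
theorem ncl_le (h : ∀ g ∈ H, cj g X ≤ L) : ncl X H ≤ L := iSup_le fun g => h g g.2

theorem norm_ncl (X H : Subgroup G) : H ≤ 𝐍(ncl X H) := fun g hg => by
  apply mem_normalizer_of_cj_le
  rw [ncl, cj_iSup]
  exact iSup_le fun h => by rw [cj_cj]; exact cj_le_ncl (H.mul_mem hg h.2)

theorem norms_ncl (hX : A ≤ 𝐍(X)) (hH : A ≤ 𝐍(H)) : A ≤ 𝐍(ncl X H) := fun a ha => by
  apply mem_normalizer_of_cj_le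
  rw [ncl, cj_iSup]
  refine iSup_le fun h => ?_
  have : cj a (cj (h : G) X) = cj (a * h * a⁻¹) X := by
    rw [cj_cj, cj_mul (a * h), cj_eq_of_mem_normalizer (inv_mem (hX ha))]
  rw [this]
  exact cj_le_ncl (conj_mem_of_mem_normalizer (hH ha) h.2)

omit [Finite G] in
theorem ncl_le_of_norm (hX : X ≤ L) (hH : H ≤ 𝐍(L)) : ncl X H ≤ L :=
  ncl_le fun _ hg => cj_le_of_mem_normalizer hX (hH hg)

theorem gl_aux (hA : IsMulCommutative A) (ha : a ∈ A) (n : ℕ) : ∀ H J : Subgroup G, Nat.card H ≤ n →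
    CopAct H A → Group.IsSolvable H →
    (∀ B, B ≤ A → IsCyclic ↥(A /ₛ B) → ⁅H ⊓ 𝐂(B), zpowers a⁆ ≤ J) → ⁅H, zpowers a⁆ ≤ J := by
  induction n with
  | zero => intro H J h; exact absurd h (not_le.2 (card_pos' H))
  | succ n ih =>
  intro H J hn hc hs hJ
  by_cases h1 : H = ⊥
  · subst h1; simp
  have hZ : zpowers a ≤ A := zpowers_le.2 ha
  set J0 : Subgroup G := ⨆ B : {B : Subgroup G // B ≤ A ∧ IsCyclic ↥(A /ₛ B)}, ⁅H ⊓ 𝐂(B.1), zpowers a⁆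
  have hJ0 : ∀ B, B ≤ A → IsCyclic ↥(A /ₛ B) → ⁅H ⊓ 𝐂(B), zpowers a⁆ ≤ J0 := fun B h1 h2 =>
    le_iSup (fun B : {B : Subgroup G // B ≤ A ∧ IsCyclic ↥(A /ₛ B)} => ⁅H ⊓ 𝐂(B.1), zpowers a⁆) ⟨B, h1, h2⟩
  have nH : zpowers a ≤ 𝐍(H) := hZ.trans hc.norm
  have J0H : J0 ≤ H := iSup_le fun B => (commutator_mono inf_le_left le_rfl).trans (comm_le_left nH)
  have nJ0 : zpowers a ≤ 𝐍(J0) := norms_iSup fun B => comm_norm_right _ _
  have hd : ⁅⁅H, H⁆, zpowers a⁆ ≤ J0 :=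
    ih _ _ (by have := card_lt_of_lt' (der_lt_of_solvable hs h1); omega)
      (hc.left (der_le H) (norms_der hc.norm)) (solvable_of_le hs (der_le H))
      fun B h1 h2 => (commutator_mono (inf_le_inf_right _ (der_le H)) le_rfl).trans (hJ0 B h1 h2)
  have nL : H ≤ 𝐍(J0 ⊔ ⁅H, H⁆) := norms_of_der_le le_sup_right (sup_le J0H (der_le H))
  have nL' : zpowers a ≤ 𝐍(J0 ⊔ ⁅H, H⁆) := norms_sup nJ0 (norms_der nH)
  have h2 : ⁅H, zpowers a⁆ ≤ J0 ⊔ ⁅H, H⁆ := (le_cmod nL nL').1 <|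
    hc.le_of_cent_cocyclic hA fun B h1 h2 =>
      (le_cmod (inf_le_left.trans nL) nL').2 ((hJ0 B h1 h2).trans le_sup_left)
  have h3 : ⁅J0 ⊔ ⁅H, H⁆, zpowers a⁆ ≤ J0 := by
    rw [comm_le_iff]
    intro x hx z hz
    obtain ⟨j, hj, m, hm, rfl⟩ := (mem_sup_of_norm_left (J0H.trans (der_normalIn H).norm)).1 hx
    have : j * m * z * (j * m)⁻¹ * z⁻¹ = j * (m * z * m⁻¹ * z⁻¹) * (z * j⁻¹ * z⁻¹) := by group
    rw [this]
    exact mul_mem (mul_mem hj (hd (comm_mem hm hz))) (conj_mem_of_mem_normalizer (nJ0 hz) (inv_mem hj))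
  rw [← (hc.right hZ).comm_comm]
  exact ((commutator_mono h2 le_rfl).trans h3).trans (iSup_le fun B => hJ B.1 B.2.1 B.2.2)

/-- `[H, a]` is generated by the `[C_H(B), a]`, `B` cocyclic in `A`. -/
theorem gl (hA : IsMulCommutative A) (ha : a ∈ A) (hc : CopAct H A) (hs : Group.IsSolvable H)
    (h : ∀ B, B ≤ A → IsCyclic ↥(A /ₛ B) → ⁅H ⊓ 𝐂(B), zpowers a⁆ ≤ J) : ⁅H, zpowers a⁆ ≤ J :=
  gl_aux hA ha _ H J le_rfl hc hs h

/-- Frobenius lemma. -/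
theorem fl (hp : p.Prime) (hb : orderOf b = p) (bY : b ∈ 𝐍(Y)) (bT : b ∈ 𝐍(T)) (YT : Y ≤ 𝐍(T))
    (hT : PiGrp {t} T) (hY : PiGrp {t}ᶜ Y) (hYp : PiGrp {p}ᶜ Y) (pt : p ≠ t)
    (hf : Y ⊓ 𝐂[b] = ⊥) (hc : T ⊓ 𝐂[b] ≤ 𝐂(Y)) : Y ≤ 𝐂(T) := by
  have c0 : CopAct T Y := copAct_p_left YT hT hY
  set T1 := ⁅T, Y⁆ with hT1
  have c1 : CopAct T1 Y := c0.comm
  have e1 : ⁅T1, Y⁆ = T1 := c0.comm_comm
  have T1T : T1 ≤ T := c0.comm_le
  have hT1' : PiGrp {t} T1 := hT.of_le T1T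
  have bT1 : b ∈ 𝐍(T1) := norms_commutator (zpowers_le.2 bT) (zpowers_le.2 bY) (mem_zpowers b)
  set D := ⁅T1, T1⁆
  have bD : b ∈ 𝐍(D) := norms_der (zpowers_le.2 bT1) (mem_zpowers b)
  have YD : Y ≤ 𝐍(D) := norms_der c1.norm
  have TD : T1 ≤ 𝐍(D) := (der_normalIn T1).norm
  have hbp : PiElt {p} b := (piElt_of_orderOf_prime hp hb).2 rfl
  have cT : (Nat.card T1).Coprime (orderOf b) := by
    rw [hb]; exact (piGrp_compl_singleton_iff_coprime hp).1 (hT1'.compl_singleton (by simpa using pt))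
  have cY : (Nat.card Y).Coprime (orderOf b) := by
    rw [hb]; exact (piGrp_compl_singleton_iff_coprime hp).1 hYp
  suffices h : T1 ≤ D by
    have : T1 = ⊥ := by
      by_contra h1
      exact not_le_of_gt (der_lt_of_solvable hT1'.solvable h1) h
    exact comm_eq_bot_iff'.1 this
  have f1 : (T1 /ₛ D) ⊓ 𝐂[qel D b] = ⊥ := by
    rw [← quo_inf_cent1 bT1 bD cT]
    exact quo_eq_bot_of_le ((le_inf inf_le_left ((inf_le_inf_right _ T1T).trans hc)).trans (c1.inf_cent_le_der e1))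
  have f2 : (Y /ₛ D) ⊓ 𝐂[qel D b] = ⊥ := by
    rw [← quo_inf_cent1 bY bD cY, hf]; exact pmap_bot _
  by_cases hY1 : Y /ₛ D = ⊥
  · rw [← e1, ← quo_cents_iff TD YD, hY1, cent_bot']; exact le_top
  by_cases hb1 : qel D b = 1
  · rw [hb1, cent1_one, inf_top_eq] at f2; exact absurd f2 hY1
  have ob : orderOf (qel D b) = p := by
    have := orderOf_pel_dvd (qmk D) bD
    rw [hb] at this
    rcases (Nat.dvd_prime hp).1 this with h | h
    · exact absurd (orderOf_eq_one_iff.1 h) hb1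
    · exact h
  have cz : Nat.card (zpowers (qel D b)) = p := by rw [Nat.card_zpowers, ob]
  have nY : zpowers (qel D b) ≤ 𝐍(Y /ₛ D) := by
    rw [← quo_zpowers bD]; exact quo_norms D (zpowers_le.2 bY)
  have nT : zpowers (qel D b) ≤ 𝐍(T1 /ₛ D) := by
    rw [← quo_zpowers bD]; exact quo_norms D (zpowers_le.2 bT1)
  have fr := frob_of_reg nY hY1 (ne_bot_of_prime_card (cz ▸ hp))
    (semiregular_of_prime_card (cz ▸ hp) (by rw [cent_zpowers]; exact f2))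
  have p1 : PiGrp {t} (T1 /ₛ D) := PiNum.of_dvd hT1' (card_quo_dvd _ _)
  have p2 : PiGrp {t}ᶜ ((Y /ₛ D) ⊔ zpowers (qel D b)) :=
    PiGrp.sup (PiNum.of_dvd hY (card_quo_dvd _ _)) ((piGrp_of_card_prime hp cz).2 (by simpa using pt)) (Or.inl nY)
  have := BG.Frobenius_cent_compl fr (sup_le (quo_norms D c1.norm) nT) p1.solvable (p1.coprime p2)
    (by rw [cent_zpowers]; exact f1)
  rw [← e1, ← quo_cents_iff TD YD]
  exact cents_symm this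

/-- Frobenius lemma for `[Y, b]`, `Y` abelian. -/
theorem fl_ab (hp : p.Prime) (hb : orderOf b = p) (bY : b ∈ 𝐍(Y)) (bT : b ∈ 𝐍(T)) (YT : Y ≤ 𝐍(T))
    (hT : PiGrp {t} T) (hY : PiGrp {t}ᶜ Y) (hYp : PiGrp {p}ᶜ Y) (pt : p ≠ t) (ab : IsMulCommutative Y)
    (hc : T ⊓ 𝐂[b] ≤ 𝐂(Y)) : ⁅Y, zpowers b⁆ ≤ 𝐂(T) := by
  have cY : CopAct Y (zpowers b) := copAct_zpowers bY (by
    rw [hb]; exact (piGrp_compl_singleton_iff_coprime hp).1 hYp)
  have h1 := cY.comm_le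
  refine fl hp hb (comm_norm_right _ _ (mem_zpowers b)) bT (h1.trans YT) hT (hY.of_le h1) (hYp.of_le h1) pt ?_
    (hc.trans (cent_mono h1))
  rw [← cent_zpowers]; exact cY.comm_inf_cent_of_abelian ab

theorem d1 (hp : p.Prime) (ex : ∀ a ∈ A, a ^ p = 1) (AY : A ≤ 𝐍(Y)) (AT : A ≤ 𝐍(T)) (YT : Y ≤ 𝐍(T))
    (hT : PiGrp {t} T) (hY : PiGrp {t}ᶜ Y) (hYp : PiGrp {p}ᶜ Y) (pt : p ≠ t) (ab : IsMulCommutative Y)
    (big : ∀ B, B < A → ∃ b ∈ A, b ∉ B ∧ T ⊓ 𝐂[b] ≤ 𝐂(Y)) : ⁅Y, A⁆ ≤ 𝐂(T) := by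
  haveI := Fact.mk hp
  have n1 : A ≤ 𝐍(Y ⊓ 𝐂(T)) := norms_inf AY (norms_cent AT)
  have n2 : Y ≤ 𝐍(Y ⊓ 𝐂(T)) := norms_of_abelian ab inf_le_left le_rfl
  have : A ≤ cmod Y (Y ⊓ 𝐂(T)) := by
    by_contra h
    obtain ⟨b, hb, hbB, hc⟩ := big (A ⊓ cmod Y (Y ⊓ 𝐂(T))) (inf_lt_left.2 h)
    have b1 : b ≠ 1 := by rintro rfl; exact hbB (one_mem _)
    refine hbB ⟨hb, (le_cmod (zpowers_le.2 (n1 hb)) n2).2 ?_ (mem_zpowers b)⟩
    rw [commutator_comm]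
    exact le_inf (comm_le_left (zpowers_le.2 (AY hb)))
      (fl_ab hp (orderOf_eq_prime (ex b hb) b1) (AY hb) (AT hb) YT hT hY hYp pt ab hc)
  rw [commutator_comm]
  exact ((le_cmod n1 n2).1 this).trans inf_le_right

theorem fg (hT : PiGrp {t} T) (hc : CopAct T Y) (he : ⁅T, Y⁆ = T) (h : T ≤ (T ⊓ M) ⊔ (T ⊓ 𝐂(Y))) : T ≤ M := by
  by_cases ht : t.Prime
  · haveI := Fact.mk ht
    have := eq_of_le_sup_phi (inf_le_left : T ⊓ M ≤ T) (h.trans (sup_le_sup_left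
      ((hc.inf_cent_le_der he).trans (der_le_phi (hT.isPGroup ht))) _))
    rw [← this]; exact inf_le_right
  · rw [hT.eq_bot_of_not_prime ht]; exact bot_le

theorem le_O_of_le_fit (hX : X ≤ fittingOf M) (hs : PiGrp {s} X) : X ≤ piCoreOf {s} M :=
  (sylowIn_piCoreOf_fittingOf s M).le_of_normal ((fittingOf_le M).trans (piCoreOf_norm _ _)) hX hs

theorem le_fit_of_cents (hM : Group.IsSolvable M) (hX : X ≤ M)
    (h : ∀ r, r.Prime → piCoreOf {r} M ≠ ⊥ → X ≤ 𝐂(piCoreOf {r} M)) : X ≤ fittingOf M := by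
  refine le_fittingOf_of_cents hM hX (cents_symm (fittingOf_le_of_forall_piCoreOf_le fun r hr hd => ?_))
  exact cents_symm (h r hr ((piCoreOf_singleton_ne_bot_iff hr).2 hd))

theorem le_O_of_cents (hM : Group.IsSolvable M) (hX : X ≤ M) (hs : PiGrp {s} X)
    (h : ∀ r, r.Prime → piCoreOf {r} M ≠ ⊥ → X ≤ 𝐂(piCoreOf {r} M)) : X ≤ piCoreOf {s} M :=
  le_O_of_le_fit (le_fit_of_cents hM hX h) hs

theorem le_O_of_core2 {σ : Set ℕ} (hE : E ≤ core2 σ {r} M) (hr : PiGrp {r} E) (hc : E ≤ 𝐂(piCoreOf σ M)) :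
    E ≤ piCoreOf {r} M := by
  have n : core2 σ {r} M ⊓ 𝐂(piCoreOf σ M) ⊴ M :=
    ⟨inf_le_left.trans (core2_le _ _ _), norms_inf (core2_norm _ _ _) (norms_cent (piCoreOf_norm _ _))⟩
  refine le_O_of_le_fit ((le_inf hE hc).trans (le_fittingOf n ?_)) hr
  refine nilpotent_of_quo_central (K := piCoreOf σ M) (cents_symm inf_le_right) ?_
  refine PiGrp.nilpotent (p := r) (PiGrp.of_le ?_ (quo_mono _ inf_le_left))
  rw [quo_core2_self]; exact piCoreOf_piGrp _ _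

/-- Two subgroups normalizing each other, of different prime types, commute. -/
theorem cents_of_le_norm {U V : Subgroup G} (hU : PiGrp {s} U) (hV : PiGrp {t} V) (st : s ≠ t)
    (hX : X ≤ U) (hY : Y ≤ V) (XV : X ≤ 𝐍(V)) (YU : Y ≤ 𝐍(U)) : X ≤ 𝐂(Y) := by
  rw [← comm_eq_bot_iff, eq_bot_iff, ← inf_eq_bot_of_card_coprime (hU.coprime_of_ne hV st)]
  exact le_inf ((commutator_mono hX le_rfl).trans (comm_le_left YU))
    ((commutator_mono le_rfl hY).trans (comm_le_right XV))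

omit [Finite G] in
theorem le_or_le_of_forall (h : ∀ b ∈ B, b ∈ X ∨ b ∈ Y) : B ≤ X ∨ B ≤ Y := by
  by_contra hc
  rw [not_or] at hc
  obtain ⟨x, hx, hxX⟩ := SetLike.not_le_iff_exists.1 hc.1
  obtain ⟨y, hy, hyY⟩ := SetLike.not_le_iff_exists.1 hc.2
  have xY := (h x hx).resolve_left hxX
  have yX := (h y hy).resolve_right hyY
  rcases h (x * y) (mul_mem hx hy) with h1 | h1
  · exact hxX (by simpa using mul_mem h1 (inv_mem yX))
  · exact hyY (by simpa using mul_mem (inv_mem xY) h1)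

theorem inf_cent_ne_bot' (hP : PiGrp {s} X) (hN : PiGrp {s} Y) (n : X ≤ 𝐍(Y)) (h : Y ≠ ⊥) : Y ⊓ 𝐂(X) ≠ ⊥ := by
  have hs := hN.prime_of_ne_bot h
  haveI := Fact.mk hs
  exact inf_cent_ne_bot (hP.isPGroup hs) (hN.isPGroup hs) n h

end CA.SF
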