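/-
Solvable signalizer functors, block AMc, first case: `W ≤ O_q(M)`.
-/
import Cfsg.Agent.Lib.SF.Defs

set_option autoImplicit false

namespace CA.SF

open Cfsg CA CA.Loc Subgroup

variable {G : Type*} [Group G] [Finite G]

/-- Two subgroups of the same order have the same index over their intersection. -/
theorem am_relIndex_swap {A B : Subgroup G} (h : Nat.card A = Nat.card B) :
    A.relIndex B = B.relIndex A := by
  have h1 := card_inf_mul_relIndex A B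
  have h2 := card_inf_mul_relIndex B A
  rw [inf_comm] at h2
  exact Nat.eq_of_mul_eq_mul_left (card_pos' (A ⊓ B)) (by rw [h1, h2, h])

/-- The `L₀ = ⟨W, W^l⟩` step. -/
theorem ama_step {q : ℕ} (hq : q.Prime) {M S W W1 Q0 : Subgroup G} {l : G}
    (hC : M ⊓ 𝐂(Q0) ≤ Q0) (QS : Q0 ≤ S) (hQ : PiGrp {q} Q0) (MQ : M ≤ 𝐍(Q0))
    (WS : W ≤ S) (SM : S ≤ M) (hW : IsElementaryAbelian q W) (SW : S ≤ 𝐍(W))
    (no : ∀ B, B ≤ S → IsElementaryAbelian q B → (𝐂(B)).relIndex W ≤ q * (𝐂(W)).relIndex B → B ≤ 𝐂(W))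
    (W1W : W1 ≤ W) (hi : W1.relIndex W ≤ q) (hW1 : W ⊓ Q0 ≤ W1)
    (lM : l ∈ M) (lL : l ∈ W ⊔ cj l W) (ln : l ∈ 𝐍(Q0 ⊔ W1)) : PiGrp {q} (W ⊔ cj l W) := by
  have BS : cj l W1 ≤ S :=
    (cj_le_of_mem_normalizer le_sup_right ln).trans (sup_le QS (W1W.trans WS))
  have hB : IsElementaryAbelian q (cj l W1) := (hW.mono W1W).cj l
  have hWl : IsElementaryAbelian q (cj l W) := hW.cj l
  have BW : cj l W1 ≤ cj l W := cj_mono l W1W
  have key : cj l W1 ⊓ 𝐂(W) ≤ W1 := by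
    intro x hx
    have h1 : x ∈ 𝐂(W ⊔ cj l W) := by
      rw [cent_sup]; exact mem_inf.2 ⟨(mem_inf.1 hx).2, hWl.le_cent (BW (mem_inf.1 hx).1)⟩
    have h2 : l * x = x * l := mem_cent_iff.1 h1 l lL
    have h3 : l⁻¹ * x * l = x := by rw [mul_assoc, ← h2]; group
    have h4 := mem_cj.1 (mem_inf.1 hx).1
    rwa [h3] at h4
  have hBW : cj l W1 ≤ 𝐂(W) := by
    refine no _ BS hB ?_
    have e1 : (𝐂(cj l W1)).relIndex W ≤ (cj l W1 ⊓ W1).relIndex W :=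
      relIndex_le_of_le_left (inf_le_left.trans hB.le_cent) (relIndex_ne_zero' _ _)
    have e2 : (cj l W1 ⊓ W1).relIndex W = (cj l W1).relIndex W1 * W1.relIndex W := by
      rw [← relIndex_inf_mul_relIndex, inf_eq_left.2 W1W]
    have e3 : (cj l W1).relIndex W1 = W1.relIndex (cj l W1) := am_relIndex_swap (card_cj _ _)
    have e4 : W1.relIndex (cj l W1) ≤ (𝐂(W)).relIndex (cj l W1) := by
      rw [← inf_relIndex_left (cj l W1) (𝐂(W))]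
      exact relIndex_le_of_le_left key (relIndex_ne_zero' _ _)
    calc _ ≤ _ := e1
      _ = _ := e2
      _ ≤ (𝐂(W)).relIndex (cj l W1) * q := Nat.mul_le_mul (e3 ▸ e4) hi
      _ = _ := mul_comm _ _
  have hB1 : cj l W1 = W1 :=
    eq_of_le_of_card_eq ((le_inf le_rfl hBW).trans key) (card_cj _ _)
  have cL : W ⊔ cj l W ≤ 𝐂(W1) := by
    refine sup_le (cents_of_abelian hW.comm W1W le_rfl) ?_
    rw [← hB1]; exact cents_of_abelian hWl.comm BW le_rfl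
  have c1 : ⁅Q0, W⁆ ≤ W1 :=
    (comm_le_inf (WS.trans (SM.trans MQ)) (QS.trans SW)).trans (by rw [inf_comm]; exact hW1)
  have c2 : ⁅Q0, cj l W⁆ ≤ W1 := by
    have := cj_mono l c1
    rwa [cj_commutator, cj_eq_of_mem_normalizer (MQ lM), hB1] at this
  have c3 : ⁅Q0, W ⊔ cj l W⁆ ≤ W1 :=
    comm_sup_le' c1 c2 (norms_of_cents (le_sup_left.trans cL)) (norms_of_cents (le_sup_right.trans cL))
  have LM : W ⊔ cj l W ≤ M := sup_le (WS.trans SM) (cj_le_of_le (WS.trans SM) lM)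
  intro r hr hd
  by_contra hrq
  obtain ⟨R, hR⟩ := exists_sylowIn r (W ⊔ cj l W)
  have hrq' : q ≠ r := fun h => hrq (h ▸ rfl)
  have ca : CopAct Q0 R := copAct_of_ne (hR.le.trans (LM.trans MQ)) hQ hR.piGrp hrq'
  have h1 : R ≤ 𝐂(Q0) := ca.cents_of_comm_le ((commutator_mono le_rfl hR.le).trans c3) (hR.le.trans cL)
  have h2 : R ≤ Q0 := (le_inf (hR.le.trans LM) h1).trans hC
  have h3 : R = ⊥ := by
    have := inf_eq_bot_of_card_coprime ca.cop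
    rwa [inf_eq_right.2 h2] at this
  exact SylowIn.ne_bot hR hr hd h3

/-- If `W` has no `1`-offenders in `S`, it lies in `O_q(M)`. -/
theorem le_core_of_no {q : ℕ} (hq : q.Prime) {M S W : Subgroup G} (hM : Group.IsSolvable M)
    (SM : S ≤ M) (hO : piCoreOf {q}ᶜ M = ⊥) (hQ : piCoreOf {q} M ≤ S)
    (WS : W ≤ S) (hW : IsElementaryAbelian q W) (SW : S ≤ 𝐍(W))
    (no : ∀ B, B ≤ S → IsElementaryAbelian q B → (𝐂(B)).relIndex W ≤ q * (𝐂(W)).relIndex B → B ≤ 𝐂(W)) :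
    W ≤ piCoreOf {q} M := by
  have hC := cent_piCoreOf_le hM hO
  have hQp := piCoreOf_piGrp {q} M
  have MQ := piCoreOf_norm {q} M
  have QK := piCoreOf_le_core2 {q} {q}ᶜ M
  have KM := core2_le {q} {q}ᶜ M
  have MK := core2_norm {q} {q}ᶜ M
  have eK := quo_core2_self {q} {q}ᶜ M
  have hq0 := piCoreOf_quo_self {q} M
  generalize piCoreOf {q} M = Q0 at *
  generalize core2 {q} {q}ᶜ M = K at *
  have WM : W ≤ M := WS.trans SM
  have WQ : W ≤ 𝐍(Q0) := WM.trans MQ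
  have KQ : K ≤ 𝐍(Q0) := KM.trans MQ
  have hWp : PiGrp {q} W := hW.isPGroup.piGrp hq
  have hKp : PiGrp {q}ᶜ (K /ₛ Q0) := eK ▸ piCoreOf_piGrp _ _
  have nb : W /ₛ Q0 ≤ 𝐍(K /ₛ Q0) := quo_norms Q0 (WM.trans MK)
  by_contra hn
  have h0 : ¬ K /ₛ Q0 ≤ 𝐍(W /ₛ Q0) := by
    intro h
    have h1 : K /ₛ Q0 ≤ 𝐂(W /ₛ Q0) := by
      have := inf_norm_eq_inf_cent nb (hKp.inf_eq_bot' (hWp.quo Q0))
      rw [inf_eq_left.2 h] at this
      exact this.le.trans inf_le_right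
    have h2 := cent_piCoreOf_le (π := {q}ᶜ) (solvable_quo hM Q0) (by rw [compl_compl]; exact hq0)
    rw [← eK] at h2
    have h3 : W /ₛ Q0 ≤ K /ₛ Q0 := (le_inf (quo_mono Q0 WM) (cents_symm h1)).trans h2
    exact hn ((quo_eq_bot_iff WQ).1 ((hWp.quo Q0).eq_bot (hKp.of_le h3)))
  obtain ⟨B, BW, cy, hB⟩ : ∃ B, B ≤ W /ₛ Q0 ∧ IsCyclic ↥((W /ₛ Q0) /ₛ B) ∧
      ¬ (K /ₛ Q0) ⊓ 𝐂(B) ≤ 𝐍(W /ₛ Q0) := by
    by_contra h
    push Not at h
    exact h0 (le_of_cent_cocyclic (abelian_quo hW.comm Q0) nb (hKp.coprime' (hWp.quo Q0)) h)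
  have hi : (W ⊓ coq Q0 B).relIndex W ≤ q := by
    rw [inf_relIndex_left, relIndex_coq WQ]
    exact Nat.le_of_dvd hq.pos (relIndex_dvd_of_cocyclic (hW.pmap _) BW cy)
  have eB : Q0 ⊔ (W ⊓ coq Q0 B) = coq Q0 B := by
    rw [← dedekind_left (Or.inl WQ) (le_coq B), inf_eq_right]
    rw [← coq_quo WQ]; exact coq_le_coq.2 BW
  have hW1 : W ⊓ Q0 ≤ W ⊓ coq Q0 B := inf_le_inf_left _ (le_coq B)
  have W1W : W ⊓ coq Q0 B ≤ W := inf_le_left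
  generalize W ⊓ coq Q0 B = W1 at *
  have HM : K ⊔ W ≤ M := sup_le KM WM
  have syl : SylowIn q (Q0 ⊔ W) (K ⊔ W) := by
    refine hall_sup_of_quo ⟨QK.trans le_sup_left, HM.trans MQ⟩ WQ hQp ?_
    rw [quo_sup KQ WQ]
    exact hall_of_sup_right (Or.inl nb) hKp (hWp.quo Q0)
  have nW1 : W ≤ 𝐍(Q0 ⊔ W1) := norms_sup WQ (norms_of_abelian hW.comm W1W le_rfl)
  obtain ⟨g, gK, gn, gW⟩ : ∃ g, g ∈ K ⊔ W ∧ g ∈ 𝐍(Q0 ⊔ W1) ∧ g ∉ 𝐍(Q0 ⊔ W) := by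
    obtain ⟨z, hz, hzn⟩ := SetLike.not_le_iff_exists.1 hB
    obtain ⟨g, gK, rfl⟩ := (mem_quo KQ).1 (mem_inf.1 hz).1
    have hz1 : zpowers g ≤ 𝐍(Q0) := zpowers_le.2 (KQ gK)
    refine ⟨g, mem_sup_left gK, ?_, fun h => hzn ?_⟩
    · rw [eB]
      refine norms_coq hz1 ?_ (mem_zpowers g)
      rw [quo_zpowers (KQ gK)]
      exact zpowers_le.2 (centralizer_le_normalizer _ (mem_inf.1 hz).2)
    · have := (quo_norms_iff hz1 WQ).2 (zpowers_le.2 h)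
      rw [quo_zpowers (KQ gK)] at this
      exact this (mem_zpowers _)
  obtain ⟨L, -, ⟨g, gK, gn, gW, rfl⟩, hmin⟩ := exists_minimal_le
    (fun L => ∃ g, g ∈ K ⊔ W ∧ g ∈ 𝐍(Q0 ⊔ W1) ∧ g ∉ 𝐍(Q0 ⊔ W) ∧ L = W ⊔ cj g W) ⟨g, gK, gn, gW, rfl⟩
  have LH : W ⊔ cj g W ≤ K ⊔ W := sup_le le_sup_right (cj_le_of_le le_sup_right gK)
  have LQ : W ⊔ cj g W ≤ 𝐍(Q0) := LH.trans (HM.trans MQ)
  have QLH : Q0 ⊔ (W ⊔ cj g W) ≤ K ⊔ W := sup_le (QK.trans le_sup_left) LH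
  have s1 : SylowIn q (Q0 ⊔ W) (Q0 ⊔ (W ⊔ cj g W)) :=
    syl.of_le (sup_le_sup_left le_sup_left _) QLH
  have s2 : SylowIn q (cj g (Q0 ⊔ W)) (Q0 ⊔ (W ⊔ cj g W)) := by
    refine (syl.cj_of_mem gK).of_le ?_ QLH
    rw [cj_sup, cj_eq_of_mem_normalizer (MQ (HM gK))]
    exact sup_le_sup_left le_sup_right _
  obtain ⟨h, hh, e⟩ := s1.exists_cj s2
  rw [sup_comm] at hh
  obtain ⟨l, hl, u, hu, rfl⟩ := (mem_sup_of_norm_left LQ).1 hh
  rw [cj_mul, cj_eq_of_mem (mem_sup_left hu)] at e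
  have lW : l ∉ 𝐍(Q0 ⊔ W) := fun h =>
    gW (mem_normalizer_iff_cj.2 (e.trans (cj_eq_of_mem_normalizer h)))
  have ln : l ∈ 𝐍(Q0 ⊔ W1) := by
    refine (sup_le nW1 ?_ : W ⊔ cj g W ≤ _) hl
    have := cj_mono g nW1
    rwa [cj_normalizer, cj_eq_of_mem_normalizer gn] at this
  have eL := hmin _ ⟨l, LH hl, ln, lW, rfl⟩ (sup_le le_sup_left (cj_le_of_le le_sup_left hl))
  have hp := ama_step hq hC hQ hQp MQ WS SM hW SW no W1W hi hW1 (HM (LH hl)) (eL ▸ hl) ln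
  rw [eL] at hp
  have := syl.eq_of_le (sup_le_sup_left le_sup_left _) QLH (hQp.sup hp (Or.inl LQ))
  exact lW (le_normalizer (this ▸ mem_sup_right hl))

end CA.SF
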