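/-
Solvable signalizer functors, block AMc, second case: `W ≤ O_q(M)`, a minimal `E` and an offender on `⟨W^E⟩`.
-/
import Cfsg.Agent.Lib.SF.AMa

set_option autoImplicit false
set_option linter.unusedSectionVars false

namespace CA.SF

open Cfsg CA CA.Loc Subgroup

variable {G : Type*} [Group G] [Finite G]

/-- `⟨W^E⟩`. -/
def ccl (E W : Subgroup G) : Subgroup G := sSup {X | ∃ h ∈ E, X = cj h W}

section ccl
variable {E W X T : Subgroup G} {h : G}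

theorem cj_le_ccl (W : Subgroup G) (hh : h ∈ E) : cj h W ≤ ccl E W := le_sSup ⟨h, hh, rfl⟩

theorem le_ccl (E W : Subgroup G) : W ≤ ccl E W := by
  have := cj_le_ccl W (one_mem E)
  rwa [cj_one] at this

theorem ccl_le (H : ∀ h ∈ E, cj h W ≤ X) : ccl E W ≤ X := sSup_le fun _ ⟨h, hh, e⟩ => e ▸ H h hh

theorem norm_ccl (E W : Subgroup G) : E ≤ 𝐍(ccl E W) :=
  norms_sSup_of_cj fun g hg _ ⟨h, hh, e⟩ => ⟨g * h, mul_mem hg hh, by rw [e, cj_mul]⟩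

theorem norms_ccl (hE : T ≤ 𝐍(E)) (hW : T ≤ 𝐍(W)) : T ≤ 𝐍(ccl E W) :=
  norms_sSup_of_cj fun g hg _ ⟨h, hh, e⟩ => ⟨g * h * g⁻¹, conj_mem_of_mem_normalizer (hE hg) hh, by
    rw [e, cj_mul, cj_mul, cj_eq_of_mem_normalizer (inv_mem (hW hg))]⟩

theorem cents_ccl (H : ∀ h ∈ E, X ≤ 𝐂(cj h W)) : X ≤ 𝐂(ccl E W) :=
  cents_symm (ccl_le fun h hh => cents_symm (H h hh))

theorem elemAb_ccl {q : ℕ} (hW : IsElementaryAbelian q W)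
    (H : ∀ h ∈ E, ∀ k ∈ E, cj k W ≤ 𝐂(cj h W)) : IsElementaryAbelian q (ccl E W) := by
  have ab : IsMulCommutative (ccl E W) := abelian_iff.2 (ccl_le fun k hk => cents_ccl fun h hh => H h hh k hk)
  have : ccl E W ≤ powKer (ccl E W) ab q :=
    ccl_le fun h hh x hx => ⟨cj_le_ccl W hh hx, (hW.cj h).pow_eq hx⟩
  exact ⟨ab, fun a ha => (this ha).2⟩

theorem comm_ccl_le {D : Subgroup G} (H : ∀ h ∈ E, ⁅X, cj h W⁆ ≤ D) (hn : ∀ h ∈ E, cj h W ≤ 𝐍(D)) :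
    ⁅X, ccl E W⁆ ≤ D :=
  (sSup_induction_finite (S := {X | ∃ h ∈ E, X = cj h W}) (fun Y => Y ≤ 𝐍(D) ∧ ⁅X, Y⁆ ≤ D) ⟨bot_le, by simp⟩
    (fun _ ⟨h, hh, e⟩ => by rw [e]; exact ⟨hn h hh, H h hh⟩)
    (fun _ _ a b => ⟨sup_le a.1 b.1, comm_sup_le' a.2 b.2 a.1 b.1⟩)).2

end ccl

theorem AE_relIndex_le {q : ℕ} [Fact q.Prime] {S A0 X : Subgroup G} (hA : A0 ∈ AE q S) (XS : X ≤ S)
    (hX : IsElementaryAbelian q X) : A0.relIndex X ≤ (𝐂(X)).relIndex A0 := by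
  have e1 : IsElementaryAbelian q (X ⊔ (𝐂(X) ⊓ A0)) := hX.sup (hA.2.1.mono inf_le_right) inf_le_left
  have e2 := (mem_AE_iff.1 hA).2.2 _ (sup_le XS (inf_le_right.trans hA.1)) e1
  have e3 := card_sup_mul_card_inf (A := X) (B := 𝐂(X) ⊓ A0) (Or.inl (norms_of_cents inf_le_left))
  rw [← inf_assoc, inf_eq_left.2 hX.le_cent, inf_comm X A0, ← card_inf_mul_relIndex A0 X, mul_comm,
    mul_assoc] at e3
  have e4 := Nat.eq_of_mul_eq_mul_left (card_pos' _) e3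
  rw [e4, ← card_inf_mul_relIndex (𝐂(X)) A0, mul_comm] at e2
  exact Nat.le_of_mul_le_mul_left e2 (card_pos' _)

/-- The minimal configuration in the proof of `am_core`. -/
structure AMin (p q : ℕ) (M S A W E Q0 : Subgroup G) : Prop where
  hp : p.Prime
  hq : q.Prime
  pq : p ≠ q
  hM : Group.IsSolvable M
  hMp : PiGrp {p}ᶜ M
  hA : PiGrp {p} A
  AM : A ≤ 𝐍(M)
  SM : S ≤ M
  hS : PiGrp {q} S
  AS : A ≤ 𝐍(S)
  fix : M ⊓ 𝐂(A) ≤ 𝐍(S)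
  QS : Q0 ≤ S
  MQ : M ≤ 𝐍(Q0)
  AQ : A ≤ 𝐍(Q0)
  hW : IsElementaryAbelian q W
  WQ : W ≤ Q0
  SW : S ≤ 𝐍(W)
  AW : A ≤ 𝐍(W)
  JW : M ⊓ 𝐍(Je q S) ≤ 𝐍(W)
  no : ∀ B, B ≤ S → IsElementaryAbelian q B → (𝐂(B)).relIndex W ≤ q * (𝐂(W)).relIndex B → B ≤ 𝐂(W)
  QE : Q0 ≤ E
  EM : E ≤ M
  hE : PiGrp {q}ᶜ (E /ₛ Q0)
  SE : S ≤ 𝐍(E)
  AnE : A ≤ 𝐍(E)
  nE : ¬ E ≤ 𝐍(W)
  min : ∀ X, Q0 ≤ X → X ≤ E → S ≤ 𝐍(X) → A ≤ 𝐍(X) → X ≤ 𝐍(W) ∨ X = E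

namespace AMin
variable {p q : ℕ} {M S A W E Q0 : Subgroup G} (h : AMin p q M S A W E Q0)
include h

theorem EQ : E ≤ 𝐍(Q0) := h.EM.trans h.MQ
theorem SQ : S ≤ 𝐍(Q0) := h.SM.trans h.MQ
theorem QW : Q0 ≤ 𝐍(W) := h.QS.trans h.SW

/-- the minimality in `N(Q₀)/Q₀` -/
theorem min' {U : Subgroup (Quo Q0)} (hU : U ≤ E /ₛ Q0) (hS : S /ₛ Q0 ≤ 𝐍(U)) (hA : A /ₛ Q0 ≤ 𝐍(U)) :
    coq Q0 U ≤ 𝐍(W) ∨ U = E /ₛ Q0 := by
  rcases h.min _ (le_coq U) (coq_le_of_le_quo h.QE hU) (norms_coq h.SQ hS) (norms_coq h.AQ hA) with h1 | h1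
  · exact Or.inl h1
  · right; rw [← h1, quo_coq]

theorem comm_le {S0 : Subgroup G} (h0 : S0 ≤ S) (h1 : S ≤ 𝐍(S0)) (h2 : A ≤ 𝐍(S0))
    (h3 : ⁅E, S0⁆ ≤ 𝐍(W)) : ⁅E, S0⁆ ≤ Q0 := by
  have S0Q := h0.trans h.SQ
  have ca : CopAct (E /ₛ Q0) (S0 /ₛ Q0) :=
    copAct_p_right (quo_norms Q0 (h0.trans h.SE)) h.hE ((h.hS.of_le h0).quo Q0)
  rcases h.min' (U := (E /ₛ Q0) ⊓ 𝐂(S0 /ₛ Q0)) inf_le_left
    (norms_inf (quo_norms Q0 h.SE) (norms_cent (quo_norms Q0 h1)))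
    (norms_inf (quo_norms Q0 h.AnE) (norms_cent (quo_norms Q0 h2))) with h4 | h4
  · exfalso
    apply h.nE
    have e := ca.comm_sup_cent
    have cQ : ⁅E, S0⁆ ≤ 𝐍(Q0) := comm_le_of_le h.EQ S0Q
    rw [← quo_commutator h.EQ S0Q] at e
    have e2 := congrArg (fun U => coq Q0 U) e
    simp only [coq_sup] at e2
    rw [coq_quo cQ, coq_quo h.EQ, sup_eq_right.2 h.QE] at e2
    rw [← e2]
    exact sup_le (sup_le h.QW h3) h4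
  · exact (quo_cents_iff h.EQ S0Q).1 (h4.ge.trans inf_le_right)

theorem normD : E ≤ 𝐍(E ⊓ 𝐍(W)) := by
  have QD : Q0 ≤ E ⊓ 𝐍(W) := le_inf h.QE h.QW
  have SD : S ≤ 𝐍(E ⊓ 𝐍(W)) := norms_inf h.SE (norms_norm h.SW)
  have AD : A ≤ 𝐍(E ⊓ 𝐍(W)) := norms_inf h.AnE (norms_norm h.AW)
  have hSA : PiGrp ({p} ∪ {q}) ((S /ₛ Q0) ⊔ (A /ₛ Q0)) :=
    ((h.hS.quo Q0).mono Set.subset_union_right).sup ((h.hA.quo Q0).mono Set.subset_union_left)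
      (Or.inl (quo_norms Q0 h.AS))
  have hE2 : PiGrp ({p} ∪ {q})ᶜ (E /ₛ Q0) := by
    rw [Set.compl_union]
    exact piGrp_inter.2 ⟨(h.hMp.of_le h.EM).quo Q0, h.hE⟩
  have ca : CopAct (E /ₛ Q0) ((S /ₛ Q0) ⊔ (A /ₛ Q0)) :=
    copAct_of_pi' (sup_le (quo_norms Q0 h.SE) (quo_norms Q0 h.AnE)) hE2 hSA
      (Or.inl (solvable_quo (solvable_of_le h.hM h.EM) Q0))
  have nD : ¬ E /ₛ Q0 ≤ (E ⊓ 𝐍(W)) /ₛ Q0 := fun h1 =>
    h.nE (((quo_le_quo_iff_of_le h.EQ QD).1 h1).trans inf_le_right)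
  have nil : Group.IsNilpotent ↥(E /ₛ Q0) := by
    by_contra hn
    refine nD (ca.le_of_forall_sylowIn fun t P ht _ hP nP => ?_)
    rcases h.min' hP.le (le_sup_left.trans nP) (le_sup_right.trans nP) with h1 | h1
    · exact (coq_le_iff QD).1 (le_inf (coq_le_of_le_quo h.QE hP.le) h1)
    · exact absurd (h1 ▸ nilpotent_of_pgroup ht (SylowIn.isPGroup hP ht)) hn
  have lt : (E ⊓ 𝐍(W)) /ₛ Q0 < E /ₛ Q0 := lt_of_le_not_ge (quo_mono Q0 inf_le_left) nD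
  have lt2 := lt_inf_normalizer_nil nil lt
  have DQ : Q0 ⊴ E ⊓ 𝐍(W) := ⟨QD, inf_le_left.trans h.EQ⟩
  rcases h.min' (U := (E /ₛ Q0) ⊓ 𝐍((E ⊓ 𝐍(W)) /ₛ Q0)) inf_le_left
    (norms_inf (quo_norms Q0 h.SE) (norms_norm (quo_norms Q0 SD)))
    (norms_inf (quo_norms Q0 h.AnE) (norms_norm (quo_norms Q0 AD))) with h1 | h1
  · exact absurd ((coq_le_iff QD).1 (le_inf (coq_le_of_le_quo h.QE inf_le_left) h1)) lt2.not_ge
  · exact (quo_norms_iff_of_le h.EQ DQ).1 (h1.ge.trans inf_le_right)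

theorem noc {g : G} {B : Subgroup G} (BS : B ≤ cj g S) (hB : IsElementaryAbelian q B)
    (off : (𝐂(B)).relIndex (cj g W) ≤ q * (𝐂(cj g W)).relIndex B) : B ≤ 𝐂(cj g W) := by
  obtain ⟨B, rfl⟩ : ∃ B', B = cj g B' := ⟨cj g⁻¹ B, (cj_cj_inv g B).symm⟩
  rw [← cj_centralizer, ← cj_centralizer, relIndex_cj, relIndex_cj] at off
  rw [← cj_centralizer, cj_le_cj]
  have hB' := hB.cj g⁻¹
  rw [cj_inv_cj] at hB'
  exact h.no B (cj_le_cj.1 BS) hB' off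

theorem cjQ {g : G} (hg : g ∈ M) : cj g W ≤ Q0 := cj_le_of_mem_normalizer h.WQ (h.MQ hg)

theorem Qcj {g : G} (hg : g ∈ M) : Q0 ≤ cj g S := by
  have := cj_mono g h.QS
  rwa [cj_eq_of_mem_normalizer (h.MQ hg)] at this

theorem cj_comm {g k : G} (hg : g ∈ M) (hk : k ∈ M) : cj k W ≤ 𝐂(cj g W) := by
  have hq := h.hq.one_le
  rcases le_total ((𝐂(cj k W)).relIndex (cj g W)) ((𝐂(cj g W)).relIndex (cj k W)) with h1 | h1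
  · exact h.noc ((h.cjQ hk).trans (h.Qcj hg)) (h.hW.cj k) (h1.trans (Nat.le_mul_of_pos_left _ hq))
  · exact cents_symm
      (h.noc ((h.cjQ hg).trans (h.Qcj hk)) (h.hW.cj g) (h1.trans (Nat.le_mul_of_pos_left _ hq)))

theorem elemAb {E1 : Subgroup G} (h1 : E1 ≤ M) : IsElementaryAbelian q (ccl E1 W) :=
  elemAb_ccl h.hW fun _ hg _ hk => h.cj_comm (h1 hg) (h1 hk)

theorem cclQ {E1 : Subgroup G} (h1 : E1 ≤ M) : ccl E1 W ≤ Q0 := ccl_le fun _ hg => h.cjQ (h1 hg)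

theorem comm_le_of_le {A0 : Subgroup G} (A0S : A0 ≤ S) (h1 : ⁅E, A0⁆ ≤ 𝐍(W)) : ⁅E, A0⁆ ≤ Q0 := by
  have nS : S ⊔ A ≤ 𝐍(S) := sup_le le_normalizer h.AS
  have nE : S ⊔ A ≤ 𝐍(E) := sup_le h.SE h.AnE
  have nW : S ⊔ A ≤ 𝐍(W) := sup_le h.SW h.AW
  have h2 : ⁅E, ccl (S ⊔ A) A0⁆ ≤ 𝐍(W) := by
    refine comm_ccl_le (fun g hg => ?_) fun g hg =>
      (cj_le_of_mem_normalizer A0S (nS hg)).trans (norms_norm h.SW)
    have := cj_mono g h1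
    rwa [cj_commutator, cj_eq_of_mem_normalizer (nE hg), cj_eq_of_mem_normalizer (norms_norm nW hg)] at this
  exact (commutator_mono le_rfl (le_ccl _ _)).trans
    (h.comm_le (ccl_le fun g hg => cj_le_of_mem_normalizer A0S (nS hg))
      (le_sup_left.trans (norm_ccl _ _)) (le_sup_right.trans (norm_ccl _ _)) h2)

theorem cents_ccl_of {A0 A1 E1 : Subgroup G} (hA : A0 ∈ AE q S) (A10 : A1 ≤ A0) (E1M : E1 ≤ M)
    (c1 : ⁅E1, A1⁆ ≤ Q0) (i1 : A1.relIndex A0 ≤ q) : A1 ≤ 𝐂(ccl E1 W) := by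
  haveI : Fact q.Prime := ⟨h.hq⟩
  refine cents_ccl fun g hg => h.noc (fun a ha => mem_cj.2 ?_) (hA.2.1.mono A10) ?_
  · have h1 := h.QS (c1 (comm_mem (inv_mem hg) ha))
    have h2 := mul_mem h1 (hA.1 (A10 ha))
    rwa [inv_inv, inv_mul_cancel_right] at h2
  · calc (𝐂(A1)).relIndex (cj g W) ≤ A0.relIndex (cj g W) :=
        relIndex_le_of_le_left (cents_of_abelian hA.2.1.comm A10 le_rfl) (relIndex_ne_zero' _ _)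
      _ ≤ (𝐂(cj g W)).relIndex A0 := AE_relIndex_le hA ((h.cjQ (E1M hg)).trans h.QS) (h.hW.cj g)
      _ ≤ (𝐂(cj g W) ⊓ A1).relIndex A0 := relIndex_le_of_le_left inf_le_left (relIndex_ne_zero' _ _)
      _ = (𝐂(cj g W)).relIndex A1 * A1.relIndex A0 := by
        rw [← relIndex_inf_mul_relIndex, inf_eq_left.2 A10]
      _ ≤ (𝐂(cj g W)).relIndex A1 * q := Nat.mul_le_mul_left _ i1
      _ = _ := mul_comm _ _

theorem exists_off : ∃ A0 ∈ AE q S, ¬ ⁅E, A0⁆ ≤ Q0 ∧ (𝐂(A0)).relIndex (ccl E W) ≤ q := by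
  haveI : Fact q.Prime := ⟨h.hq⟩
  obtain ⟨L, hL⟩ : ∃ L, L = coq Q0 (𝐂(E /ₛ Q0)) := ⟨_, rfl⟩
  have hQ : ∀ X, X ≤ S → (X ≤ S ⊓ L ↔ ⁅E, X⁆ ≤ Q0) := fun X hX => by
    rw [le_inf_iff, and_iff_right hX, hL, le_coq_iff (hX.trans h.SQ), cents_comm,
      quo_cents_iff h.EQ (hX.trans h.SQ)]
  have QQ : Q0 ≤ S ⊓ L := le_inf h.QS (hL ▸ le_coq _)
  have EQn : E ≤ 𝐍(S ⊓ L) := norms_of_commutator_le
    (by rw [commutator_comm]; exact ((hQ _ inf_le_left).1 le_rfl).trans QQ) le_rfl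
  have SQn : S ≤ 𝐍(S ⊓ L) :=
    norms_inf le_normalizer (hL ▸ norms_coq h.SQ (norms_cent (quo_norms Q0 h.SE)))
  have ne : {A0 | A0 ∈ AE q S ∧ ¬ A0 ≤ S ⊓ L}.Nonempty := by
    by_contra hn
    have h1 : ∀ A0 ∈ AE q S, A0 ≤ L := fun A0 h0 => by
      by_contra h2
      exact hn ⟨A0, h0, fun h3 => h2 (h3.trans inf_le_right)⟩
    obtain ⟨A0, h0⟩ := exists_elem_pRank q S
    have e : AE q (S ⊓ L) = AE q S := by
      ext B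
      rw [AE_inf h0 (h1 A0 h0)]
      exact ⟨fun x => x.1, fun x => ⟨x, h1 B x⟩⟩
    have e2 : Je q (S ⊓ L) = Je q S := by rw [Je, Je, e]
    exact h.nE ((le_inf h.EM (e2 ▸ EQn.trans (norm_le_norm_Je _))).trans h.JW)
  obtain ⟨A0, ⟨hA0, nA0⟩, hmin⟩ := Set.exists_min_image _ (fun A0 => (S ⊓ L).relIndex A0) (Set.toFinite _) ne
  have A0S : A0 ≤ S := hA0.1
  have A0Q := A0S.trans h.SQ
  refine ⟨A0, hA0, fun h1 => nA0 ((hQ _ A0S).2 h1), ?_⟩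
  have QD : Q0 ≤ E ⊓ 𝐍(W) := le_inf h.QE h.QW
  have SD : S ≤ 𝐍(E ⊓ 𝐍(W)) := norms_inf h.SE (norms_norm h.SW)
  have ED := h.normD
  have hJ : ∀ X, X ≤ E → (X ≤ coq (E ⊓ 𝐍(W)) (𝐂(A0 /ₛ (E ⊓ 𝐍(W)))) ↔ ⁅X, A0⁆ ≤ E ⊓ 𝐍(W)) := fun X hX => by
    rw [le_coq_iff (hX.trans ED), quo_cents_iff (hX.trans ED) (A0S.trans SD)]
  have QJ : Q0 ≤ coq (E ⊓ 𝐍(W)) (𝐂(A0 /ₛ (E ⊓ 𝐍(W)))) := QD.trans (le_coq _)
  generalize coq (E ⊓ 𝐍(W)) (𝐂(A0 /ₛ (E ⊓ 𝐍(W)))) = J at hJ QJ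
  obtain ⟨B, BA, cy, hB⟩ : ∃ B, B ≤ A0 /ₛ Q0 ∧ IsCyclic ↥((A0 /ₛ Q0) /ₛ B) ∧
      ¬ (E /ₛ Q0) ⊓ 𝐂(B) ≤ J /ₛ Q0 := by
    by_contra hn
    push Not at hn
    have h1 := le_of_cent_cocyclic (abelian_quo hA0.2.1.comm Q0) (quo_norms Q0 (A0S.trans h.SE))
      (h.hE.coprime' ((h.hS.of_le A0S).quo Q0)) hn
    have h2 := (hJ E le_rfl).1 ((quo_le_quo_iff_of_le h.EQ QJ).1 h1)
    exact nA0 ((hQ _ A0S).2 (h.comm_le_of_le A0S (h2.trans inf_le_right)))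
  obtain ⟨E1, hE1⟩ : ∃ E1, E1 = coq Q0 ((E /ₛ Q0) ⊓ 𝐂(B)) := ⟨_, rfl⟩
  have E1E : E1 ≤ E := hE1 ▸ coq_le_of_le_quo h.QE inf_le_left
  have eE1 : E1 /ₛ Q0 = (E /ₛ Q0) ⊓ 𝐂(B) := by rw [hE1, quo_coq]
  have nE1 : ¬ ⁅E1, A0⁆ ≤ E ⊓ 𝐍(W) := fun h1 => hB (eE1 ▸ quo_mono Q0 ((hJ E1 E1E).2 h1))
  have BC : B ≤ 𝐂(E1 /ₛ Q0) := cents_symm (eE1 ▸ inf_le_right)
  obtain ⟨A1, hA1⟩ : ∃ A1, A1 = A0 ⊓ coq Q0 (𝐂(E1 /ₛ Q0)) := ⟨_, rfl⟩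
  have A10 : A1 ≤ A0 := hA1 ▸ inf_le_left
  have eA1 : A1 /ₛ Q0 = (A0 /ₛ Q0) ⊓ 𝐂(E1 /ₛ Q0) := by rw [hA1, pmap_inf_pcomap]
  have i1 : A1.relIndex A0 ≤ q := by
    rw [hA1, inf_relIndex_left, relIndex_coq A0Q]
    exact (relIndex_le_of_le_left BC (relIndex_ne_zero' _ _)).trans
      (Nat.le_of_dvd h.hq.pos (relIndex_dvd_of_cocyclic (hA0.2.1.pmap _) BA cy))
  have c1 : ⁅E1, A1⁆ ≤ Q0 :=
    (quo_cents_iff (E1E.trans h.EQ) (A10.trans A0Q)).1 (cents_symm (eA1 ▸ inf_le_right))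
  have QA : (S ⊓ L) ⊓ A0 ≤ A1 := by
    rw [hA1, hL]
    exact le_inf inf_le_right (inf_le_left.trans (inf_le_right.trans
      (coq_le_coq.2 (cent_mono (quo_mono Q0 E1E)))))
  have neq : ¬ A0 ≤ A1 := fun h1 => nE1 (((commutator_mono le_rfl h1).trans c1).trans QD)
  have cV := h.cents_ccl_of hA0 A10 (E1E.trans h.EM) c1 i1
  have hV := h.elemAb (E1E.trans h.EM)
  have VQ := h.cclQ (E1E.trans h.EM)
  have nV : ¬ ccl E1 W ≤ A0 := fun h1 => nE1 (le_inf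
    ((commutator_mono E1E le_rfl).trans (comm_le_left (A0S.trans h.SE)))
    ((comm_cents_of_cents (norm_ccl E1 W) (cents_of_abelian hA0.2.1.comm h1 le_rfl)).trans
      (norms_of_cents (cent_mono (le_ccl E1 W)))))
  have hs : IsElementaryAbelian q (A1 ⊔ ccl E1 W) := (hA0.2.1.mono A10).sup hV (cents_symm cV)
  have sS : A1 ⊔ ccl E1 W ≤ S := sup_le (A10.trans A0S) (VQ.trans h.QS)
  have k0 : Nat.card A0 ≤ Nat.card A1 * q := by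
    rw [← card_mul_relIndex A10]; exact Nat.mul_le_mul_left _ i1
  have k1 : Nat.card A1 * A1.relIndex (ccl E1 W) = Nat.card ↥(A1 ⊔ ccl E1 W) := by
    rw [← relIndex_sup_of_norm (norms_of_cents (cents_symm cV)), card_mul_relIndex le_sup_left]
  have hs' : A1 ⊔ ccl E1 W ∈ AE q S := by
    refine mem_AE_of_card hA0 sS hs (k0.trans ?_)
    rw [← k1]
    exact Nat.mul_le_mul_left _ (Nat.le_of_dvd (relIndex_pos' _ _)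
      (IsPGroup.dvd_relIndex hV.isPGroup fun h1 => nV (h1.trans A10)))
  have sQ : A1 ⊔ ccl E1 W ≤ S ⊓ L := by
    by_contra hn
    have h1 := hmin _ ⟨hs', hn⟩
    have h2 : (S ⊓ L).relIndex (A1 ⊔ ccl E1 W) = (S ⊓ L).relIndex A1 := by
      rw [← relIndex_sup_of_norm (sS.trans SQn), sup_comm A1, ← sup_assoc, sup_eq_left.2 (VQ.trans QQ),
        relIndex_sup_of_norm (A10.trans (A0S.trans SQn))]
    have h3 : (S ⊓ L).relIndex A0 = (S ⊓ L).relIndex A1 * A1.relIndex A0 := by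
      conv_rhs => rw [← inf_eq_left.2 A10]
      rw [inf_relIndex_right, relIndex_inf_mul_relIndex, ← inf_relIndex_right]
      congr 1
      exact le_antisymm (le_inf inf_le_left QA) (inf_le_inf_left _ A10)
    rw [h2, h3] at h1
    have h4 := one_lt_relIndex neq
    have h5 := relIndex_pos' (S ⊓ L) A1
    nlinarith
  have h1 : E /ₛ Q0 ≤ 𝐂(A1 /ₛ Q0) := (quo_cents_iff h.EQ (A10.trans A0Q)).2
    ((hQ _ (A10.trans A0S)).1 (le_sup_left.trans sQ))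
  have h2 : E /ₛ Q0 ≤ 𝐂(B) := h1.trans (cent_mono (eA1 ▸ le_inf BA BC))
  have h3 : E1 = E := by rw [hE1, inf_eq_left.2 h2, coq_quo_of_normalIn ⟨h.QE, h.EQ⟩]
  rw [← h3]
  refine (relIndex_le_of_le_left (cents_of_abelian hA0.2.1.comm le_rfl A10) (relIndex_ne_zero' _ _)).trans ?_
  have h4 := (mem_AE_iff.1 hA0).2.2 _ sS hs
  rw [← k1] at h4
  exact Nat.le_of_mul_le_mul_left (h4.trans k0) (card_pos' _)

end AMin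

end CA.SF
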