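/-
Solvable signalizer functors: no 1-offenders, reduction to the minimal faithful configuration.
-/
import Cfsg.Agent.Lib.SF.Defs
import Cfsg.Agent.Lib.G.Critical

set_option autoImplicit false
set_option linter.unusedSectionVars false

namespace CA.SF

open Cfsg CA Subgroup

universe u

/-- the minimal configurations do not exist in `G` -/
def NoMS (G : Type*) [Group G] : Prop := ∀ (p q t : ℕ) (V F S A : Subgroup G) (x : G), MS p q t V F S A x →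
  IsElementaryAbelian t F ∨ (Special t F ∧ F ⊓ 𝐂(S) = 𝐙(F)) → False

section
variable {G : Type*} [Group G] [Finite G] {p q : ℕ} {V H S A B : Subgroup G}

theorem step_one (hM : NoMS G) (hp : p.Prime) (p2 : p ≠ 2) (hq : q = 2 ∨ q = 3) (pq : p ≠ q)
    (hV : IsElementaryAbelian q V) (hH : Group.IsSolvable H) (hHp : PiGrp {p}ᶜ H)
    (hA : PiGrp {p} A) (AH : A ≤ 𝐍(H)) (AV : A ≤ 𝐍(V)) (HV : H ≤ 𝐍(V)) (SH : S ≤ H) (hS : PiGrp {q} S)
    (AS : A ≤ 𝐍(S)) (fix : H ⊓ 𝐂(A) ≤ 𝐍(S)) (hF : PiGrp {q}ᶜ (fittingOf H)) (faith : H ⊓ 𝐂(V) = ⊥)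
    {x : G} (xS : x ∈ S) (xq : x ^ q = 1) (idx : (𝐂[x]).relIndex V ≤ q ^ 2) : x = 1 := by
  by_contra x1
  have FH := fittingOf_le H
  have SF : S ≤ 𝐍(fittingOf H) := SH.trans (fittingOf_normalIn H).2
  have iF : fittingOf H ⊓ S = ⊥ := hF.inf_eq_bot' hS
  have x0 : ¬ fittingOf H ≤ 𝐂[x] := fun h => x1 (mem_bot.1 (iF.le
    ⟨cent_le_fittingOf hH ⟨SH xS, mem_cent_iff_le_cent1.2 h⟩, xS⟩))
  obtain ⟨t, ht, td, x2⟩ : ∃ t, t.Prime ∧ t ∣ Nat.card (fittingOf H) ∧ ¬ piCoreOf {t} (fittingOf H) ≤ 𝐂[x] := by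
    by_contra h
    push Not at h
    exact x0 (le_of_forall_sylowIn_le' fun t P ht td hP =>
      (hP.eq_piCoreOf_of_nilpotent (fittingOf_nilpotent H)).le.trans (h t ht td))
  have := Fact.mk ht
  have tq : t ≠ q := hF.mem ht td
  have tp : t ≠ p := (hHp.of_le FH).mem ht td
  obtain ⟨F, F1, ⟨nS, nA, x3⟩, min⟩ := exists_minimal_le (fun F => S ≤ 𝐍(F) ∧ A ≤ 𝐍(F) ∧ ¬ F ≤ 𝐂[x])
    ⟨norms_piCoreOf {t} SF, norms_piCoreOf {t} (norms_fittingOf AH), x2⟩
  have tF : PiGrp {t} F := (piCoreOf_piGrp _ _).of_le F1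
  have F2 := F1.trans (piCoreOf_le _ _)
  obtain ⟨T, TS, ⟨xT, ST, AT⟩, minT⟩ := exists_minimal_le (fun T => x ∈ T ∧ S ≤ 𝐍(T) ∧ A ≤ 𝐍(T))
    ⟨xS, le_normalizer, AS⟩
  have key : ∀ X, X ≤ F → S ≤ 𝐍(X) → A ≤ 𝐍(X) → X ≠ F → T ≤ 𝐂(X) := fun X h1 h2 h3 h4 => by
    have : X ≤ 𝐂[x] := by_contra fun h => h4 (min X ⟨h2, h3, h⟩ h1)
    exact inf_eq_left.1 (minT (T ⊓ 𝐂(X)) ⟨⟨xT, mem_cent_iff_le_cent1.2 this⟩, norms_inf ST (norms_cent h2),
      norms_inf AT (norms_cent h3)⟩ inf_le_left)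
  have c : CopAct F T := copAct_of_ne (TS.trans nS) tF (hS.of_le TS) tq
  have nc : ¬ T ≤ 𝐂(F) := fun h => x3 (mem_cent_iff_le_cent1.1 (h xT))
  have comm : ⁅F, T⁆ = F := by_contra fun h => nc (c.cents_of_comm_cents (cents_symm
    (key _ c.comm_le (norms_commutator nS ST) (norms_commutator nA AT) h)))
  refine hM p q t V F T A x ⟨hp, ht, hq, p2, pq, tq, tp, hV, tF, hS.of_le TS, hA, (F2.trans FH).trans HV,
    (TS.trans SH).trans HV, AV, TS.trans nS, nA, AT, eq_bot_iff.2 ((inf_le_inf_right _ (F2.trans FH)).trans faith.le),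
    (cents_mono (A := fittingOf H ⊓ 𝐂(A)) ?_ (inf_le_inf_right _ F2) TS), comm, xT, xq, idx,
    fun h => x3 (mem_cent_iff_le_cent1.1 h)⟩ ?_
  · rw [← commutator_eq_bot_iff_le_centralizer, eq_bot_iff, ← iF]
    exact le_inf ((commutator_mono inf_le_left le_rfl).trans (comm_le_left SF))
      (comm_le_right ((inf_le_inf_right _ FH).trans fix))
  · by_cases ab : IsMulCommutative F
    · left
      have : omega1 t F = F := by_contra fun h => nc (c.cents_of_abelian_omega1 ab tF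
        (key _ (omega1_le _ _) (norms_omega1 nS) (norms_omega1 nA) h))
      exact this ▸ omega1_elemAb ab
    · exact Or.inr (special_of_char_abelian_cents (tF.isPGroup ht) c comm fun X hX aX =>
        key X hX.le (hX.norms nS) (hX.norms nA) fun e => ab (e ▸ aX))

theorem no_off_faith (hM : NoMS G) (hp : p.Prime) (p2 : p ≠ 2) (hq : q = 2 ∨ q = 3) (pq : p ≠ q)
    (hV : IsElementaryAbelian q V) (hH : Group.IsSolvable H) (hHp : PiGrp {p}ᶜ H)
    (hA : PiGrp {p} A) (AH : A ≤ 𝐍(H)) (AV : A ≤ 𝐍(V)) (HV : H ≤ 𝐍(V)) (SH : S ≤ H) (hS : PiGrp {q} S)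
    (AS : A ≤ 𝐍(S)) (fix : H ⊓ 𝐂(A) ≤ 𝐍(S)) (hO : piCoreOf {q} H = ⊥) (faith : H ⊓ 𝐂(V) = ⊥) (n : ℕ) :
    ∀ B : Subgroup G, Nat.card B ≤ n → B ≤ S → IsElementaryAbelian q B → (𝐂(B)).relIndex V ≤ q * Nat.card B → B = ⊥ := by
  have hq' : q.Prime := by rcases hq with rfl | rfl <;> norm_num
  have := Fact.mk hq'
  have hF : PiGrp {q}ᶜ (fittingOf H) := piGrp_fittingOf_of_core_eq_bot (by rwa [compl_compl])
  have FH := fittingOf_le H
  induction n with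
  | zero => intro B h; exact absurd (card_pos' B) (by omega)
  | succ n ih =>
  intro B hn BS hB off
  by_contra B1
  have pB := hS.of_le BS
  have BF : B ≤ 𝐍(fittingOf H) := (BS.trans SH).trans (fittingOf_normalIn H).2
  have c : CopAct (fittingOf H) B := copAct_p_right BF hF pB
  obtain ⟨C, CB, cyc, nc⟩ : ∃ C, C ≤ B ∧ IsCyclic ↥(B /ₛ C) ∧ ¬ fittingOf H ⊓ 𝐂(C) ≤ 𝐂(B) := by
    by_contra h
    push Not at h
    exact B1 (eq_bot_iff.2 ((le_inf (le_fittingOf_of_cents hH (BS.trans SH)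
      (cents_symm (c.le_of_cent_cocyclic hB.comm h))) le_rfl).trans c.inf_eq_bot.le))
  have ne : ¬ B ≤ C := fun h => nc (inf_le_right.trans (cent_mono h))
  have i1 : C.relIndex B = q := ((Nat.dvd_prime hq').1 (relIndex_dvd_of_cocyclic hB CB cyc)).resolve_left
    (one_lt_relIndex ne).ne'
  have cB : Nat.card B = Nat.card C * q := by rw [← card_mul_relIndex CB, i1]
  have BC : B ≤ 𝐍(fittingOf H ⊓ 𝐂(C)) := norms_inf BF (norms_cent (norms_of_abelian hB.comm CB le_rfl))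
  have lt : ¬ V ⊓ 𝐂(C) ≤ 𝐂(B) := fun h => by
    have l1 : ⁅fittingOf H ⊓ 𝐂(C), B⁆ ≤ fittingOf H ⊓ 𝐂(C) := comm_le_left BC
    have l2 := l1.trans inf_le_left
    have := CopAct.cents_of_axb (copAct_p_left ((l2.trans FH).trans HV) (hV.isPGroup.piGrp hq') (hF.of_le l2))
      (hV.isPGroup.piGrp hq') (pB.of_le CB) (((CB.trans BS).trans SH).trans HV) (l1.trans inf_le_right)
      (comm_cents_of_cents (norms_inf ((inf_le_left.trans FH).trans HV) (norms_self_of_le inf_le_right))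
        (cents_symm h)) (hF.of_le l2)
    exact nc (commutator_eq_bot_iff_le_centralizer.1 (eq_bot_iff.2 ((le_inf (l2.trans FH) this).trans faith.le)))
  have i2 : q * (𝐂(C)).relIndex V ≤ (𝐂(B)).relIndex V := by
    rw [← inf_relIndex_right 𝐂(B), ← relIndex_mul_relIndex (𝐂(B) ⊓ V) (𝐂(C) ⊓ V) V
      (inf_le_inf_right _ (cent_mono CB)) inf_le_right, inf_relIndex_right]
    exact Nat.mul_le_mul_right _ (Nat.le_of_dvd (relIndex_pos' _ _) (IsPGroup.dvd_relIndex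
      (hV.mono inf_le_right).isPGroup fun h => lt ((inf_comm _ _).le.trans (h.trans inf_le_left))))
  have C1 : C = ⊥ := ih C (by have := hq'.two_le; have := card_pos' C; nlinarith) (CB.trans BS) (hB.mono CB)
    (Nat.le_of_mul_le_mul_left (by rw [mul_comm q (Nat.card C), ← cB]; exact i2.trans off) hq'.pos)
  rw [C1, card_bot, one_mul] at cB
  obtain ⟨x, hx, e⟩ := isCyclic_iff_exists_zpowers.1 (isCyclic_of_prime_card cB)
  rw [cB, e, cent_zpowers, ← sq] at off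
  exact B1 (by rw [e, step_one hM hp p2 hq pq hV hH hHp hA AH AV HV SH hS AS fix hF faith (BS hx) (hB.pow_eq hx) off,
    zpowers_one_eq_bot])

end

theorem no_off_of (hM : ∀ (G : Type u) [Group G] [Finite G], NoMS G) {G : Type u} [Group G] [Finite G]
    {p q : ℕ} (hp : p.Prime) (p2 : p ≠ 2) (hq : q = 2 ∨ q = 3) (pq : p ≠ q)
    {V H S A B : Subgroup G} (hV : IsElementaryAbelian q V) (hH : Group.IsSolvable H) (hHp : PiGrp {p}ᶜ H)
    (hA : PiGrp {p} A) (AH : A ≤ 𝐍(H)) (AV : A ≤ 𝐍(V)) (HV : H ≤ 𝐍(V)) (SH : S ≤ H) (hS : PiGrp {q} S)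
    (AS : A ≤ 𝐍(S)) (fix : H ⊓ 𝐂(A) ≤ 𝐍(S))
    (red : ∀ Q, Q ⊴ H → PiNum {q} ((𝐂(V)).relIndex Q) → Q ≤ 𝐂(V))
    (BS : B ≤ S) (hB : IsElementaryAbelian q B)
    (off : (𝐂(B)).relIndex V ≤ q * (𝐂(V)).relIndex B) : B ≤ 𝐂(V) := by
  let Γ := V ⋊[MonoidHom.id (MulAut V)] MulAut V
  have : Finite Γ := Finite.of_equiv _ SemidirectProduct.equivProd.symm
  obtain ⟨ι, f, ιi, nV, hk, cj⟩ : ∃ (ι : V →* Γ) (f : 𝐍(V) →* Γ), Function.Injective ι ∧ ι.range.Normal ∧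
      pker f = 𝐂(V) ∧ ∀ (g : 𝐍(V)) (v : V), f g * ι v = ι v * f g ↔ (g : G) * v = v * g := by
    refine ⟨SemidirectProduct.inl, SemidirectProduct.inr.comp V.normalizerMonoidHom, SemidirectProduct.inl_injective,
      ?_, ?_, fun g v => ?_⟩
    · rw [SemidirectProduct.range_inl_eq_ker_rightHom]; infer_instance
    · rw [← pker_normalizerMonoidHom]
      ext x
      rw [mem_pker, mem_pker]
      refine and_congr_right fun hx => ?_
      rw [pel_of_mem _ hx, pel_of_mem _ hx, MonoidHom.comp_apply, map_eq_one_iff _ SemidirectProduct.inr_injective]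
    · rw [← mul_inv_eq_iff_eq_mul, ← mul_inv_eq_iff_eq_mul (a := (g : G) * v), MonoidHom.comp_apply, ← map_inv,
        ← SemidirectProduct.inl_aut, SemidirectProduct.inl_inj, Subtype.ext_iff]
      rfl
  have cc : ∀ X, X ≤ 𝐍(V) → ∀ v : V, ι v ∈ 𝐂(pmap f X) ↔ (v : G) ∈ 𝐂(X) := fun X hX v => by
    rw [mem_cent_iff, mem_cent_iff]
    exact ⟨fun h a ha => (cj ⟨a, hX ha⟩ v).1 (h _ (mem_pmap.2 ⟨_, ha, rfl⟩)), fun h a ha => by
      obtain ⟨g, hg, rfl⟩ := mem_pmap.1 ha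
      exact (cj g v).2 (h g hg)⟩
  have nT : ∀ X : Subgroup Γ, X ≤ 𝐍(ι.range) := fun X => le_top.trans (normalizer_eq_top _).ge
  have BV := (BS.trans SH).trans HV
  rw [← hk, ← pmap_eq_bot_iff BV]
  refine no_off_faith (V := ι.range) (hM Γ) hp p2 hq pq ?_ (solvable_pmap hH f) (hHp.pmap f) (hA.pmap f)
    (pmap_norms f AH) (nT _) (nT _) (pmap_mono f SH) (hS.pmap f) (pmap_norms f AS) ?_ ?_ ?_ _ _ le_rfl
    (pmap_mono f BS) (hB.pmap f) ?_
  · rw [MonoidHom.range_eq_map, ← subgroupOf_self]; exact (hV.subgroupOf V).map ι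
  · rw [← (copAct_p_right AH hHp hA).pmap_inf_cent AV]; exact pmap_norms f fix
  · have h1 := pmap_inf_pcomap f H (piCoreOf {q} (pmap f H))
    rw [inf_eq_right.2 (piCoreOf_le _ _)] at h1
    rw [← h1, pmap_eq_bot_iff (inf_le_left.trans HV), hk]
    refine red _ ⟨inf_le_left, norms_inf le_normalizer (norms_pcomap HV (piCoreOf_norm _ _))⟩ ?_
    rw [← hk, ← card_pmap f (inf_le_left.trans HV), h1]
    exact piCoreOf_piGrp _ _
  · refine eq_bot_iff.2 fun z ⟨h1, h2⟩ => ?_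
    obtain ⟨g, hg, rfl⟩ := mem_pmap.1 h1
    have : (g : G) ∈ pker f := hk ▸ mem_cent_iff'.2 fun v hv =>
      (cj g ⟨v, hv⟩).1 (mem_cent_iff'.1 h2 _ ⟨_, rfl⟩)
    rw [mem_bot, ← pel_coe]; exact (mem_pker.1 this).2
  · rw [card_pmap f BV, hk, ← index_comap, show (𝐂(pmap f B)).comap ι = (𝐂(B)).subgroupOf V from
      Subgroup.ext (cc B BV)]
    exact off

end CA.SF
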