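/-
Solvable signalizer functors, block AMc: `O_{q,q'}(M)` normalises `W`.
-/
import Cfsg.Agent.Lib.SF.AMb
import Cfsg.Agent.Lib.SF.ML0

set_option autoImplicit false
set_option linter.unusedSectionVars false

namespace CA.SF

open Cfsg CA CA.Loc Subgroup

universe u

theorem red_of_minNormal {G : Type*} [Group G] [Finite G] {q : ℕ} (hq : q.Prime) {U H L Q : Subgroup G}
    (mn : MinNormal U L) (hU : IsPGroup q U) (hH : H ⊴ L) (hQ : Q ⊴ H)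
    (hi : PiNum {q} ((𝐂(U)).relIndex Q)) : Q ≤ 𝐂(U) := by
  haveI : Fact q.Prime := ⟨hq⟩
  have n0 : L ≤ 𝐍(H ⊓ 𝐂(U)) := norms_inf hH.2 (norms_cent mn.norm)
  have h1 : Q ≤ coreMod {q} H (H ⊓ 𝐂(U)) := by
    refine le_coreMod (hH.1.trans n0) hQ ?_
    rw [← inf_relIndex_right, inf_right_comm, inf_eq_right.2 hQ.1, inf_relIndex_left]
    exact hi
  have nY : L ≤ 𝐍(coreMod {q} H (H ⊓ 𝐂(U))) := norms_coreMod _ hH.2 n0
  have YH : coreMod {q} H (H ⊓ 𝐂(U)) ≤ H := (coreMod_normalIn _ ⟨inf_le_left, hH.1.trans n0⟩).1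
  obtain ⟨T, hT⟩ := exists_sylowIn q (coreMod {q} H (H ⊓ 𝐂(U)))
  have e := hT.sup_eq_of_relIndex (le_coreMod_self _ _ _) (piNum_relIndex_coreMod _ _ _)
  have h2 := inf_cent_ne_bot (SylowIn.isPGroup hT hq) hU (hT.le.trans (YH.trans (hH.1.trans mn.norm))) mn.ne_bot
  have h3 : U ⊓ 𝐂(T) ≤ U ⊓ 𝐂(coreMod {q} H (H ⊓ 𝐂(U))) := by
    rw [← e]
    exact le_inf inf_le_left (cents_sup inf_le_right (inf_le_left.trans (cents_symm inf_le_right)))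
  exact h1.trans (cents_symm (mn.le_of_inf_ne_bot (norms_cent nY) fun h => h2 (eq_bot_iff.2 (h ▸ h3))))

theorem AMin.false (hN : ∀ (G : Type u) [Group G] [Finite G], NoMS G) {G : Type u} [Group G] [Finite G]
    {p q : ℕ} {M S A W E Q0 : Subgroup G} (h : AMin p q M S A W E Q0) (p2 : p ≠ 2) (hq : q = 2 ∨ q = 3) :
    False := by
  obtain ⟨A0, hA0, nA0, off⟩ := h.exists_off
  have A0S : A0 ≤ S := hA0.1
  have hV := h.elemAb h.EM
  have VQ := h.cclQ h.EM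
  have HM : E ⊔ S ≤ M := sup_le h.EM h.SM
  have AH : A ≤ 𝐍(E ⊔ S) := norms_sup h.AnE h.AS
  have nE : E ⊔ S ⊔ A ≤ 𝐍(E) := sup_le (sup_le le_normalizer h.SE) h.AnE
  have nV : E ⊔ S ⊔ A ≤ 𝐍(ccl E W) :=
    sup_le (sup_le (norm_ccl _ _) (norms_ccl h.SE h.SW)) (norms_ccl h.AnE h.AW)
  have WV := le_ccl E W
  generalize ccl E W = V at *
  have EL : E ≤ E ⊔ S ⊔ A := le_sup_left.trans le_sup_left
  have SL : S ≤ E ⊔ S ⊔ A := le_sup_right.trans le_sup_left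
  obtain ⟨R, hR⟩ := exists_hall {q}ᶜ (solvable_of_le h.hM h.EM)
  have eR := hR.sup_eq_of_relIndex h.QE ((piGrp_quo_iff_relIndex h.EQ).1 h.hE)
  have nR : ¬ R ≤ 𝐂(V) := fun h1 =>
    h.nE (eR ▸ sup_le (norms_of_cents (h1.trans (cent_mono WV))) h.QW)
  have ca : CopAct V R := copAct_p_left (hR.le.trans (EL.trans nV)) (hV.isPGroup.piGrp h.hq) hR.piGrp
  obtain ⟨V2, U, cf, UV, nU⟩ : ∃ V2 U, ChiefFactor (E ⊔ S ⊔ A) V2 U ∧ U ≤ V ∧ ¬ ⁅U, R⁆ ≤ V2 := by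
    by_contra hn
    push Not at hn
    exact nR (ca.cents_of_chief ⟨VQ.trans (h.QE.trans EL), nV⟩ hn)
  have mn := cf.minNormal
  have n2 := cf.norm_bot
  have nU' := cf.top_normalIn.2
  have U2 : U ≤ 𝐍(V2) := cf.normalIn.2
  have hU : IsElementaryAbelian q (U /ₛ V2) := (hV.mono UV).pmap _
  have hH : (E ⊔ S) /ₛ V2 ⊴ (E ⊔ S ⊔ A) /ₛ V2 := (normalIn_sup_left AH).quo V2
  have red := fun Q => red_of_minNormal (Q := Q) h.hq mn hU.isPGroup hH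
  have caH : CopAct (E ⊔ S) A := copAct_p_right AH (h.hMp.of_le HM) h.hA
  have key : A0 /ₛ V2 ≤ 𝐂(U /ₛ V2) := by
    refine no_off_of hN h.hp p2 hq h.pq hU (solvable_quo (solvable_of_le h.hM HM) V2)
      ((h.hMp.of_le HM).quo V2) (h.hA.quo V2) (quo_norms V2 AH) (quo_norms V2 (le_sup_right.trans nU'))
      (quo_norms V2 (le_sup_left.trans nU')) (quo_mono V2 le_sup_right) (h.hS.quo V2) (quo_norms V2 h.AS)
      ?_ red (quo_mono V2 A0S) (hA0.2.1.pmap _) ?_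
    · rw [← caH.quo_inf_cent (le_sup_right.trans n2)]
      exact quo_norms V2 ((inf_le_inf_right _ HM).trans h.fix)
    · refine le_trans ?_ (Nat.le_mul_of_pos_right _ (relIndex_pos' _ _))
      rw [← relIndex_coq U2, ← inf_relIndex_right]
      refine le_trans (relIndex_le_of_le_left (H := 𝐂(A0) ⊓ U) ?_ (relIndex_ne_zero' _ _)) ?_
      · refine le_inf ((le_coq_iff (inf_le_right.trans U2)).2 (quo_cents V2 inf_le_left)) inf_le_right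
      · rw [inf_relIndex_right]
        exact (relIndex_le_of_le_right UV (relIndex_ne_zero' _ _)).trans off
  obtain ⟨C, hC⟩ : ∃ C, C = coq V2 (𝐂(U /ₛ V2)) := ⟨_, rfl⟩
  have nC : E ⊔ S ⊔ A ≤ 𝐍(C) := hC ▸ norms_coq n2 (norms_cent mn.norm)
  have A0C : A0 ≤ C := hC ▸ (le_coq_iff (A0S.trans (SL.trans n2))).2 key
  have QC : Q0 ≤ C := by
    rw [hC, le_coq_iff (h.QE.trans (EL.trans n2))]
    exact red _ (NormalIn.quo ⟨h.QE.trans le_sup_left, HM.trans h.MQ⟩ V2)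
      (((h.hS.of_le h.QS).quo V2).relIndex _)
  rcases h.min (E ⊓ C) (le_inf h.QE QC) inf_le_left (SL.trans (norms_inf nE nC))
    (le_sup_right.trans (norms_inf nE nC)) with h1 | h1
  · refine nA0 (h.comm_le_of_le A0S (le_trans (le_inf ?_ ?_) h1))
    · exact comm_le_left (A0S.trans h.SE)
    · exact (commutator_mono le_rfl A0C).trans (comm_le_right (EL.trans nC))
  · have h2 : R ≤ C := hR.le.trans (h1.ge.trans inf_le_right)
    rw [hC, le_coq_iff (hR.le.trans (EL.trans n2)), cents_comm,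
      quo_cents_iff U2 (hR.le.trans (EL.trans n2))] at h2
    exact nU h2

/-- AMc: the core case, from the non-existence of the minimal configurations. -/
theorem am_core_of (hN : ∀ (G : Type u) [Group G] [Finite G], NoMS G) {G : Type u} [Group G] [Finite G]
    {p q : ℕ} (hp : p.Prime) (p2 : p ≠ 2) (hq : q = 2 ∨ q = 3) (pq : p ≠ q)
    {M S A W : Subgroup G} (hM : Group.IsSolvable M) (hMp : PiGrp {p}ᶜ M) (hA : PiGrp {p} A)
    (AM : A ≤ 𝐍(M)) (SM : S ≤ M) (hS : PiGrp {q} S) (AS : A ≤ 𝐍(S)) (fix : M ⊓ 𝐂(A) ≤ 𝐍(S))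
    (hO : piCoreOf {q}ᶜ M = ⊥) (hQ : piCoreOf {q} M ≤ S)
    (hW : ∀ E ∈ AE q S, W ≤ E) (SW : S ≤ 𝐍(W)) (AW : A ≤ 𝐍(W)) (JW : M ⊓ 𝐍(Je q S) ≤ 𝐍(W))
    (no : ∀ B, B ≤ S → IsElementaryAbelian q B → (𝐂(B)).relIndex W ≤ q * (𝐂(W)).relIndex B → B ≤ 𝐂(W)) :
    core2 {q} {q}ᶜ M ≤ 𝐍(W) := by
  have hq' : q.Prime := by rcases hq with rfl | rfl <;> norm_num
  haveI : Fact q.Prime := ⟨hq'⟩
  obtain ⟨A0, h0⟩ := exists_elem_pRank q S
  have WA := hW A0 h0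
  have hWe : IsElementaryAbelian q W := h0.elemAb.mono WA
  have WQ := le_core_of_no hq' hM SM hO hQ (WA.trans h0.le) hWe SW no
  by_contra hn
  obtain ⟨E, EK, ⟨QE, SE, AnE, nE⟩, hmin⟩ := exists_minimal_le
    (fun E => piCoreOf {q} M ≤ E ∧ S ≤ 𝐍(E) ∧ A ≤ 𝐍(E) ∧ ¬ E ≤ 𝐍(W))
    ⟨piCoreOf_le_core2 {q} {q}ᶜ M, SM.trans (core2_norm _ _ _), norms_core2 _ _ AM, hn⟩
  refine AMin.false hN (M := M) (E := E) (Q0 := piCoreOf {q} M)
    ⟨hp, hq', pq, hM, hMp, hA, AM, SM, hS, AS, fix, hQ, piCoreOf_norm _ _, norms_piCoreOf _ AM, hWe, WQ, SW, AW,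
      JW, no, QE, EK.trans (core2_le _ _ _), ?_, SE, AnE, nE, fun X h1 h2 h3 h4 => ?_⟩ p2 hq
  · exact (piCoreOf_piGrp _ _).of_le (quo_core2_self {q} {q}ᶜ M ▸ quo_mono _ EK)
  · by_cases h5 : X ≤ 𝐍(W)
    · exact Or.inl h5
    · exact Or.inr (hmin X ⟨h1, h3, h4, h5⟩ h2)

end CA.SF
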