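/-
Solvable signalizer functors, block AM: the subgroup `W`, from the non-existence of the minimal configurations.
-/
import Cfsg.Agent.Lib.SF.AMc
import Cfsg.Agent.Lib.Fla.Stab

set_option autoImplicit false
set_option linter.unusedSectionVars false

namespace CA.SF

open Cfsg CA CA.Loc Subgroup

universe u

section
variable {G : Type*} [Group G] [Finite G]

theorem am_core5 {q : ℕ} (hq : q.Prime) (h5 : 5 ≤ q) {M S : Subgroup G} (hM : Group.IsSolvable M)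
    (SM : S ≤ M) (hS : PiGrp {q} S) (hO : piCoreOf {q}ᶜ M = ⊥) (hQ : piCoreOf {q} M ≤ S) :
    core2 {q} {q}ᶜ M ≤ 𝐍(𝐙(Je q S)) := by
  haveI : Fact q.Prime := ⟨hq⟩
  have LM : core2 {q} {q}ᶜ M ⊔ S ≤ M := sup_le (core2_le _ _ _) SM
  have QL : piCoreOf {q} M ⊴ core2 {q} {q}ᶜ M ⊔ S :=
    ⟨hQ.trans le_sup_right, LM.trans (piCoreOf_norm _ _)⟩
  have syl : SylowIn q S (core2 {q} {q}ᶜ M ⊔ S) := by
    have h1 := hall_sup_of_quo QL (SM.trans (piCoreOf_norm _ _)) (piCoreOf_piGrp {q} M) (by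
      rw [quo_sup (le_sup_left.trans QL.2) (le_sup_right.trans QL.2)]
      exact hall_of_sup_right (Or.inl (quo_norms _ (SM.trans (core2_norm _ _ _))))
        (quo_core2_self {q} {q}ᶜ M ▸ piCoreOf_piGrp _ _) (hS.quo _))
    rwa [sup_eq_right.2 hQ] at h1
  have hO' : piCoreOf {q}ᶜ (core2 {q} {q}ᶜ M ⊔ S) = ⊥ := by
    have h1 : piCoreOf {q}ᶜ (core2 {q} {q}ᶜ M ⊔ S) ≤ 𝐂(piCoreOf {q} M) :=
      (piCoreOf_normalIn _ _).cents_of_coprime QL ((piCoreOf_piGrp _ _).coprime' (piCoreOf_piGrp _ _))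
    have h2 := (le_inf ((piCoreOf_le _ _).trans LM) h1).trans (cent_piCoreOf_le hM hO)
    exact ((piCoreOf_piGrp _ _).of_le h2).eq_bot (piCoreOf_piGrp _ _)
  exact le_sup_left.trans (Fla.zj_core5 h5 (solvable_of_le hM LM) hO' syl)

theorem am_lift {q : ℕ} {M W : Subgroup G} (WM : W ≤ M) (hW : PiGrp {q} W)
    (h : core2 {q} {q}ᶜ (M /ₛ piCoreOf {q}ᶜ M) ≤ 𝐍(W /ₛ piCoreOf {q}ᶜ M)) :
    coreMod {q}ᶜ M (core2 {q}ᶜ {q} M) ≤ piCoreOf {q}ᶜ M ⊔ (M ⊓ 𝐍(W)) := by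
  have MO := piCoreOf_norm {q}ᶜ M
  have XM := (coreMod_normalIn {q}ᶜ (core2_normalIn {q}ᶜ {q} M)).1
  have e : coreMod {q}ᶜ M (core2 {q}ᶜ {q} M) /ₛ piCoreOf {q}ᶜ M = core2 {q} {q}ᶜ (M /ₛ piCoreOf {q}ᶜ M) := by
    rw [pmap_coreMod MO (core2_normalIn _ _ _)
      (by rw [pker_qmk]; exact inf_le_left.trans (piCoreOf_le_core2 _ _ _)), quo_core2_self, core2_eq_coreMod]
  rw [← e, quo_norms_iff (XM.trans MO) (WM.trans MO)] at h
  rw [← (copAct_p_right (WM.trans MO) (piCoreOf_piGrp _ _) hW).inf_norm_sup (piCoreOf_normalIn _ _)]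
  exact le_inf XM h

theorem quo_core_le {q : ℕ} {M S : Subgroup G} (SM : S ≤ M) (h : core2 {q}ᶜ {q} M ≤ piCoreOf {q}ᶜ M ⊔ S) :
    piCoreOf {q} (M /ₛ piCoreOf {q}ᶜ M) ≤ S /ₛ piCoreOf {q}ᶜ M := by
  rw [← quo_core2_self, ← quo_sup_left (SM.trans (piCoreOf_norm _ _))]
  exact quo_mono _ h

/-- Preimages in `S` when `O ∩ S = 1`. -/
theorem exists_preim {q : ℕ} {O S : Subgroup G} (SO : S ≤ 𝐍(O)) (hk : O ⊓ S = ⊥) {U : Subgroup (Quo O)}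
    (hU : U ≤ S /ₛ O) (he : IsElementaryAbelian q U) :
    ∃ B, B ≤ S ∧ IsElementaryAbelian q B ∧ B /ₛ O = U := by
  have e : (S ⊓ coq O U) /ₛ O = U := by rw [pmap_inf_pcomap, inf_eq_right.2 hU]
  have hle : S ⊓ coq O U ≤ 𝐍(O) := inf_le_left.trans SO
  have hk' : O ⊓ (S ⊓ coq O U) = ⊥ := eq_bot_iff.2 (hk ▸ inf_le_inf_left _ inf_le_left)
  refine ⟨_, inf_le_left, ⟨?_, fun a ha => ?_⟩, e⟩
  · rw [abelian_congr (quoEquivOfDisjoint hle hk'), e]; exact he.1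
  · have : a ^ q ∈ O ⊓ S := mem_inf.2 ⟨(qel_eq_one_iff (pow_mem (hle ha) _)).1 (by
      rw [pel_pow _ (hle ha)]; exact he.2 _ (mem_coq.1 (mem_inf.1 ha).2).2), pow_mem (mem_inf.1 ha).1 _⟩
    rwa [hk] at this

theorem relIndex_cent_quo {O S X Y : Subgroup G} (SO : S ≤ 𝐍(O)) (hk : O ⊓ S = ⊥) (XS : X ≤ S) (YS : Y ≤ S) :
    (𝐂(X /ₛ O)).relIndex (Y /ₛ O) = (𝐂(X)).relIndex Y := by
  rw [← relIndex_coq (YS.trans SO), ← inf_relIndex_left, ← inf_relIndex_left Y (𝐂(X))]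
  congr 1
  refine le_antisymm (le_inf inf_le_left ?_) (le_inf inf_le_left ?_)
  · have h1 : Y ⊓ coq O (𝐂(X /ₛ O)) ≤ S := inf_le_left.trans YS
    have h2 := (quo_cents_iff (h1.trans SO) (XS.trans SO)).1 ((le_coq_iff (h1.trans SO)).1 inf_le_right)
    exact comm_eq_bot_iff.1 (eq_bot_iff.2 (hk ▸ le_inf h2 (comm_le_of_le h1 XS)))
  · exact (le_coq_iff (inf_le_left.trans (YS.trans SO))).2 (quo_cents O inf_le_right)

theorem cj_mem_AE {q : ℕ} [Fact q.Prime] {S E : Subgroup G} {g : G} (hg : g ∈ 𝐍(Je q S)) (hE : E ∈ AE q S) :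
    cj g E ∈ AE q S :=
  mem_AE_of_card hE ((cj_le_of_mem_normalizer (le_Je hE) hg).trans (Je_le q S)) (hE.2.1.cj g)
    (card_cj g E).ge

theorem norm_sInf_AE {q : ℕ} [Fact q.Prime] (S : Subgroup G) : 𝐍(Je q S) ≤ 𝐍(sInf (AE q S)) :=
  fun _ hg => mem_normalizer_of_cj_le (le_sInf fun _ hE =>
    cj_le_iff.2 (sInf_le (cj_mem_AE (inv_mem hg) hE)))

theorem sInf_AE_ne_bot {q : ℕ} [hq : Fact q.Prime] {S : Subgroup G} (hS : PiGrp {q} S) (S1 : S ≠ ⊥) :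
    sInf (AE q S) ≠ ⊥ := by
  obtain ⟨Z, hZ⟩ := exists_elem_one_center (hS.isPGroup hq.out) S1
  have : Z ≤ sInf (AE q S) := le_sInf fun E hE => (Elem.maxElem hE le_rfl).le_of_cent
    (hZ.le.trans inf_le_left) (hZ.le.trans (inf_le_right.trans (cent_mono hE.1))) hZ.elemAb
  exact fun h => hZ.ne_bot one_pos (eq_bot_iff.2 (h ▸ this))

end

/-- AM, from the non-existence of the minimal configurations. -/
theorem amx_of (hN0 : ∀ (G : Type u) [Group G] [Finite G], NoMS G) {G : Type u} [Group G] [Finite G]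
    {p q : ℕ} (hp : p.Prime) (p2 : p ≠ 2) (hq : q.Prime) (pq : p ≠ q)
    {N S A : Subgroup G} (hA : PiGrp {p} A) (S1 : S ≠ ⊥) (hS : PiGrp {q} S) (AS : A ≤ 𝐍(S))
    (hN : Group.IsSolvable N) (hNp : PiGrp {p}ᶜ N) (AN : A ≤ 𝐍(N)) (SN : S ≤ N) (NJ : N ≤ 𝐍(Je q S))
    (fix : N ⊓ 𝐂(A) ≤ 𝐍(S)) :
    ∃ W : Subgroup G, W ≠ ⊥ ∧ W ≤ S ∧ N ≤ 𝐍(W) ∧ A ≤ 𝐍(W) ∧
      ∀ M : Subgroup G, Group.IsSolvable M → PiGrp {p}ᶜ M → A ≤ 𝐍(M) → S ≤ M → M ⊓ 𝐂(A) ≤ 𝐍(S) →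
        M ⊓ 𝐍(Je q S) ≤ N → core2 {q}ᶜ {q} M ≤ piCoreOf {q}ᶜ M ⊔ S →
        coreMod {q}ᶜ M (core2 {q}ᶜ {q} M) ≤ piCoreOf {q}ᶜ M ⊔ (M ⊓ 𝐍(W)) := by
  haveI : Fact q.Prime := ⟨hq⟩
  have AJ : A ≤ 𝐍(Je q S) := AS.trans (norm_le_norm_Je S)
  have Z1 := sInf_AE_ne_bot hS S1
  obtain ⟨A0, h0⟩ := exists_elem_pRank q S
  have ZA : sInf (AE q S) ≤ A0 := sInf_le h0
  rcases (show 5 ≤ q ∨ q = 2 ∨ q = 3 by
    by_contra h
    push Not at h
    have := hq.two_le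
    obtain rfl : q = 4 := by omega
    exact absurd hq (by norm_num)) with h5 | h23
  · have J1 : Je q S ≠ ⊥ := fun h => Z1 (eq_bot_iff.2 (h ▸ ZA.trans (le_Je h0)))
    have WS : 𝐙(Je q S) ≤ S := inf_le_left.trans (Je_le q S)
    refine ⟨𝐙(Je q S), center_ne_bot_pgroup ((hS.of_le (Je_le q S)).isPGroup hq) J1, WS, norms_center NJ,
      norms_center AJ, fun M hM _ _ SM _ _ hc => am_lift (WS.trans SM) (hS.of_le WS) ?_⟩
    have SO := SM.trans (piCoreOf_norm {q}ᶜ M)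
    have hk : pker (qmk (piCoreOf {q}ᶜ M)) ⊓ S = ⊥ := by
      rw [pker_qmk]; exact (piCoreOf_piGrp _ _).inf_eq_bot' hS
    rw [pmap_center_of_inj ((Je_le q S).trans SO) (eq_bot_iff.2 (hk ▸ inf_le_inf_left _ (Je_le q S))),
      pmap_Je SO hk]
    exact am_core5 hq h5 (solvable_quo hM _) (quo_mono _ SM) (hS.quo _) (piCoreOf_quo_self _ _)
      (quo_core_le SM hc)
  · have NZ : N ≤ 𝐍(sInf (AE q S)) := NJ.trans (norm_sInf_AE S)
    have AZ : A ≤ 𝐍(sInf (AE q S)) := AJ.trans (norm_sInf_AE S)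
    have ZE : ∀ E ∈ AE q S, sInf (AE q S) ≤ E := fun E hE => sInf_le hE
    generalize sInf (AE q S) = Z at *
    obtain ⟨W, hW⟩ : ∃ W, W = sSup {X | ∃ T, SylowIn q T N ∧ X = Z ⊓ 𝐂(T)} := ⟨_, rfl⟩
    have nW : ∀ X, X ≤ 𝐍(N) → X ≤ 𝐍(Z) → X ≤ 𝐍(W) := fun X h1 h2 => hW ▸
      norms_sSup_of_cj fun g hg _ ⟨T, hT, e⟩ => ⟨cj g T, hT.cj_of_mem_norm (h1 hg), by
        rw [e, cj_inf, cj_centralizer, cj_eq_of_mem_normalizer (h2 hg)]⟩
    have NW := nW N le_normalizer NZ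
    have AW := nW A AN AZ
    have WZ : W ≤ Z := hW ▸ sSup_le fun _ ⟨T, _, e⟩ => e ▸ inf_le_left
    have WS : W ≤ S := WZ.trans (ZA.trans h0.le)
    have hWe : IsElementaryAbelian q W := h0.elemAb.mono (WZ.trans ZA)
    have W1 : W ≠ ⊥ := by
      obtain ⟨T, hT⟩ := exists_sylowIn q N
      have h1 := inf_cent_ne_bot (SylowIn.isPGroup hT hq) (h0.elemAb.mono ZA).isPGroup (hT.le.trans NZ) Z1
      have h2 : Z ⊓ 𝐂(T) ≤ W := hW ▸ le_sSup ⟨T, hT, rfl⟩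
      exact fun h => h1 (eq_bot_iff.2 (h ▸ h2))
    have red : ∀ Q, Q ⊴ N → PiNum {q} ((𝐂(W)).relIndex Q) → Q ≤ 𝐂(W) := by
      intro Q hQ hi
      refine cents_symm ?_
      conv_lhs => rw [hW]
      refine sSup_le fun _ ⟨T, hT, e⟩ => ?_
      have h1 := (hT.inf_normal hQ).sup_eq_of_relIndex (N := Q ⊓ 𝐂(W)) inf_le_left
        (by rw [inf_relIndex_left]; exact hi)
      have h2 : Z ⊓ 𝐂(T) ≤ W := hW ▸ le_sSup ⟨T, hT, rfl⟩
      rw [e, ← h1]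
      exact cents_sup (inf_le_right.trans (cent_mono inf_le_left)) (h2.trans (cents_symm inf_le_right))
    have no := fun B => no_off_of hN0 (B := B) hp p2 h23 pq hWe hN hNp hA AN AW NW SN hS AS fix red
    refine ⟨W, W1, WS, NW, AW, fun M hM hMp AM SM fx hJ hc => am_lift (WS.trans SM) (hS.of_le WS) ?_⟩
    have MO := piCoreOf_norm {q}ᶜ M
    have OM := piCoreOf_le {q}ᶜ M
    have AO := norms_piCoreOf {q}ᶜ AM
    have hOp := piCoreOf_piGrp {q}ᶜ M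
    have h1 := piCoreOf_quo_self {q}ᶜ M
    have h2 := quo_core_le SM hc
    generalize piCoreOf {q}ᶜ M = O at *
    have SO := SM.trans MO
    have hk : O ⊓ S = ⊥ := hOp.inf_eq_bot' hS
    have hk' : ∀ {X}, X ≤ S → O ⊓ X = ⊥ := fun h => eq_bot_iff.2 (hk ▸ inf_le_inf_left _ h)
    refine am_core_of hN0 hp p2 h23 pq (solvable_quo hM O) (hMp.quo O) (hA.quo O) (quo_norms O AM)
      (quo_mono O SM) (hS.quo O) (quo_norms O AS) ?_ h1 h2 (fun U hU => ?_) (quo_norms O (SN.trans NW))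
      (quo_norms O AW) ?_ fun U US hU off => ?_
    · rw [← (copAct_p_right AM hMp hA).quo_inf_cent AO]
      exact quo_norms O fx
    · obtain ⟨B, BS, hB, rfl⟩ := exists_preim SO hk hU.1 hU.2.1
      refine quo_mono O (WZ.trans (ZE B (mem_AE_of_card h0 BS hB ?_)))
      rw [← card_quo_of_disjoint (BS.trans SO) (hk' BS), ← card_quo_of_disjoint (h0.le.trans SO) (hk' h0.le)]
      exact (mem_AE_iff.1 hU).2.2 _ (quo_mono O h0.le) (h0.elemAb.pmap _)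
    · rw [← pmap_Je SO (by rw [pker_qmk]; exact hk), ← (copAct_p_right ((Je_le q S).trans SO) hOp
        (hS.of_le (Je_le q S))).quo_inf_norm_of_le OM]
      exact quo_norms O (hJ.trans NW)
    · obtain ⟨B, BS, hB, rfl⟩ := exists_preim SO hk US hU
      rw [relIndex_cent_quo SO hk BS WS, relIndex_cent_quo SO hk WS BS] at off
      exact quo_cents O (no B BS hB off)

end CA.SF
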