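/-
The minimal configuration `MS` does not exist when `F` is elementary abelian.
-/
import Cfsg.Agent.Lib.SF.MLc

set_option autoImplicit false
set_option linter.unusedSectionVars false

namespace CA.SF
open Cfsg CA Subgroup

variable {G : Type*} [Group G] [Finite G]

theorem mem_norm_cj_self {g : G} {B : Subgroup G} : g ∈ 𝐍(cj g B) ↔ g ∈ 𝐍(B) := by
  rw [mem_normalizer_iff_cj, mem_normalizer_iff_cj, cj_inj]

theorem conj_mem_norm_cj {a g : G} {B : Subgroup G} : a * g * a⁻¹ ∈ 𝐍(cj a B) ↔ g ∈ 𝐍(B) := by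
  rw [← cj_normalizer, conj_mem_cj]

namespace MS
section gen
variable {p q t : ℕ} {V F S A B B' C : Subgroup G} {x u a : G} (h : MS p q t V F S A x)
include h

theorem conj (ha : a ∈ A) : MS p q t V F S A (a * x * a⁻¹) :=
  { h with
    xS := conj_mem_of_mem_normalizer (h.AS ha) h.xS
    xq := by rw [conj_pow, h.xq]; group
    idx := (ix_conj (h.AV ha) x).trans_le h.idx
    xF := fun c => h.xF (by simpa [mul_assoc] using conj_inv_mem_of_mem_normalizer (norms_cent h.AF ha) c) }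

theorem exists_commA : ∃ v ∈ F, v * x * v⁻¹ * x⁻¹ ≠ 1 := by
  by_contra k
  push Not at k
  exact h.xF (mem_cent_iff.2 fun v hv => by simpa [mul_inv_eq_one, mul_inv_eq_iff_eq_mul] using k v hv)

theorem hypA (hB : Hyp t V F B) (ha : a ∈ A) : Hyp t V F (cj a B) := hB.cj (h.AV ha) (h.AF ha)
theorem hypx (hB : Hyp t V F B) : Hyp t V F (cj x B) := hB.cj h.xV h.xF'

theorem stab_aux {X : Set (Subgroup G)} (hO : ∀ C, Hyp t V F C → x ∉ 𝐍(C) → C ∈ X) (hX : ∀ C ∈ X, Hyp t V F C) :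
    x ∈ stabS X := fun C hC => by
  by_cases e : x ∈ 𝐍(C)
  · rwa [cj_eq_of_mem_normalizer e]
  · exact hO _ (h.hypx (hX C hC)) (mt mem_norm_cj_self.1 e)

variable (hab : IsElementaryAbelian t F)
include hab

theorem cmpA : Cmp q t V F := h.cmp hab le_rfl

theorem finA (hB : Hyp t V F B) (hu : u ∈ F) (hn : u ∉ B) (hp : ¬ p ∣ t - 1)
    (h1 : ∀ a ∈ A, cj a B ≠ B → u ∈ cj a B) : False :=
  hn (norm_lem h.hp h.hA h.Fp h.AF ((abelian_iff_der.1 hab.1).le.trans bot_le) hB.le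
    (((le_inf inf_le_left h.fix).trans (h.copS.cent_eq_bot_of_abelian hab.1 h.comm).le).trans bot_le) (A0 := 𝐍(B)) hu
    (fun a ha hn => small_prime h.ht h.hp (h.hA.inf_left 𝐍(B)) h.Fp (inf_le_left.trans h.AF) inf_le_right hB.le
      ((h.cmpA hab).Y_norm hB.le) hB.idx hp a ⟨ha, hn⟩ u hu)
    fun a ha k => mem_cj_inv.1 (h1 _ (inv_mem ha) fun e => k (inv_mem_iff.1 (mem_normalizer_iff_cj.2 e))))

theorem fin1 (hB : Hyp t V F B) (hu : u ∈ F) (hn : u ∉ B) (hp : ¬ p ∣ t - 1)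
    (h1 : ∀ C, Hyp t V F C → u ∉ C → C = B) : False :=
  h.finA hab hB hu hn hp fun _ ha e => by_contra fun c => e (h1 _ (h.hypA hB ha) c)

theorem step {U : Subgroup G} (hC : Hyp t V F C) (hx : cj x C ≠ C) (h1 : U ≤ ⁅V, C⁆) (h2 : cj x U ≤ ⁅V, C⁆)
    (h3 : U ⊓ 𝐂[x] = ⊥) : (VB V F C ⊔ U) ⊓ 𝐂[x] = ⊥ := eq_bot_iff.2 fun w hw => by
  have c := h.cmpA hab
  obtain ⟨a, ha, b, hb, rfl⟩ := (mem_sup_of_norm_right (norms_of_cents (cents_symm
    (c.VB_cents hC.le (h1.trans (c.comm_leV hC.le)))))).1 hw.1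
  have e : a = x * a * x⁻¹ * (x * b * x⁻¹) * b⁻¹ := by
    rw [eq_mul_inv_iff_mul_eq, conj_mul, ← mem_cent1_iff.1 hw.2, mul_inv_cancel_right]
  have : a = 1 := c.eq_one_of_comm hC.le (e ▸ mul_mem (mul_mem (c.VB_le_comm hC (h.hypx hC) hx.symm
    (cj_VB h.xV h.xF' C ▸ conj_mem_cj.2 ha)) (h2 (conj_mem_cj.2 hb))) (inv_mem (h1 hb))) ha
  rw [this, one_mul] at hw ⊢
  exact h3.le ⟨hb, hw.2⟩

theorem step0 (hC : Hyp t V F C) (hx : cj x C ≠ C) : VB V F C ⊓ 𝐂[x] = ⊥ := by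
  simpa using h.step hab (U := ⊥) hC hx bot_le (by simp) (by simp)

theorem step1 (hB : Hyp t V F B) (hC : Hyp t V F C) (hx : cj x B ≠ B) (hy : cj x C ≠ C) (n1 : B ≠ C) (n2 : B ≠ cj x C) :
    (VB V F B ⊔ VB V F C) ⊓ 𝐂[x] = ⊥ :=
  h.step hab hB hx ((h.cmpA hab).VB_le_comm hB hC n1)
    (cj_VB h.xV h.xF' C ▸ (h.cmpA hab).VB_le_comm hB (h.hypx hC) n2) (h.step0 hab hC hy)

theorem dvd_of_fix {v : G} (hB : Hyp t V F B) (hv : v ∈ F) (hn : v * x * v⁻¹ * x⁻¹ ∉ B) (hx : x ∈ 𝐍(B)) : q ∣ t - 1 :=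
  by_contra fun c => hn (by
    simpa [mul_assoc] using inv_mem (small_prime h.ht h.qp (h.hS.of_le (zpowers_le.2 h.xS)) h.Fq (zpowers_le.2 h.xF')
      (zpowers_le.2 hx) hB.le ((h.cmpA hab).Y_norm hB.le) hB.idx c x (mem_zpowers x) v hv))
end gen

/-! ### `q = 3` -/
section three
variable {p t : ℕ} {V F S A B B' C : Subgroup G} {x u a : G} (h : MS p 3 t V F S A x) (hab : IsElementaryAbelian t F)
include h

theorem ne2 (hx : x ∉ 𝐍(B)) : B ≠ cj x (cj x B) := fun e =>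
  hx (mem_of_pow_mem' (n := 2) (by norm_num) h.xq (by norm_num) (by rw [sq, mem_normalizer_iff_cj, cj_mul, ← e]))

include hab

theorem three_le (hB : Hyp t V F B) : 3 ≤ Nat.card (VB V F B) := by
  obtain ⟨k, k0, e, -⟩ := (h.cmpA hab).card_VB hB
  exact e ▸ Nat.le_self_pow k0.ne' 3

theorem two_of_not_fix (hB : Hyp t V F B) (hx : x ∉ 𝐍(B)) : t = 2 := by
  have c := h.cmpA hab
  have n1 : cj x B ≠ B := mt mem_normalizer_iff_cj.2 hx
  have h1 := (card_le_ix (sup_le (c.VB_leV hB.le) (c.VB_leV (h.hypx hB).le))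
    (h.step1 hab hB (h.hypx hB) n1 (mt cj_inj.1 n1) n1.symm (h.ne2 hx))).trans h.idx
  rw [c.card2 hB (h.hypx hB) n1.symm] at h1
  have h2 := h.three_le hab (h.hypx hB)
  obtain ⟨k, k0, e, m⟩ := c.card_VB hB
  have h3 : 3 ^ k ≤ 3 ^ 1 := by rw [← e]; nlinarith
  obtain rfl : k = 1 := by have := (Nat.pow_le_pow_iff_right (by norm_num)).1 h3; omega
  exact (Nat.prime_dvd_prime_iff_eq h.ht Nat.prime_two).1 ((Nat.modEq_iff_dvd' (by norm_num)).1 m.symm)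

theorem ncard_not_fix : {C | Hyp t V F C ∧ x ∉ 𝐍(C)}.ncard ≤ 3 := by
  have c := h.cmpA hab
  rcases Set.eq_empty_or_nonempty {C | Hyp t V F C ∧ x ∉ 𝐍(C)} with e | ⟨B, hB, hx⟩
  · simp [e]
  refine (Set.ncard_le_ncard (t := {B, cj x B, cj x (cj x B)}) ?_).trans
    ((Set.ncard_insert_le _ _).trans (Nat.succ_le_succ ((Set.ncard_insert_le _ _).trans (by simp))))
  rintro C ⟨hC, hy⟩
  by_contra k
  simp only [Set.mem_insert_iff, Set.mem_singleton_iff, not_or] at k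
  have n1 : cj x B ≠ B := mt mem_normalizer_iff_cj.2 hx
  have n2 : B ≠ cj x C := fun e => k.2.2 (by rw [e, cj_cj, cj_cj, ← pow_three', h.xq, cj_one])
  have h1 := h.step hab hB n1 (sup_le (c.VB_le_comm hB (h.hypx hB) n1.symm) (c.VB_le_comm hB hC (Ne.symm k.1))) (by
    rw [cj_sup, cj_VB h.xV h.xF', cj_VB h.xV h.xF']
    exact sup_le (c.VB_le_comm hB (h.hypx (h.hypx hB)) (h.ne2 hx)) (c.VB_le_comm hB (h.hypx hC) n2))
    (h.step1 hab (h.hypx hB) hC (mt cj_inj.1 n1) (mt mem_normalizer_iff_cj.2 hy) (Ne.symm k.2.1) (mt cj_inj.1 (Ne.symm k.1)))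
  rw [← sup_assoc] at h1
  have h2 := (card_le_ix (sup_le (sup_le (c.VB_leV hB.le) (c.VB_leV (h.hypx hB).le)) (c.VB_leV hC.le)) h1).trans h.idx
  rw [c.card3 hB (h.hypx hB) hC n1.symm (Ne.symm k.1) (Ne.symm k.2.1)] at h2
  have := Nat.mul_le_mul (Nat.mul_le_mul (h.three_le hab hB) (h.three_le hab (h.hypx hB))) (h.three_le hab hC)
  omega

theorem fix_of_not_fix (hB : Hyp t V F B) (ha : a ∈ A) (h1 : x ∉ 𝐍(B)) (h2 : x ∉ 𝐍(cj a B)) : a ∈ 𝐍(B) := by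
  set O := {C | Hyp t V F C ∧ x ∉ 𝐍(C)}
  set O' := {C | Hyp t V F C ∧ a * x * a⁻¹ ∉ 𝐍(C)}
  have hX : ∀ C ∈ O ∪ O', Hyp t V F C := fun C hC => hC.elim (·.1) (·.1)
  have sx : x ∈ S ⊓ stabS (O ∪ O') := ⟨h.xS, h.stab_aux (fun C a b => Or.inl ⟨a, b⟩) hX⟩
  have sy : a * x * a⁻¹ ∈ S ⊓ stabS (O ∪ O') := ⟨(h.conj ha).xS, (h.conj ha).stab_aux (fun C a b => Or.inr ⟨a, b⟩) hX⟩
  have d1 := dvd_ncard_cj Nat.prime_three (h.hS.inf_left (stabS (O ∪ O'))) inf_le_right fun C hC e =>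
    hC.elim (fun k => k.2 (e sx)) fun k => k.2 (e sy)
  have d2 := dvd_ncard_cj Nat.prime_three (h.hS.inf_left (stabS O)) inf_le_right fun C hC e =>
    hC.2 (e ⟨h.xS, h.stab_aux (fun C a b => ⟨a, b⟩) fun C hC => hC.1⟩)
  have l1 : O.ncard ≤ 3 := h.ncard_not_fix hab
  have l2 : O'.ncard ≤ 3 := (h.conj ha).ncard_not_fix hab
  have l3 := Set.ncard_union_add_ncard_inter O O'
  have l4 : 0 < (O ∩ O').ncard := (Set.ncard_pos (Set.toFinite _)).2
    ⟨cj a B, ⟨h.hypA hB ha, h2⟩, h.hypA hB ha, mt conj_mem_norm_cj.1 h1⟩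
  have l5 : 0 < O.ncard := (Set.ncard_pos (Set.toFinite _)).2 ⟨B, hB, h1⟩
  have e : O = O ∪ O' := Set.eq_of_subset_of_ncard_le Set.subset_union_left (by omega)
  have p3 : 3 < p := lt_of_le_of_ne (lt_of_le_of_ne h.hp.two_le h.p2.symm) h.pq.symm
  exact zpowers_le.1 (norm_of_ncard_lt h.hp (h.hA.of_le (zpowers_le.2 ha)) (X := O) (zpowers_le.2 fun C hC =>
    e ▸ Or.inr ⟨h.hypA hC.1 ha, mt conj_mem_norm_cj.1 hC.2⟩) (by omega) ⟨hB, h1⟩)

theorem false_ab3 : False := by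
  have c := h.cmpA hab
  obtain ⟨v, hv, u1⟩ := h.exists_commA
  have hu := h.comm_mem hv
  obtain ⟨B, hB, hn⟩ := h.exists_supp hab le_rfl hu u1
  by_cases t2 : t = 2
  · have k : ∀ {C}, Hyp t V F C → v * x * v⁻¹ * x⁻¹ ∉ C → x ∉ 𝐍(C) := fun hC hn e => by
      have := h.dvd_of_fix hab hC hv hn e
      rw [t2] at this; norm_num at this
    exact h.finA hab hB hu hn (by rw [t2]; simpa using h.hp.one_lt.ne') fun a ha e => by_contra fun m =>
      e (mem_normalizer_iff_cj.1 (h.fix_of_not_fix hab hB ha (k hB hn) (k (h.hypA hB ha) m)))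
  have k : ∀ {C}, Hyp t V F C → v * x * v⁻¹ * x⁻¹ ∉ C → t = 13 ∧ Nat.card (VB V F C) = 27 := fun {C} hC hn => by
    have h1 := h.dvd_of_fix hab hC hv hn (by_contra fun e => t2 (h.two_of_not_fix hab hC e))
    have h2 := (card_le_ix (c.VB_leV hC.le) (c.fpf hC hu hn)).trans (h.ix_comm hv)
    obtain ⟨k, k0, e, m⟩ := c.card_VB hC
    rw [e] at h2 ⊢
    have h3 := (Nat.modEq_iff_dvd' (Nat.one_le_pow _ _ (by norm_num))).1 m.symm
    have h4 := (Nat.pow_le_pow_iff_right (by norm_num)).1 h2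
    have h5 := (h.ht.eq_two_or_odd).resolve_left t2
    have h6 := h.ht.two_le
    have h7 : t ≤ 80 := (Nat.le_of_dvd (Nat.sub_pos_of_lt (Nat.one_lt_pow k0.ne' (by norm_num))) h3).trans (by omega)
    exact (by decide : ∀ t ≤ 80, ∀ k ≤ 4, (0 < k ∧ 2 ≤ t ∧ t % 2 = 1) ∧ t ∣ 3 ^ k - 1 ∧ 3 ∣ t - 1 → t = 13 ∧ 3 ^ k = 27)
      t h7 k h4 ⟨⟨k0, h6, h5⟩, h3, h1⟩
  refine h.fin1 hab hB hu hn (fun d => ?_) fun C hC m => by_contra fun e => ?_
  · rw [(k hB hn).1] at d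
    rcases (Nat.Prime.dvd_mul h.hp (m := 2 ^ 2) (n := 3)).1 d with d | d
    · exact h.p2 ((Nat.prime_dvd_prime_iff_eq h.hp Nat.prime_two).1 (h.hp.dvd_of_dvd_pow d))
    · exact h.pq ((Nat.prime_dvd_prime_iff_eq h.hp Nat.prime_three).1 d)
  · have := (c.ix2 hC hB e (c.Y_norm_VB C hu) (c.Y_norm_VB B hu)).trans (h.ix_comm hv)
    rw [c.ix_VB hC hu m, c.ix_VB hB hu hn, (k hC m).2, (k hB hn).2] at this
    omega
end three

/-! ### `q = 2` -/
section two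
variable {p t : ℕ} {V F S A B B' C : Subgroup G} {x u w a : G}

/-- the elements of `F` inverted by `x` -/
def Inv (F : Subgroup G) (x u : G) : Prop := u ∈ F ∧ x * u * x⁻¹ = u⁻¹

theorem Inv.inv (hu : Inv F x u) : Inv F x u⁻¹ := ⟨inv_mem hu.1, by rw [← conj_inv, hu.2]⟩
theorem Inv.pow (hu : Inv F x u) (n : ℕ) : Inv F x (u ^ n) := ⟨pow_mem hu.1 n, by rw [← conj_pow, hu.2, inv_pow]⟩
theorem Inv.mul (hab : IsElementaryAbelian t F) (hu : Inv F x u) (hw : Inv F x w) : Inv F x (u * w) :=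
  ⟨mul_mem hu.1 hw.1, by rw [← conj_mul, hu.2, hw.2, hab.mul_comm hu.1 hw.1, mul_inv_rev]⟩

variable (h : MS p 2 t V F S A x) (hab : IsElementaryAbelian t F)
include h

theorem xx : x * x = 1 := sq x ▸ h.xq
theorem cjxx (B : Subgroup G) : cj x (cj x B) = B := by rw [cj_cj, h.xx, cj_one]
theorem inv_comm (hw : w ∈ F) : Inv F x (w * x * w⁻¹ * x⁻¹) := ⟨h.comm_mem hw, by
  calc _ = x * w * x⁻¹ * (x * x) * w⁻¹ * (x * x)⁻¹ := by group
    _ = _ := by rw [h.xx]; group⟩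
theorem not_mem_cjx (hu : Inv F x u) (hn : u ∉ B) : u ∉ cj x B := fun e => hn (by
  have := conj_mem_cj (g := x).2 e
  rwa [h.cjxx, hu.2, inv_mem_iff] at this)
theorem p_not_dvd {k : ℕ} : ¬ p ∣ 2 ^ k := fun d =>
  h.p2 ((Nat.prime_dvd_prime_iff_eq h.hp Nat.prime_two).1 (h.hp.dvd_of_dvd_pow d))
theorem t_not_dvd : ¬ t ∣ 2 := fun d => h.tq ((Nat.prime_dvd_prime_iff_eq h.ht Nat.prime_two).1 d)

include hab

theorem eq_comm_of_inv (hu : Inv F x u) : ∃ v ∈ F, u = v * x * v⁻¹ * x⁻¹ := by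
  obtain ⟨m, e⟩ := h.ht.odd_of_ne_two h.tq
  refine ⟨u ^ (m + 1), pow_mem hu.1 _, ?_⟩
  rw [mul_assoc, mul_assoc, ← mul_assoc x, (hu.pow _).inv.2, inv_inv, ← pow_add, show m + 1 + (m + 1) = t + 1 by omega,
    pow_succ, hab.2 u hu.1, one_mul]

theorem ix_inv_le (hu : Inv F x u) : ix V u ≤ 16 := by
  obtain ⟨v, hv, rfl⟩ := h.eq_comm_of_inv hab hu
  exact h.ix_comm hv

theorem four_le (hB : Hyp t V F B) : 4 ≤ Nat.card (VB V F B) := by
  obtain ⟨k, k0, e, m⟩ := (h.cmpA hab).card_VB hB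
  have : k ≠ 1 := by
    rintro rfl
    exact h.ht.one_lt.ne' (Nat.dvd_one.1 ((Nat.modEq_iff_dvd' (by norm_num)).1 m.symm))
  exact e ▸ Nat.pow_le_pow_right (n := 2) (i := 2) (by norm_num) (by omega)

theorem no3 (hu : Inv F x u) (hB : Hyp t V F B) (hB' : Hyp t V F B') (hC : Hyp t V F C) (n0 : B ≠ B') (n1 : B ≠ C)
    (n2 : B' ≠ C) (m0 : u ∉ B) (m1 : u ∉ B') : u ∈ C := by_contra fun m2 => by
  have c := h.cmpA hab
  have := (c.ix3 hB hB' hC n0 n1 n2 (c.Y_norm_VB _ hu.1) (c.Y_norm_VB _ hu.1) (c.Y_norm_VB _ hu.1)).trans (h.ix_inv_le hab hu)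
  rw [c.ix_VB hB hu.1 m0, c.ix_VB hB' hu.1 m1, c.ix_VB hC hu.1 m2] at this
  have := Nat.mul_le_mul (Nat.mul_le_mul (h.four_le hab hB) (h.four_le hab hB')) (h.four_le hab hC)
  omega

theorem three_of_two (hu : Inv F x u) (hB : Hyp t V F B) (hB' : Hyp t V F B') (n0 : B ≠ B') (m0 : u ∉ B) (m1 : u ∉ B') :
    t = 3 := by
  have c := h.cmpA hab
  have h1 := (c.ix2 hB hB' n0 (c.Y_norm_VB _ hu.1) (c.Y_norm_VB _ hu.1)).trans (h.ix_inv_le hab hu)
  rw [c.ix_VB hB hu.1 m0, c.ix_VB hB' hu.1 m1] at h1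
  have h2 := h.four_le hab hB
  have h3 := h.four_le hab hB'
  obtain ⟨k, -, e, m⟩ := c.card_VB hB
  rw [← e, show Nat.card (VB V F B) = 4 by nlinarith] at m
  exact (Nat.prime_dvd_prime_iff_eq h.ht Nat.prime_three).1 ((Nat.modEq_iff_dvd' (by norm_num)).1 m.symm)

theorem other (hu : Inv F x u) (hB : Hyp t V F B) (hn : u ∉ B) : ∃ C, Hyp t V F C ∧ u ∉ C ∧ B ≠ C := by
  by_contra k
  push Not at k
  have c := h.cmpA hab
  refine h.fin1 hab hB hu.1 hn ?_ fun C hC m => (k C hC m).symm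
  have hx := mem_norm_VB h.xV h.xF' (mem_normalizer_iff_cj.2 (k _ (h.hypx hB) (h.not_mem_cjx hu hn)).symm)
  have h1 := (card_le_ix (c.VB_leV hB.le) (c.fpf hB hu.1 hn)).trans (h.ix_inv_le hab hu)
  have h2 := ix_le_card (c.elem_VB hB.le) hx h.xq
  have h3 := card_mul_ix (VB V F B) x
  have h4 := c.ix_VB hB hu.1 hn
  obtain ⟨v, hv, rfl⟩ := h.eq_comm_of_inv hab hu
  have h5 := SF.ix_comm (c.Y_norm_VB B hv) x
  have h6 := h.four_le hab hB
  obtain ⟨j, -, e, m⟩ := c.card_VB hB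
  replace m := (Nat.modEq_iff_dvd' (Nat.one_le_pow _ _ (by norm_num))).1 m.symm
  rw [h4] at h5
  rw [e] at h1 h3 h5 h6
  have h7 : j ≤ 4 := (Nat.pow_le_pow_iff_right (a := 2) (by norm_num)).1 h1
  interval_cases j
  · omega
  · omega
  · rw [(Nat.prime_dvd_prime_iff_eq h.ht Nat.prime_three).1 m]; exact h.p_not_dvd (k := 1)
  · have : 3 ≤ ix (VB V F B) x := by nlinarith
    nlinarith
  · rcases (Nat.Prime.dvd_mul h.ht (m := 3) (n := 5)).1 m with d | d <;>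
      rw [(Nat.prime_dvd_prime_iff_eq h.ht (by norm_num)).1 d]
    exacts [h.p_not_dvd (k := 1), h.p_not_dvd (k := 2)]

theorem not_fix (hu : Inv F x u) (hB : Hyp t V F B) (hB' : Hyp t V F B') (n0 : B ≠ B') (m0 : u ∉ B) (m1 : u ∉ B') :
    cj x B = B' := by_contra fun k => by
  have c := h.cmpA hab
  have e1 : B = cj x B := by_contra fun e => h.not_mem_cjx hu m0 (h.no3 hab hu hB hB' (h.hypx hB) n0 e (Ne.symm k) m0 m1)
  have e2 : B' = cj x B' := by_contra fun e => h.not_mem_cjx hu m1 (h.no3 hab hu hB hB' (h.hypx hB') n0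
    (fun e' => n0 (cj_inj.1 (e1.symm.trans e'))) e m0 m1)
  obtain ⟨b, hb, nb⟩ := hB'.exists_not_mem hB n0.symm
  have i := h.inv_comm (hB'.le hb)
  have j : b * x * b⁻¹ * x⁻¹ ∈ B' := by
    convert mul_mem hb (e2 ▸ conj_mem_cj.2 (inv_mem hb) : x * b⁻¹ * x⁻¹ ∈ B') using 1; group
  have l : b * x * b⁻¹ * x⁻¹ ∉ B := fun l => nb (by
    obtain ⟨d, hd, n, rfl⟩ := c.exists_mul_pow hB hu.1 m0 (hB'.le hb)
    refine mul_mem hd (c.mem_of_pow (pow_mem hu.1 n) h.t_not_dvd ?_)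
    have := mul_mem (mul_mem (inv_mem hd) l) (e1 ▸ conj_mem_cj.2 hd : x * d * x⁻¹ ∈ B)
    convert this using 1
    rw [sq]; nth_rewrite 2 [← inv_inv (u ^ n)]; rw [← (hu.pow n).inv.2]; group)
  obtain ⟨C, hC, mC, nC⟩ := h.other hab i hB l
  have n2 : B' ≠ C := fun e => mC (e ▸ j)
  have uC := h.no3 hab hu hB hB' hC n0 nC n2 m0 m1
  have k : ∀ w, Inv F x w → w ∈ B' → w ∉ C → u * w ∈ B := fun w a1 a2 a3 =>
    h.no3 hab (hu.mul hab a1) hB' hC hB n2 n0.symm nC.symm (by rwa [B'.mul_mem_cancel_right a2])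
      (by rwa [C.mul_mem_cancel_left uC])
  refine m0 (c.mem_of_pow hu.1 h.t_not_dvd ?_)
  convert mul_mem (k _ i j mC) (k _ i.inv (inv_mem j) (mt inv_mem_iff.1 mC)) using 1
  rw [hab.mul_comm hu.1 i.inv.1, sq]; group

theorem fix_other (hu : Inv F x u) (hB : Hyp t V F B) (n0 : B ≠ cj x B) (m0 : u ∉ B) (hC : Hyp t V F C) (n1 : B ≠ C)
    (n2 : cj x B ≠ C) : x ∈ 𝐍(C) := by
  have c := h.cmpA hab
  have m1 := h.not_mem_cjx hu m0
  have k : ∀ b ∈ B, Inv F x b → b = 1 := fun b hb i => by_contra fun b1 => by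
    have hb' : b ∈ cj x B := inv_mem_iff.1 (i.2 ▸ conj_mem_cj.2 hb)
    obtain ⟨D, hD, mD⟩ := h.exists_supp hab le_rfl i.1 b1
    have n1 : B ≠ D := fun e => mD (e ▸ hb)
    have n2 : cj x B ≠ D := fun e => mD (e ▸ hb')
    exact mD ((D.mul_mem_cancel_left (h.no3 hab hu hB (h.hypx hB) hD n0 n1 n2 m0 m1)).1 (h.no3 hab (hu.mul hab i) hB
      (h.hypx hB) hD n0 n1 n2 (by rwa [B.mul_mem_cancel_right hb]) (by rwa [(cj x B).mul_mem_cancel_right hb'])))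
  refine mem_normalizer_of_cj_le (cj_le_iff'.2 fun g hg => ?_)
  have i := h.inv_comm (hC.le hg)
  obtain ⟨d, hd, n, e⟩ := c.exists_mul_pow hB hu.1 m0 i.1
  rw [k d hd (by rw [eq_mul_inv_of_mul_eq e.symm]; exact i.mul hab (hu.pow n).inv), one_mul] at e
  convert mul_mem (inv_mem (e ▸ pow_mem (h.no3 hab hu hB (h.hypx hB) hC n0 n1 n2 m0 m1) n)) hg using 1
  group

theorem false_ab2 : False := by
  obtain ⟨v, hv, u1⟩ := h.exists_commA
  have hu := h.inv_comm hv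
  generalize v * x * v⁻¹ * x⁻¹ = u at hu u1
  obtain ⟨B, hB, m0⟩ := h.exists_supp hab le_rfl hu.1 u1
  obtain ⟨B', hB', m1, n0⟩ := h.other hab hu hB m0
  refine h.finA hab hB hu.1 m0 (by rw [h.three_of_two hab hu hB hB' n0 m0 m1]; exact h.p_not_dvd (k := 1))
    fun a ha e => by_contra fun m => ?_
  have e1 := h.not_fix hab hu hB (h.hypA hB ha) e.symm m0 m
  have n1 : B ≠ cj a (cj a B) := fun k => e (mem_normalizer_iff_cj.1 (mem_of_pow_mem_pi (n := 2 ^ 1) (h.hA.piElt ha)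
    h.p_not_dvd (by rw [pow_one, sq, mem_normalizer_iff_cj, cj_mul, ← k])))
  have f := fun {C} => h.fix_other hab (C := C) hu hB (e1 ▸ e.symm) m0
  have y1 : cj (a * x * a⁻¹) B = B := by
    have := conj_mem_norm_cj (a := a).2 (f (h.hypA hB (inv_mem ha)) (fun k => e (cj_eq_iff.2 k))
      fun k => n1 (by rw [← e1, k, cj_cj_inv]))
    rwa [cj_cj_inv, mem_normalizer_iff_cj] at this
  have y2 : cj (a * x * a⁻¹) (cj a B) = cj a (cj a B) := by rw [cj_cj, inv_mul_cancel_right, cj_mul, e1]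
  have y3 : cj (a * x * a⁻¹) (cj a (cj a B)) = cj a B := by
    rw [cj_cj _ a, inv_mul_cancel_right, cj_mul, ← e1, h.cjxx, e1]
  have x2 := mem_normalizer_iff_cj.1 (f (h.hypA (h.hypA hB ha) ha) n1 fun k => e (cj_inj.1 (e1.symm.trans k)).symm)
  have := mem_of_pow_mem_pi (n := 3) (H := 𝐍(B)) (h.hS.piElt (mul_mem h.xS (h.conj ha).xS)) (by norm_num) (by
    rw [pow_three, mem_normalizer_iff_cj, cj_mul, cj_mul (x * _), cj_mul x _ B, y1, e1, cj_mul x _ (cj a B), y2, x2,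
      cj_mul, y3, ← e1, h.cjxx])
  rw [mem_normalizer_iff_cj, cj_mul, y1, e1] at this
  exact e this
end two

/-- MLa: the abelian case. -/
theorem false_ab {p q t : ℕ} {V F S A : Subgroup G} {x : G} (h : MS p q t V F S A x)
    (hab : IsElementaryAbelian t F) : False := by
  rcases h.hq with rfl | rfl
  exacts [h.false_ab2 hab, h.false_ab3 hab]

end MS
end CA.SF
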