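/-
Solvable signalizer functors: tools for the special case of the minimal configuration.
-/
import Cfsg.Agent.Lib.SF.Defs
import Cfsg.Agent.Lib.G.Critical

set_option autoImplicit false
set_option linter.unusedSectionVars false

namespace CA.SF

open Cfsg CA Subgroup

variable {G : Type*} [Group G] {F B W X V U : Subgroup G} {g g' k k' a f x : G}

/-- the commutator `g k g⁻¹ k⁻¹` -/
def cm (g k : G) : G := g * k * g⁻¹ * k⁻¹

theorem cm_def (g k : G) : cm g k = g * k * g⁻¹ * k⁻¹ := rfl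
theorem cm_mem_comm {A C : Subgroup G} (hg : g ∈ A) (hk : k ∈ C) : cm g k ∈ ⁅A, C⁆ := commutator_mem_commutator hg hk
theorem cm_inv (g k : G) : (cm g k)⁻¹ = cm k g := by simp only [cm]; group
theorem cm_self (g : G) : cm g g = 1 := by simp only [cm]; group
theorem cm_one_left (g : G) : cm 1 g = 1 := by simp only [cm]; group
theorem cm_one_right (g : G) : cm g 1 = 1 := by simp only [cm]; group
theorem cm_eq_one : cm g k = 1 ↔ g * k = k * g := commutatorElement_eq_one_iff_mul_comm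
theorem conj_cm (a g k : G) : a * cm g k * a⁻¹ = cm (a * g * a⁻¹) (a * k * a⁻¹) := by simp only [cm]; group
theorem conj_eq_cm (g k : G) : g * k * g⁻¹ = cm g k * k := by simp only [cm]; group

section class2
variable (c2 : ⁅F, F⁆ ≤ 𝐙(F))
include c2

theorem cm_Z (hg : g ∈ F) (hk : k ∈ F) : cm g k ∈ 𝐙(F) := c2 (cm_mem_comm hg hk)
theorem cm_comm (hg : g ∈ F) (hk : k ∈ F) (ha : a ∈ F) : a * cm g k = cm g k * a :=
  mem_cent_iff.1 (cm_Z c2 hg hk).2 a ha
theorem cm_mul_left (hg : g ∈ F) (hg' : g' ∈ F) (hk : k ∈ F) : cm (g * g') k = cm g k * cm g' k := by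
  rw [← cm_comm c2 hg hk (cm_Z c2 hg' hk).1, show cm (g * g') k = g * cm g' k * g⁻¹ * cm g k by simp only [cm]; group,
    cm_comm c2 hg' hk hg, mul_inv_cancel_right]
theorem cm_mul_right (hg : g ∈ F) (hk : k ∈ F) (hk' : k' ∈ F) : cm g (k * k') = cm g k * cm g k' := by
  rw [show cm g (k * k') = cm g k * (k * cm g k' * k⁻¹) by simp only [cm]; group, cm_comm c2 hg hk' hk,
    mul_inv_cancel_right]
theorem cm_pow_left (hg : g ∈ F) (hk : k ∈ F) (n : ℕ) : cm (g ^ n) k = cm g k ^ n := by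
  induction n with
  | zero => rw [pow_zero, pow_zero, cm_one_left]
  | succ n ih => rw [pow_succ, pow_succ, cm_mul_left c2 (pow_mem hg n) hg hk, ih]
theorem cm_pow_right (hg : g ∈ F) (hk : k ∈ F) (n : ℕ) : cm g (k ^ n) = cm g k ^ n := by
  induction n with
  | zero => rw [pow_zero, pow_zero, cm_one_right]
  | succ n ih => rw [pow_succ, pow_succ, cm_mul_right c2 hg (pow_mem hk n) hk, ih]
theorem cm_inv_left (hg : g ∈ F) (hk : k ∈ F) : cm g⁻¹ k = (cm g k)⁻¹ :=
  eq_inv_of_mul_eq_one_left (by rw [← cm_mul_left c2 (inv_mem hg) hg hk, inv_mul_cancel, cm_one_left])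
theorem cm_inv_right (hg : g ∈ F) (hk : k ∈ F) : cm g k⁻¹ = (cm g k)⁻¹ :=
  eq_inv_of_mul_eq_one_left (by rw [← cm_mul_right c2 hg (inv_mem hk) hk, inv_mul_cancel, cm_one_right])

end class2

theorem cm_of_center (hg : g ∈ 𝐙(F)) (hk : k ∈ F) : cm g k = 1 := cm_eq_one.2 (mem_cent_iff'.1 hg.2 k hk)

variable [Finite G]

/-- the `t`-th powers in a special group with `⁅F, S⁆ = F`, `t` odd -/
theorem pow_eq_one_of_special {t : ℕ} [Fact t.Prime] (t2 : t ≠ 2) {S : Subgroup G} (hs : Special t F)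
    (hn : S ≤ 𝐍(F)) (hc : ⁅F, S⁆ = F) (hZ : 𝐙(F) ≤ 𝐂(S)) (hg : g ∈ F) : g ^ t = 1 := by
  have m := mul_pow_of_phi_le_center t2 hs.isPGroup (hs.phi_eq.le.trans inf_le_right)
  let K : Subgroup G :=
    { carrier := {g | g ∈ F ∧ g ^ t = 1}
      one_mem' := ⟨one_mem _, one_pow _⟩
      mul_mem' := fun {a b} ha hb => ⟨mul_mem ha.1 hb.1, by rw [m a ha.1 b hb.1, ha.2, hb.2, one_mul]⟩
      inv_mem' := fun {a} ha => ⟨inv_mem ha.1, by rw [inv_pow, ha.2, inv_one]⟩ }
  have : ⁅F, S⁆ ≤ K := comm_le_iff.2 fun a ha s hs' => by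
    have h1 := conj_mem_of_mem_normalizer (hn hs') (inv_mem ha)
    rw [show a * s * a⁻¹ * s⁻¹ = a * (s * a⁻¹ * s⁻¹) by group]
    exact ⟨mul_mem ha h1, by
      rw [m _ ha _ h1, conj_pow, mem_cent_iff.1 (hZ (hs.pow_mem (inv_mem ha))) s hs', mul_inv_cancel_right, inv_pow,
        mul_inv_cancel]⟩
  exact (this (hc.ge hg)).2

end CA.SF
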