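/-
Solvable signalizer functors: the minimal configuration with a special `t`-group, `t` odd.
-/
import Cfsg.Agent.Lib.SF.MLc
import Cfsg.Agent.Lib.SF.Sp

set_option autoImplicit false
set_option linter.unusedSectionVars false

namespace CA.SF

open Cfsg CA Subgroup

variable {G : Type*} [Group G] [Finite G]

theorem four_aux {X : Subgroup G} (h4 : Nat.card X = 4) {z g : G} (hz : z ∈ 𝐍(X)) (hg : g ∈ 𝐍(X))
    (h1 : X ⊓ 𝐂[z] = ⊥) (h2 : X ⊓ 𝐂[z * z] = ⊥) (c : g * z = z * g) : ∃ i : ℕ, (z ^ i)⁻¹ * g ∈ 𝐂(X) := by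
  obtain ⟨⟨v, hv⟩, v1⟩ := ne_bot_iff_exists_ne_one.1 (one_lt_card_iff_ne_bot'.1 (h4 ▸ by norm_num : 1 < Nat.card X))
  have v1 : v ≠ 1 := fun e => v1 (Subtype.ext e)
  have k : ∀ {y}, X ⊓ 𝐂[y] = ⊥ → v ≠ y * v * y⁻¹ := fun {y} h e => v1 (mem_bot.1 (h.le
    ⟨hv, mem_cent1_iff.2 (eq_mul_inv_iff_mul_eq.1 e)⟩))
  have n : ∀ y, (1 : G) ≠ y * v * y⁻¹ := fun y e => v1 (conj_eq_one_iff.1 e.symm)
  have hs : ({1, v, z * v * z⁻¹, z * z * v * (z * z)⁻¹} : Set G) = X := by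
    refine Set.eq_of_subset_of_ncard_le ?_ ?_
    · rintro _ (rfl | rfl | rfl | rfl)
      exacts [one_mem _, hv, conj_mem_of_mem_normalizer hz hv, conj_mem_of_mem_normalizer (mul_mem hz hz) hv]
    · have : z * v * z⁻¹ ≠ z * z * v * (z * z)⁻¹ := fun e => k h1 (by
        rw [show z * z * v * (z * z)⁻¹ = z * (z * v * z⁻¹) * z⁻¹ by group] at e
        exact mul_left_cancel (mul_right_cancel e))
      rw [Set.ncard_insert_of_notMem (by simp only [Set.mem_insert_iff, Set.mem_singleton_iff, not_or]; exact ⟨v1.symm, n _, n _⟩),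
        Set.ncard_insert_of_notMem (by simp only [Set.mem_insert_iff, Set.mem_singleton_iff, not_or]; exact ⟨k h1, k h2⟩),
        Set.ncard_pair this, ← Nat.card_coe_set_eq]
      exact h4.le
  obtain ⟨i, hi⟩ : ∃ i : ℕ, g * v * g⁻¹ = z ^ i * v * (z ^ i)⁻¹ := by
    rcases hs.ge (conj_mem_of_mem_normalizer hg hv) with e | e | e | e
    exacts [absurd e.symm (n _), ⟨0, by simpa using e⟩, ⟨1, by simpa using e⟩, ⟨2, by rwa [sq]⟩]
  have c1 : Commute ((z ^ i)⁻¹ * g) z := ((Commute.refl z).pow_left i).inv_left.mul_left c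
  have c2 : Commute ((z ^ i)⁻¹ * g) v := by
    rw [Commute, SemiconjBy, mul_assoc, mul_inv_eq_iff_eq_mul.1 hi]; group
  refine ⟨i, mem_cent_iff'.2 fun w hw => ?_⟩
  rcases hs.ge hw with rfl | rfl | rfl | rfl
  exacts [Commute.one_right _, c2, (c1.mul_right c2).mul_right c1.inv_right,
    ((c1.mul_right c1).mul_right c2).mul_right (c1.mul_right c1).inv_right]

theorem nine_aux {p n m : ℕ} (hp : p.Prime) (p2 : p ≠ 2) (p3 : p ≠ 3) (hn : n ∣ 9) (hm : m ∣ n) (e : n ≡ m [MOD p]) :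
    m = n := by
  have h1 := Nat.le_of_dvd (by norm_num) hn
  have h2 := Nat.le_of_dvd (Nat.pos_of_dvd_of_pos hn (by norm_num)) hm
  have h3 := (Nat.modEq_iff_dvd' h2).1 e.symm
  by_contra ne
  have h4 := Nat.le_of_dvd (by omega) h3
  have h5 : p = 5 ∨ p = 7 := by
    have : p ≤ 9 := by omega
    interval_cases p <;> simp_all (config := {decide := true})
  rcases h5 with rfl | rfl <;> interval_cases n <;> interval_cases m <;> simp_all

theorem relIndex_sup_zpowers_dvd {K : Subgroup G} {x : G} {n : ℕ} (hx : x ∈ 𝐍(K)) (h : x ^ n = 1) :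
    K.relIndex (K ⊔ zpowers x) ∣ n := by
  rw [relIndex_sup_of_norm (zpowers_le.2 hx)]
  exact (relIndex_dvd_card _ _).trans (Nat.card_zpowers x ▸ orderOf_dvd_of_pow_eq_one h)

namespace MS

variable {p q t : ℕ} {V F S A B : Subgroup G} {x f k : G} (h : MS p q t V F S A x) (hs : Special t F)
  (hZ : F ⊓ 𝐂(S) = 𝐙(F)) (t2 : t ≠ 2) (hB : Hyp t V 𝐙(F) B) (hf : f ∈ F) (hk : k ∈ F) (hz : cm k f ∉ B)
include h hs

include hZ t2 in
theorem s_exp {g : G} (hg : g ∈ F) : g ^ t = 1 :=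
  have := Fact.mk h.ht
  pow_eq_one_of_special t2 hs h.SnF h.comm (h.S_cent_Z hs hZ |> cents_symm) hg

include hB hf hk in
theorem s_cj (i : ℕ) : VB V 𝐙(F) B ⊓ 𝐂[cm k f ^ i * f] = cj (k ^ i) (VB V 𝐙(F) B ⊓ 𝐂[f]) := by
  rw [cj_inf, cj_centralizer_singleton, conj_eq_cm, cm_pow_left hs.der_eq.le hk hf,
    cj_eq_of_mem_normalizer (h.F_norm_VB hs hB.le (pow_mem hk i))]

include hZ t2 hB hf hk hz

theorem s_gen {J : Subgroup G} (hJ : ∀ i : ℕ, VB V 𝐙(F) B ⊓ 𝐂[cm k f ^ i * f] ≤ J) : VB V 𝐙(F) B ≤ J := by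
  have := Fact.mk h.ht
  have c := h.cmpZ hs
  have zZ := cm_Z hs.der_eq.le hk hf
  have z1 : cm k f ≠ 1 := fun e => hz (e ▸ one_mem _)
  have zt := h.s_exp hs hZ t2 zZ.1
  have cf : zpowers f ≤ 𝐂(zpowers (cm k f)) := by
    rw [cent_zpowers]; exact zpowers_le.2 (mem_cent1_iff.2 (cm_comm hs.der_eq.le hk hf hf))
  have E : Elem t (1 + 1) (zpowers (cm k f) ⊔ zpowers f) F := (elem_one_zpowers zZ.1 zt z1).sup_zpowers hf
    (h.s_exp hs hZ t2 hf) (fun e => z1 (cm_eq_one.2 (mem_cent_iff.1 (zpowers_le.2 zZ e).2 k hk))) (cf (mem_zpowers f))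
  refine le_of_cent1_noncyclic E.comm (E.not_isCyclic le_rfl) (E.le.trans (h.F_norm_VB hs hB.le))
    ((c.piV.of_le (c.VB_leV hB.le)).coprime_of_ne (h.hF.of_le E.le) h.tq.symm) fun a ha a1 => ?_
  obtain ⟨_, h1, _, h2, rfl⟩ := (mem_sup_of_norm_right (norms_of_cents cf)).1 ha
  obtain ⟨i, rfl⟩ := (mem_powers_iff_mem_zpowers.2 h1 :)
  obtain ⟨j, rfl⟩ := (mem_powers_iff_mem_zpowers.2 h2 :)
  simp only at a1 ⊢
  by_cases hj : t ∣ j
  · obtain ⟨j, rfl⟩ := hj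
    rw [pow_mul, h.s_exp hs hZ t2 hf, one_pow, mul_one] at a1 ⊢
    rw [c.fpf hB (pow_mem zZ i) fun e => hz (c.mem_of_pow zZ (fun ⟨l, hl⟩ => a1 (by rw [hl, pow_mul, zt, one_pow])) e)]
    exact bot_le
  · obtain ⟨m, hm⟩ := Nat.exists_mul_mod_eq_one_of_coprime ((Nat.Prime.coprime_iff_not_dvd h.ht).2 hj).symm h.ht.one_lt
    refine (inf_le_inf_left _ fun w hw => ?_).trans (hJ (i * m))
    have e : (cm k f ^ i * f ^ j) ^ m = cm k f ^ (i * m) * f := by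
      rw [Commute.mul_pow (Commute.pow_pow (cm_comm hs.der_eq.le hk hf hf).symm _ _), ← pow_mul, ← pow_mul,
        ← Nat.div_add_mod (j * m) t, hm.2, pow_add, pow_mul f, h.s_exp hs hZ t2 hf, one_pow, one_mul, pow_one]
    rw [← e]
    exact mem_cent1_comm.1 (pow_mem (mem_cent1_comm.1 hw) m)

theorem s_loc (hi : ix (VB V 𝐙(F) B) f ≤ q ^ 4) :
    q = 2 ∧ t = 3 ∧ Nat.card ↥(VB V 𝐙(F) B ⊓ 𝐂[f]) = 4 ∧ 16 ≤ ix (VB V 𝐙(F) B) f := by
  have c := h.cmpZ hs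
  have zZ := cm_Z hs.der_eq.le hk hf
  have nF := h.F_norm_VB hs hB.le
  have f1 := c.fpf hB zZ hz
  have f2 := c.fpf hB (pow_mem zZ 2) fun e => hz (c.mem_of_pow zZ
    (fun a => t2 ((Nat.prime_dvd_prime_iff_eq h.ht Nat.prime_two).1 a)) e)
  have nf : ∀ i, f ∈ 𝐍(VB V 𝐙(F) B ⊓ 𝐂[cm k f ^ i * f]) := fun i => norms_inf (zpowers_le.2 (nF hf))
    (norms_cent1 (zpowers_le.2 (mem_cent1_iff.2
      ((Commute.pow_right (cm_comm hs.der_eq.le hk hf hf) i).mul_right (Commute.refl f))))) (mem_zpowers f)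
  have k1 : ∀ {a b y : G}, VB V 𝐙(F) B ⊓ 𝐂[y] = ⊥ → y = a * b⁻¹ → VB V 𝐙(F) B ⊓ 𝐂[a] ⊓ 𝐂[b] = ⊥ := fun h1 e =>
    eq_bot_iff.2 fun w hw => h1.le ⟨hw.1.1, e ▸ mem_cent1_comm.1
      (mul_mem (mem_cent1_comm.1 hw.1.2) (inv_mem (mem_cent1_comm.1 hw.2)))⟩
  have d : VB V 𝐙(F) B ⊓ 𝐂[cm k f ^ 2 * f] ⊓ (VB V 𝐙(F) B ⊓ 𝐂[cm k f ^ 1 * f]) = ⊥ :=
    eq_bot_iff.2 ((inf_le_inf_left _ inf_le_right).trans (k1 f1 (by group)).le)
  have n := norms_of_abelian (c.elem_VB hB.le).comm (inf_le_left (b := 𝐂[cm k f ^ 2 * f]))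
    (inf_le_left (b := 𝐂[cm k f ^ 1 * f]))
  have b := card_le_ix (g := f) (sup_le (inf_le_left (b := 𝐂[cm k f ^ 2 * f])) (inf_le_left (b := 𝐂[cm k f ^ 1 * f])))
    (by rw [sup_inf_cent1 d n (nf 2) (nf 1), k1 f2 (by group), k1 f1 (by group), sup_idem])
  rw [card_sup_of_disjoint (Or.inl n) d, h.s_cj hs hB hf hk, h.s_cj hs hB hf hk, card_cj, card_cj] at b
  obtain ⟨j, e1, e2⟩ := c.card_sub hB (U := VB V 𝐙(F) B ⊓ 𝐂[f]) inf_le_left (norms_inf (c.Y_norm_VB B)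
    (norms_cent1 (inf_le_right.trans (cent_le_cent1 hf))))
  have j0 : j ≠ 0 := by
    rintro rfl
    rw [pow_zero, card_eq_one] at e1
    exact c.VB_ne_bot hB (eq_bot_iff.2 (h.s_gen hs hZ t2 hB hf hk hz fun i => by
      rw [h.s_cj hs hB hf hk, e1, cj_bot]))
  rw [e1] at b ⊢
  have j2 : j ≤ 2 := by
    have := b.trans hi
    rw [← pow_add, Nat.pow_le_pow_iff_right h.qp.one_lt] at this
    omega
  have e3 := (Nat.modEq_iff_dvd' (Nat.one_le_pow _ _ h.qp.pos)).1 e2.symm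
  have t8 : ¬ t ∣ 2 ^ 3 := fun a => t2 ((Nat.prime_dvd_prime_iff_eq h.ht Nat.prime_two).1 (h.ht.dvd_of_dvd_pow a))
  obtain rfl | rfl : j = 1 ∨ j = 2 := by omega
  · rcases h.hq with rfl | rfl <;> exact absurd (e3.trans (by norm_num)) t8
  · rcases h.hq with rfl | rfl
    · exact ⟨rfl, (Nat.prime_dvd_prime_iff_eq h.ht Nat.prime_three).1 e3, rfl, b⟩
    · exact absurd e3 t8

theorem s_index (t3 : t = 3) (h4 : Nat.card ↥(VB V 𝐙(F) B ⊓ 𝐂[f]) = 4) : (DB F B).relIndex F ∣ 9 := by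
  have c := h.cmpZ hs
  have c2 := hs.der_eq.le
  have zZ := cm_Z c2 hk hf
  have nF := h.F_norm_VB hs hB.le
  have key : ∀ g ∈ F, cm g f ∈ B → cm g k ∈ B → g ∈ DB F B := fun g hg g1 g2 => by
    have bc : B ≤ 𝐂(VB V 𝐙(F) B ⊓ 𝐂[f]) := (c.le_cent_VB hB.le).trans (cent_mono inf_le_left)
    obtain ⟨i, hi⟩ := four_aux h4 (z := cm k f) (g := g) (norms_inf (c.Y_norm_VB B)
        (norms_cent1 (inf_le_right.trans (cent_le_cent1 hf))) zZ)
      (mem_normalizer_of_le_cj (by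
        rw [cj_inf, cj_centralizer_singleton, conj_eq_cm, cj_eq_of_mem_normalizer (nF hg)]
        exact fun w hw => ⟨hw.1, mem_cent1_comm.1 (mul_mem (mem_cent1_iff.2 (mem_cent_iff'.1 (bc g1) w hw))
          (mem_cent1_comm.1 hw.2))⟩))
      (eq_bot_iff.2 ((inf_le_inf_right _ inf_le_left).trans (c.fpf hB zZ hz).le))
      (eq_bot_iff.2 ((inf_le_inf_right _ inf_le_left).trans (c.fpf hB (mul_mem zZ zZ) fun e =>
        hz (c.mem_of_pow (n := 2) zZ (by rw [t3]; norm_num) (by rwa [sq]))).le)) (cm_comm c2 hk hf hg)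
    have zi := inv_mem (pow_mem zZ i)
    have g3 := mul_mem zi.1 hg
    have := h.mem_DB_of_cent hs hB g3 (mem_cent_iff_le_cent1.2 (h.s_gen hs hZ t2 hB hf hk hz fun j => by
      rw [h.s_cj hs hB hf hk, ← mem_cent_iff_le_cent1, ← cj_centralizer, mem_cj]
      nth_rewrite 2 [← inv_inv (k ^ j)]
      rw [conj_eq_cm, cm_inv_left c2 (pow_mem hk j) g3, cm_pow_left c2 hk g3, ← cm_inv, cm_mul_left c2 zi.1 hg hk,
        cm_of_center zi hk, one_mul]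
      exact mul_mem (bc (inv_mem (pow_mem (inv_mem g2) j))) hi))
    exact (mul_mem_cancel_left (h.Z_le_DB hs hB.le zi)).1 this
  have d1 := h.der_le_DB hs hB.le
  have l1 : DB F B ⊔ zpowers f ≤ F := sup_le (DB_le F B) (zpowers_le.2 hf)
  have e : DB F B ⊔ zpowers f ⊔ zpowers k = F := le_antisymm (sup_le l1 (zpowers_le.2 hk)) fun g hg => by
    obtain ⟨b, hb, m, e1⟩ := c.exists_mul_pow hB zZ hz (cm_Z c2 hg hf)
    have g1 := mul_mem hg (inv_mem (pow_mem hk m))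
    obtain ⟨b', hb', n, e2⟩ := c.exists_mul_pow hB zZ hz (cm_Z c2 g1 hk)
    have := key _ (mul_mem g1 (pow_mem hf n)) (by
      rwa [cm_mul_left c2 g1 (pow_mem hf n) hf, cm_pow_left c2 hf hf, cm_self, one_pow, mul_one,
        cm_mul_left c2 hg (inv_mem (pow_mem hk m)) hf, cm_inv_left c2 (pow_mem hk m) hf, cm_pow_left c2 hk hf, e1,
        mul_inv_cancel_right]) (by
      rwa [cm_mul_left c2 g1 (pow_mem hf n) hk, cm_pow_left c2 hf hk, e2, ← cm_inv k f, inv_pow, mul_inv_cancel_right])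
    rw [show g = g * (k ^ m)⁻¹ * f ^ n * (f ^ n)⁻¹ * k ^ m by group]
    exact mul_mem (mem_sup_left (mul_mem (mem_sup_left this) (mem_sup_right (inv_mem (pow_mem (mem_zpowers f) n)))))
      (mem_sup_right (pow_mem (mem_zpowers k) m))
  have := relIndex_mul_relIndex (DB F B) _ _ (le_sup_left (b := zpowers f)) (le_sup_left (b := zpowers k))
  have i1 := relIndex_sup_zpowers_dvd (h.F_norm_DB hs hB.le hf) (h.s_exp hs hZ t2 hf)
  have i2 := relIndex_sup_zpowers_dvd (norms_of_der_le (d1.trans le_sup_left) l1 hk) (h.s_exp hs hZ t2 hk)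
  rw [e] at this i2
  rw [← this]
  exact mul_dvd_mul (t3 ▸ i1 : _ ∣ 3) (t3 ▸ i2 : _ ∣ 3)

end MS

/-- the special case, `t` odd -/
theorem MS.false_odd {p q t : ℕ} {V F S A : Subgroup G} {x : G} (h : MS p q t V F S A x)
    (hs : Special t F) (hZ : F ⊓ 𝐂(S) = 𝐙(F)) (t2 : t ≠ 2) : False := by
  obtain ⟨g, hg, B, hB, hn⟩ := h.exists_suppZ hs hZ
  have hf := h.comm_mem hg
  have hi := h.ix_comm hg
  generalize g * x * g⁻¹ * x⁻¹ = f at hn hf hi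
  have c := h.cmpZ hs
  have ex : ∀ {B}, Hyp t V 𝐙(F) B → f ∉ DB F B → ∃ k ∈ F, cm k f ∉ B := fun {B} hB hn => by
    by_contra a
    push Not at a
    exact hn ((h.mem_DB hs hB.le).2 ⟨hf, fun k hk => inv_mem_iff.1 (cm_inv f k ▸ a k hk)⟩)
  obtain ⟨k, hk, hz⟩ := ex hB hn
  obtain ⟨q2, t3, h4, h16⟩ := h.s_loc hs hZ t2 hB hf hk hz ((ix_mono (c.VB_leV hB.le) f).trans hi)
  refine h.finZ hs hZ hB hf hn (fun a ha a1 => small h.hp (h.hA.inf_left 𝐍(B)) h.Fp (inf_le_left.trans h.AF)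
    (norms_DB (inf_le_left.trans h.AF) inf_le_right) (DB_le F B) (h.F_norm_DB hs hB.le)
    (fun m => nine_aux h.hp h.p2 (t3 ▸ h.tp.symm) (h.s_index hs hZ t2 hB hf hk hz t3 h4)) a ⟨ha, a1⟩ f hf)
    fun a ha ne => by_contra fun hn' => ?_
  have hB' := h.hyp_cj hs hB ha
  obtain ⟨k', hk', hz'⟩ := ex hB' hn'
  have h16' := (h.s_loc hs hZ t2 hB' hf hk' hz' ((ix_mono (c.VB_leV hB'.le) f).trans hi)).2.2.2
  have := (Nat.mul_le_mul h16' h16).trans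
    ((c.ix2 hB' hB ne (h.F_norm_VB hs hB'.le hf) (h.F_norm_VB hs hB.le hf)).trans hi)
  rw [q2] at this
  omega

end CA.SF
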