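/-
Solvable signalizer functors: the minimal faithful configuration with `F` a special `2`-group.
-/
import Cfsg.Agent.Lib.SF.MLc

set_option autoImplicit false
set_option linter.unusedSectionVars false

namespace CA.SF

open Cfsg CA Subgroup

variable {G : Type*} [Group G] [Finite G]

/-- the elements acting trivially on `X` modulo `D` -/
def tCm (X D : Subgroup G) : Subgroup G where
  carrier := {s | s ∈ 𝐍(D) ∧ ∀ m ∈ X, m * s * m⁻¹ * s⁻¹ ∈ D}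
  one_mem' := ⟨one_mem _, fun m _ => by simp⟩
  mul_mem' := fun {a b} ha hb => ⟨mul_mem ha.1 hb.1, fun m hm => by
    convert mul_mem (ha.2 m hm) (conj_mem_of_mem_normalizer ha.1 (hb.2 m hm)) using 1; group⟩
  inv_mem' := fun {a} ha => ⟨inv_mem ha.1, fun m hm => by
    convert conj_mem_of_mem_normalizer (inv_mem ha.1) (inv_mem (ha.2 m hm)) using 1; group⟩

theorem t_comm_le {X D P : Subgroup G} (h : P ≤ tCm X D) : ⁅X, P⁆ ≤ D :=
  commutator_le.2 fun m hm _ hs => (h hs).2 m hm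

theorem t_idx {S W : Subgroup G} {v : G} (h : ∀ s ∈ S, s * v * s⁻¹ * v⁻¹ ∈ W) : ix S v ≤ Nat.card W := by
  refine Nat.card_le_card_of_injective (fun c : S ⧸ 𝐂[v].subgroupOf S => (⟨_, h c.out c.out.2⟩ : W)) fun a b e => ?_
  refine a.out_eq.symm.trans ((QuotientGroup.eq.2 ?_).trans b.out_eq)
  rw [mem_subgroupOf, mem_cent1_iff, coe_mul, coe_inv]
  have := mul_right_cancel (Subtype.ext_iff.1 e)
  calc _ = (a.out : G)⁻¹ * ((b.out : G) * v * (b.out : G)⁻¹) * b.out := by group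
    _ = _ := by rw [← this]; group

/-- a `p`-group normalizing `S` and a small quadratic `S`-module centralizes the module -/
theorem t_small {p : ℕ} (hp : p.Prime) (p2 : p ≠ 2) (p3 : p ≠ 3) {U S R : Subgroup G} {x : G}
    (hU : IsElementaryAbelian 3 U) (hS : PiGrp {3} S) (hR : PiGrp {p} R) (SU : S ≤ 𝐍(U)) (RU : R ≤ 𝐍(U))
    (RS : R ≤ 𝐍(S)) (xS : x ∈ S) (h1 : Nat.card U ≤ ix U x * ix U x) (h2 : ix U x ≤ 9) : R ≤ 𝐂(U) := by
  have := Fact.mk hp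
  have := Fact.mk Nat.prime_three
  have pU := hU.isPGroup
  have pS := hS.isPGroup Nat.prime_three
  have cop : CopAct U R := copAct_of_ne RU (pU.piGrp Nat.prime_three) hR p3.symm
  have step : ∀ X Y : Subgroup G, R ≤ 𝐍(X) → ⁅U, R⁆ ⊓ Y = ⊥ → Y.relIndex X ≤ 9 → ⁅U, R⁆ ⊓ X = ⊥ := fun X Y hX hY hi => by
    have a := card_inf_mul_relIndex Y (⁅U, R⁆ ⊓ X)
    rw [← inf_assoc, inf_comm Y, hY, bot_inf_eq, card_bot, one_mul] at a
    have b : Nat.card ↥(⁅U, R⁆ ⊓ X) ≤ 9 := a ▸ (relIndex_le_of_le_right inf_le_right (relIndex_ne_zero' _ _)).trans hi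
    have c := card_modEq_card_inf_cent (hR.isPGroup hp) (norms_inf (norms_commutator RU le_normalizer) hX)
    rw [inf_right_comm, cop.comm_inf_cent_of_abelian hU.1, bot_inf_eq, card_bot] at c
    obtain ⟨k, hk⟩ := IsPGroup.iff_card.1 (pU.to_le (inf_le_left.trans cop.comm_le : ⁅U, R⁆ ⊓ X ≤ U))
    rw [hk] at b c
    have : k ≤ 2 := (Nat.pow_le_pow_iff_right (by norm_num)).1 (b.trans_eq (by norm_num : 9 = 3 ^ 2))
    have d := (Nat.modEq_iff_dvd' (Nat.one_le_pow _ _ (by norm_num))).1 c.symm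
    interval_cases k
    · exact card_eq_one.1 hk
    · exact absurd ((Nat.prime_dvd_prime_iff_eq hp Nat.prime_two).1 d) p2
    · exact absurd ((Nat.prime_dvd_prime_iff_eq hp Nat.prime_two).1 (hp.dvd_of_dvd_pow (n := 3) d)) p2
  by_cases h0 : U = ⊥
  · rw [h0]; simp
  have i0 : 0 < ix U x := Nat.pos_of_ne_zero (relIndex_ne_zero' _ _)
  have W1 : ⁅U, S⁆ < U := commutator_lt_pgroup pS pU SU h0
  have e1 := card_mul_relIndex W1.le
  have s0 := step (U ⊓ 𝐂(S)) ⊥ (norms_inf RU (norms_cent RS)) (inf_bot_eq _) (by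
    rw [relIndex_bot_left]
    have := card_mul_ix U x
    have h3 : Nat.card ↥(U ⊓ 𝐂(S)) ≤ Nat.card ↥(U ⊓ 𝐂[x]) :=
      card_le_of_le (inf_le_inf_left _ fun g hg => mem_cent1_iff.2 (mem_cent_iff'.1 hg x xS))
    exact h3.trans ((Nat.le_of_mul_le_mul_right (this.le.trans h1) i0).trans h2))
  have s1 := step ⁅U, S⁆ _ (norms_commutator RU RS) s0 (by
    by_cases h3 : ⁅U, S⁆ = ⊥
    · rw [h3, relIndex_bot_right]; norm_num
    have a := card_inf_mul_relIndex (U ⊓ 𝐂(S)) ⁅U, S⁆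
    have b : 3 ≤ Nat.card ↥(U ⊓ 𝐂(S) ⊓ ⁅U, S⁆) := Nat.le_of_dvd Nat.card_pos (IsPGroup.dvd_card_of_ne_bot
      (pU.to_le (inf_le_left.trans inf_le_left)) (by
        rw [inf_right_comm, inf_eq_right.2 W1.le]
        exact inf_cent_ne_bot pS (pU.to_le W1.le) (norms_commutator SU le_normalizer) h3))
    have c : 3 ≤ ⁅U, S⁆.relIndex U :=
      Nat.le_of_dvd (Nat.pos_of_ne_zero (relIndex_ne_zero' _ _)) (IsPGroup.dvd_relIndex pU W1.not_ge)
    nlinarith)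
  have s2 := step U _ RU s1 (by
    have a : ix U x ≤ Nat.card ↥⁅U, S⁆ := t_idx fun s hs => commutator_mem_commutator hs xS
    refine le_trans (Nat.le_of_mul_le_mul_left ?_ i0) h2
    exact (Nat.mul_le_mul_right _ a).trans (e1.le.trans h1))
  rw [inf_eq_left.2 cop.comm_le, commutator_eq_bot_iff_le_centralizer] at s2
  exact cents_symm s2

namespace MS
variable {p : ℕ} {V F S A B : Subgroup G} {x : G} (h : MS p 3 2 V F S A x) (hs : Special 2 F)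
  (hZ : F ⊓ 𝐂(S) = 𝐙(F))
include h hs hZ

open Classical in
/-- the quadratic bound on a component in the support of `x` -/
theorem t_quad (hB : Hyp 2 V 𝐙(F) B) (hx : x ∉ tCm F (DB F B)) :
    Nat.card (VB V 𝐙(F) B) ≤ ix (VB V 𝐙(F) B) x * ix (VB V 𝐙(F) B) x := by
  let χ : G → ℤˣ := fun z => if z ∈ B then 1 else -1
  have χ1 : ∀ z, χ z = 1 ↔ z ∈ B := fun z => by by_cases e : z ∈ B <;> simp [χ, e]
  have χm : ∀ z ∈ 𝐙(F), ∀ z' ∈ 𝐙(F), χ (z * z') = χ z * χ z' := fun z hz z' hz' => by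
    have := mul_mem_iff_of_index_two (H := B.subgroupOf 𝐙(F)) hB.idx (a := ⟨z, hz⟩) (b := ⟨z', hz'⟩)
    simp only [mem_subgroupOf, coe_mul] at this
    by_cases e : z ∈ B <;> by_cases e' : z' ∈ B <;> simp [χ, e, e', this]
  let β : G → G → ℤˣ := fun a b => χ (a * b * a⁻¹ * b⁻¹)
  let σ : G → G := fun a => x * a * x⁻¹
  have σF : ∀ a ∈ F, σ a ∈ F := fun a ha => conj_mem_of_mem_normalizer h.xF' ha
  have σ3 : ∀ a, σ (σ (σ a)) = a := fun a => by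
    calc σ (σ (σ a)) = x ^ 3 * a * (x ^ 3)⁻¹ := by simp only [σ, pow_three, mul_inv_rev, mul_assoc]
      _ = a := by rw [h.xq]; group
  have βs : ∀ a b, β a b = β b a := fun a b => by
    simp only [β, χ]; rw [← inv_mem_iff]; congr 2; group
  have βa : ∀ a, β a a = 1 := fun a => (χ1 _).2 (by simp)
  have βm : ∀ a ∈ F, ∀ b ∈ F, ∀ c ∈ F, β (a * b) c = β a c * β b c := fun a ha b hb c hc => by
    simp only [β]
    rw [mul_comm, ← χm _ (h.commZ hs hb hc) _ (h.commZ hs ha hc)]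
    congr 1
    calc _ = a * (b * c * b⁻¹ * c⁻¹) * (c * a⁻¹ * c⁻¹) := by group
      _ = _ := by rw [mem_cent_iff.1 (h.commZ hs hb hc).2 a ha]; group
  have βi : ∀ a ∈ F, ∀ c ∈ F, β a⁻¹ c = β a c := fun a ha c hc => by
    have := βm _ (inv_mem ha) _ ha _ hc
    rw [inv_mul_cancel, show β 1 c = 1 from (χ1 _).2 (by simp)] at this
    rw [eq_inv_of_mul_eq_one_left this.symm, Int.units_inv_eq_self]
  have βm' : ∀ a ∈ F, ∀ b ∈ F, ∀ c ∈ F, β c (a * b) = β c a * β c b := fun a ha b hb c hc => by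
    rw [βs, βm a ha b hb c hc, βs a, βs b]
  have βi' : ∀ a ∈ F, ∀ c ∈ F, β c a⁻¹ = β c a := fun a ha c hc => by rw [βs, βi a ha c hc, βs]
  have βσ : ∀ a ∈ F, ∀ b ∈ F, β (σ a) (σ b) = β a b := fun a ha b hb => by
    simp only [β, σ]
    congr 1
    calc _ = x * (a * b * a⁻¹ * b⁻¹) * x⁻¹ := by group
      _ = _ := by rw [mem_cent_iff'.1 (h.S_cent_Z hs hZ h.xS) _ (h.commZ hs ha hb)]; group
  obtain ⟨k, hk, e⟩ : ∃ k ∈ F, β k (σ k) ≠ 1 := by
    by_contra hh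
    push Not at hh
    refine hx ⟨h.S_norm_DB hs hZ hB.le h.xS, fun g hg => (h.mem_DB hs hB.le).2 ⟨h.comm_mem hg, fun f hf => (χ1 _).1 ?_⟩⟩
    have a := hh _ (mul_mem (σF f hf) hg)
    rw [show σ (σ f * g) = σ (σ f) * σ g by simp only [σ]; group, βm _ (σF f hf) _ hg _ (mul_mem (σF _ (σF f hf)) (σF g hg)),
      βm' _ (σF _ (σF f hf)) _ (σF g hg) _ (σF f hf), βm' _ (σF _ (σF f hf)) _ (σF g hg) _ hg, hh _ (σF f hf), hh g hg,
      βσ f hf g hg, ← βσ g hg _ (σF _ (σF f hf)), σ3, one_mul, mul_one] at a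
    change β (g * x * g⁻¹ * x⁻¹) f = 1
    rw [show g * x * g⁻¹ * x⁻¹ = g * (σ g)⁻¹ by simp only [σ]; group, βm _ hg _ (inv_mem (σF g hg)) _ hf,
      βi _ (σF g hg) _ hf, βs g, a]
  have hf := mul_mem hk (inv_mem (σF k hk))
  have e2 : β (k * (σ k)⁻¹) (σ (k * (σ k)⁻¹)) ≠ 1 := by
    have k1 := σF k hk
    have k2 := σF _ k1
    rw [show σ (k * (σ k)⁻¹) = σ k * (σ (σ k))⁻¹ by simp only [σ]; group, βm _ hk _ (inv_mem k1) _ (mul_mem k1 (inv_mem k2)),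
      βi _ k1 _ (mul_mem k1 (inv_mem k2)), βm' _ k1 _ (inv_mem k2) _ hk, βm' _ k1 _ (inv_mem k2) _ k1, βi' _ k2 _ hk,
      βi' _ k2 _ k1, βa, βσ k hk _ k1, ← βσ k hk _ k2, σ3, βs (σ k), one_mul, Int.units_mul_self, one_mul]
    exact e
  rw [← ix_conj (h.F_norm_VB hs hB.le hk) x]
  nth_rewrite 1 [ix_conj (h.F_norm_VB hs hB.le hk) x]
  refine card_le_ix_mul (eq_bot_iff.2 fun w hw => (h.cmpZ hs).eq_one hB (h.commZ hs hf (σF _ hf))
    (fun e => e2 ((χ1 _).2 e)) hw.1.1 (mem_cent1_iff.2 (mem_cent1_iff.1 ?_).symm))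
  have w1 : x ∈ 𝐂[w] := mem_cent1_iff.2 (mem_cent1_iff.1 hw.1.2).symm
  have w2 : k * x * k⁻¹ ∈ 𝐂[w] := mem_cent1_iff.2 (mem_cent1_iff.1 hw.2).symm
  have w3 : k * (σ k)⁻¹ ∈ 𝐂[w] := by
    convert mul_mem w2 (inv_mem w1) using 1; simp only [σ]; group
  have w4 : σ (k * (σ k)⁻¹) ∈ 𝐂[w] := mul_mem (mul_mem w1 w3) (inv_mem w1)
  exact mul_mem (mul_mem (mul_mem w3 w4) (inv_mem w3)) (inv_mem w4)

theorem t_cm (hB : Hyp 2 V 𝐙(F) B) {s : G} (h1 : s ∈ 𝐍(F)) (h2 : s ∈ 𝐍(B)) (h3 : s ∈ 𝐂(VB V 𝐙(F) B)) :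
    s ∈ tCm F (DB F B) :=
  ⟨norms_DB (zpowers_le.2 h1) (zpowers_le.2 h2) (mem_zpowers s), fun m hm => h.mem_DB_of_cent hs hB
    (by rw [mul_assoc, mul_assoc, ← mul_assoc s]; exact mul_mem hm (conj_mem_of_mem_normalizer h1 (inv_mem hm)))
    (mul_mem (conj_mem_of_mem_normalizer (norms_cent (h.F_norm_VB hs hB.le) hm) h3) (inv_mem h3))⟩

theorem t_three (hB : Hyp 2 V 𝐙(F) B) (hx : x ∉ tCm F (DB F B)) : 3 ≤ ix (VB V 𝐙(F) B) x := by
  have := Fact.mk Nat.prime_three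
  exact Nat.le_of_dvd (Nat.pos_of_ne_zero (relIndex_ne_zero' _ _))
    (IsPGroup.dvd_relIndex ((h.cmpZ hs).elem_VB hB.le).isPGroup fun e =>
      hx (h.t_cm hs hZ hB h.xF' (h.S_norm hs hZ hB.le h.xS) (mem_cent_iff_le_cent1.2 e)))

theorem false_two : False := by
  have := Fact.mk Nat.prime_three
  have c := h.cmpZ hs
  obtain ⟨g, hg, B, hB, hn⟩ := h.exists_suppZ hs hZ
  have hx : x ∉ tCm F (DB F B) := fun e => hn (e.2 g hg)
  have nx : ∀ {C}, Hyp 2 V 𝐙(F) C → x ∈ 𝐍(VB V 𝐙(F) C) := fun hC => h.S_norm_VB hs hZ hC.le h.xS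
  have q1 := h.t_quad hs hZ hB hx
  have hR : A ⊓ 𝐍(B) ≤ 𝐂(VB V 𝐙(F) B) := t_small h.hp h.p2 h.pq (c.elem_VB hB.le) h.hS (h.hA.inf_left _)
    (h.S_norm_VB hs hZ hB.le) (norms_VB (inf_le_left.trans h.AV) (inf_le_left.trans (norms_center h.AF)) inf_le_right)
    (inf_le_left.trans h.AS) h.xS q1 ((ix_mono (c.VB_leV hB.le) x).trans h.idx)
  suffices ∃ u ∈ F, u ∉ DB F B ∧ ∀ a ∈ A, cj a B ≠ B → u ∈ DB F (cj a B) by
    obtain ⟨u, hu, h1, h2⟩ := this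
    refine h.finZ hs hZ hB hu h1 (fun a ha hb => ?_) h2
    convert inv_mem ((h.t_cm hs hZ hB (h.AF ha) hb (hR ⟨ha, hb⟩)).2 u hu) using 1; group
  by_cases k : ∀ a ∈ A, cj a B ≠ B → x ∈ tCm F (DB F (cj a B))
  · exact ⟨_, h.comm_mem hg, hn, fun a ha e => (k a ha e).2 g hg⟩
  push Not at k
  obtain ⟨a, ha, ne, hx'⟩ := k
  have hB' := h.hyp_cj hs hB ha
  have t1 := h.t_three hs hZ hB hx
  have t2 := h.t_three hs hZ hB' hx'
  have t3 : ∀ {C}, Hyp 2 V 𝐙(F) C → C ≠ B → C ≠ cj a B → x ∈ tCm F (DB F C) := fun hC n1 n2 => by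
    by_contra e
    have t := h.t_three hs hZ hC e
    have := (c.ix3 hB hB' hC ne.symm n1.symm n2.symm (nx hB) (nx hB') (nx hC)).trans h.idx
    have := Nat.mul_le_mul (Nat.mul_le_mul t1 t2) t
    omega
  have t4 : Nat.card (VB V 𝐙(F) B) ≤ 9 := by
    have := (c.ix2 hB hB' ne.symm (nx hB) (nx hB')).trans h.idx
    nlinarith
  have tr : ∀ {b s : G} {C : Subgroup G}, b ∈ A → s ∈ tCm F (DB F C) → b * s * b⁻¹ ∈ tCm F (DB F (cj b C)) :=
    fun {b s C} hb e => by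
      rw [← cj_DB (h.AF hb)]
      refine ⟨cj_normalizer b _ ▸ conj_mem_cj.2 e.1, fun m hm => ?_⟩
      convert conj_mem_cj (g := b).2 (e.2 _ (conj_mem_of_mem_normalizer (inv_mem (h.AF hb)) hm)) using 1; group
  have yS : a⁻¹ * x * a⁻¹⁻¹ ∈ S := conj_mem_of_mem_normalizer (inv_mem (h.AS ha)) h.xS
  have y1 : a⁻¹ * x * a⁻¹⁻¹ ∉ tCm F (DB F B) := fun e => hx' (by convert tr ha e using 1; group)
  have y2 : a⁻¹ * x * a⁻¹⁻¹ ∈ tCm F (DB F (cj a B)) := by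
    have := tr (inv_mem ha) (t3 (h.hyp_cj hs hB' ha) (fun e => ne (cj_eq_of_mem_normalizer
      (mem_of_pow_mem_pi (n := 2) (h.hA.piElt ha) (fun d => h.p2 ((Nat.prime_dvd_prime_iff_eq h.hp Nat.prime_two).1 d))
        (mem_normalizer_iff_cj.2 (by rw [sq, cj_mul, e]))))) fun e => ne (by simpa using congrArg (cj a⁻¹) e))
    rwa [cj_inv_cj] at this
  generalize a⁻¹ * x * a⁻¹⁻¹ = y at yS y1 y2
  have MF : ⁅F, zpowers x⁆ ≤ F := h.copx.comm_le
  by_contra hh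
  have y3 : y ∈ tCm ⁅F, zpowers x⁆ (DB F B) := ⟨h.S_norm_DB hs hZ hB.le yS, fun m hm => by
    by_contra e
    refine hh ⟨_, ?_, e, fun b hb n1 => ?_⟩
    · rw [mul_assoc, mul_assoc, ← mul_assoc y]
      exact mul_mem (MF hm) (conj_mem_of_mem_normalizer (h.SnF yS) (inv_mem (MF hm)))
    by_cases n2 : cj b B = cj a B
    · rw [n2]; exact y2.2 m (MF hm)
    have hC := h.hyp_cj hs hB hb
    have := t_comm_le (zpowers_le.2 (t3 hC n1 n2)) hm
    rw [mul_assoc, mul_assoc, ← mul_assoc y]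
    exact mul_mem this (conj_mem_of_mem_normalizer (h.S_norm_DB hs hZ hC.le yS) (inv_mem this))⟩
  -- `S` acts on the component as a group of order 3
  have pS := h.hS.isPGroup Nat.prime_three
  have pU := (c.elem_VB hB.le).isPGroup
  have SU := h.S_norm_VB hs hZ hB.le
  have cm : ∀ {s}, s ∈ S → s ∈ 𝐂(VB V 𝐙(F) B) → s ∈ tCm F (DB F B) := fun a b =>
    h.t_cm hs hZ hB (h.SnF a) (h.S_norm hs hZ hB.le a) b
  have ab := (c.elem_VB hB.le).1
  have U0 := c.VB_ne_bot hB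
  generalize VB V 𝐙(F) B = U at *
  have three : ∀ {K L : Subgroup G}, IsPGroup 3 L → ¬ L ≤ K → 3 ≤ K.relIndex L := fun a b =>
    Nat.le_of_dvd (Nat.pos_of_ne_zero (relIndex_ne_zero' _ _)) (IsPGroup.dvd_relIndex a b)
  obtain ⟨v, hv, hv'⟩ : ∃ v ∈ U, v ∉ U ⊓ 𝐂(S) := SetLike.not_le_iff_exists.1 fun e =>
    hx (cm h.xS (cents_symm (e.trans inf_le_right) h.xS))
  have e0 : U ⊓ 𝐂(S) ⊔ zpowers v = U := by
    refine eq_of_le_of_card_ge (sup_le inf_le_left (zpowers_le.2 hv)) (t4.trans ?_)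
    rw [← card_mul_relIndex (le_sup_left : U ⊓ 𝐂(S) ≤ _)]
    exact Nat.mul_le_mul (Nat.le_of_dvd Nat.card_pos (IsPGroup.dvd_card_of_ne_bot (pU.to_le inf_le_left)
      (inf_cent_ne_bot pS pU SU U0))) (three (pU.to_le (sup_le inf_le_left (zpowers_le.2 hv)))
        fun e => hv' (e (mem_sup_right (mem_zpowers v))))
  have e1 : ∀ {s}, s ∈ S → s ∈ 𝐂[v] → s ∈ tCm F (DB F B) := fun {s} a b => cm a (by
    rw [← e0, cent_sup, cent_zpowers]
    exact ⟨cents_symm inf_le_right a, b⟩)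
  have W1 : ⁅U, S⁆ < U := commutator_lt_pgroup pS pU SU U0
  have e2 : ix S v ≤ 3 := (t_idx (W := ⁅U, S⁆) fun s a => commutator_comm U S ▸ commutator_mem_commutator a hv).trans (by
    have := card_mul_relIndex W1.le
    have := three pU W1.not_ge
    nlinarith)
  have e3 : S ≤ tCm ⁅F, zpowers x⁆ (DB F B) := by
    by_contra e
    have l1 : 𝐂[v] ⊓ S ≤ tCm ⁅F, zpowers x⁆ (DB F B) ⊓ S := fun s a =>
      ⟨⟨(e1 a.2 a.1).1, fun m hm => (e1 a.2 a.1).2 m (MF hm)⟩, a.2⟩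
    have := relIndex_mul_relIndex _ _ _ l1 inf_le_right
    rw [inf_relIndex_right, inf_relIndex_right] at this
    have a1 := three pS e
    have a2 := three (pS.to_le inf_le_right) fun e : tCm ⁅F, zpowers x⁆ (DB F B) ⊓ S ≤ 𝐂[v] ⊓ S =>
      y1 (e1 yS (e ⟨y3, yS⟩).1)
    have := Nat.mul_le_mul a2 a1
    unfold ix at e2
    omega
  have := t_comm_le (zpowers_le.2 (e3 h.xS))
  rw [h.copx.comm_comm] at this
  exact hn (this (commutator_mem_commutator hg (mem_zpowers x)))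

end MS

end CA.SF
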