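/-
Solvable signalizer functors: no 1-offenders.
-/
import Cfsg.Agent.Lib.SF.ML0
import Cfsg.Agent.Lib.SF.MLa
import Cfsg.Agent.Lib.SF.MLs
import Cfsg.Agent.Lib.SF.MLt

set_option autoImplicit false

namespace CA.SF

open Cfsg CA Subgroup

theorem noMS (G : Type*) [Group G] [Finite G] : NoMS G := fun p q t V F S A x h hF => by
  rcases hF with a | ⟨a, b⟩
  · exact h.false_ab a
  · by_cases t2 : t = 2
    · subst t2
      obtain rfl : q = 3 := h.hq.resolve_left h.tq.symm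
      exact h.false_two a b
    · exact h.false_odd a b t2

theorem no_off {G : Type*} [Group G] [Finite G] {p q : ℕ} (hp : p.Prime) (p2 : p ≠ 2) (hq : q = 2 ∨ q = 3) (pq : p ≠ q)
    {V H S A B : Subgroup G} (hV : IsElementaryAbelian q V) (hH : Group.IsSolvable H) (hHp : PiGrp {p}ᶜ H)
    (hA : PiGrp {p} A) (AH : A ≤ 𝐍(H)) (AV : A ≤ 𝐍(V)) (HV : H ≤ 𝐍(V)) (SH : S ≤ H) (hS : PiGrp {q} S)
    (AS : A ≤ 𝐍(S)) (fix : H ⊓ 𝐂(A) ≤ 𝐍(S))
    (red : ∀ Q, Q ⊴ H → PiNum {q} ((𝐂(V)).relIndex Q) → Q ≤ 𝐂(V))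
    (BS : B ≤ S) (hB : IsElementaryAbelian q B)
    (off : (𝐂(B)).relIndex V ≤ q * (𝐂(V)).relIndex B) : B ≤ 𝐂(V) :=
  no_off_of (fun G _ _ => noMS G) hp p2 hq pq hV hH hHp hA AH AV HV SH hS AS fix red BS hB off

end CA.SF
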