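/-
Solvable signalizer functors, block AM.
-/
import Cfsg.Agent.Lib.SF.AM0
import Cfsg.Agent.Lib.SF.ML

set_option autoImplicit false

namespace CA.SF

open Cfsg CA CA.Loc Subgroup

theorem amx {G : Type*} [Group G] [Finite G] {p q : ℕ} (hp : p.Prime) (p2 : p ≠ 2) (hq : q.Prime) (pq : p ≠ q)
    {N S A : Subgroup G} (hA : PiGrp {p} A) (S1 : S ≠ ⊥) (hS : PiGrp {q} S) (AS : A ≤ 𝐍(S))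
    (hN : Group.IsSolvable N) (hNp : PiGrp {p}ᶜ N) (AN : A ≤ 𝐍(N)) (SN : S ≤ N) (NJ : N ≤ 𝐍(Je q S))
    (fix : N ⊓ 𝐂(A) ≤ 𝐍(S)) :
    ∃ W : Subgroup G, W ≠ ⊥ ∧ W ≤ S ∧ N ≤ 𝐍(W) ∧ A ≤ 𝐍(W) ∧
      ∀ M : Subgroup G, Group.IsSolvable M → PiGrp {p}ᶜ M → A ≤ 𝐍(M) → S ≤ M → M ⊓ 𝐂(A) ≤ 𝐍(S) →
        M ⊓ 𝐍(Je q S) ≤ N → core2 {q}ᶜ {q} M ≤ piCoreOf {q}ᶜ M ⊔ S →
        coreMod {q}ᶜ M (core2 {q}ᶜ {q} M) ≤ piCoreOf {q}ᶜ M ⊔ (M ⊓ 𝐍(W)) :=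
  amx_of (fun G _ _ => noMS G) hp p2 hq pq hA S1 hS AS hN hNp AN SN NJ fix

end CA.SF
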