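/-
Basic facts on a minimal counterexample `Conf` to the solvable signalizer functor theorem.
-/
import Cfsg.Agent.Lib.SF.Gen

set_option autoImplicit false

namespace CA.SF

open Cfsg CA Subgroup

variable {G : Type*} [Group G]

namespace Conf

/-- `θ`-subgroups. -/
abbrev T (c : Conf G) (U : Subgroup G) : Prop := TS c.p c.A c.θ U
/-- `C = C_θ(A)`. -/
abbrev C (c : Conf G) : Subgroup G := th c.A c.θ
/-- Lines: subgroups of order `p²` of `A`. -/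
abbrev Line (c : Conf G) (B : Subgroup G) : Prop := Elem c.p 2 B c.A
/-- Maximal `θ`-subgroups containing `C`. -/
structure Mx (c : Conf G) (M : Subgroup G) : Prop where
  t : c.T M
  c_le : c.C ≤ M
  max : ∀ U, c.T U → M ≤ U → U = M
/-- `AC`-invariant `θ`-subgroups. -/
structure I (c : Conf G) (X : Subgroup G) : Prop where
  t : c.T X
  n : c.C ≤ 𝐍(X)

variable [Finite G] {c : Conf G} {B B' H J K L M N U V W X Y : Subgroup G} {a b g : G} {π : Set ℕ} {q r s t : ℕ}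

instance instFactP (c : Conf G) : Fact c.p.Prime := ⟨c.hp⟩

omit [Finite G] in
theorem elem (c : Conf G) : Elem c.p 3 c.A c.A := ⟨le_rfl, ⟨c.ab, c.ex⟩, c.card⟩
omit [Finite G] in
theorem piA (c : Conf G) : PiGrp {c.p} c.A := piGrp_of_card_pow c.hp c.card
omit [Finite G] in
theorem ord (ha : a ∈ c.A) (h1 : a ≠ 1) : orderOf a = c.p := orderOf_eq_prime (c.ex a ha) h1
omit [Finite G] in
theorem A_cent (hB : B ≤ c.A) : c.A ≤ 𝐂(B) := cents_of_abelian c.ab hB le_rfl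
omit [Finite G] in
theorem A_cent1 (ha : a ∈ c.A) : c.A ≤ 𝐂[a] := by
  rw [← cent_zpowers]; exact A_cent (zpowers_le.2 ha)
omit [Finite G] in
theorem A_norm (hB : B ≤ c.A) : c.A ≤ 𝐍(B) := norms_of_cents (A_cent hB)

/-! ### Geometry of lines -/

theorem Line.sup_pt (hB : c.Line B) (ha : a ∈ c.A) (h : a ∉ B) : B ⊔ zpowers a = c.A := by
  have := hB.sup_zpowers ha (c.ex a ha) h (A_cent hB.1 ha)
  exact eq_of_le_of_card_eq this.1 (this.2.2.trans c.card.symm)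

theorem Line.cent_A (hB : c.Line B) (ha : a ∈ c.A) (h : a ∉ B) (h1 : X ≤ 𝐂(B)) (h2 : X ≤ 𝐂[a]) : X ≤ 𝐂(c.A) := by
  rw [← hB.sup_pt ha h]; exact cents_sup h1 (by rwa [cent_zpowers])

theorem Line.eq_of_le (hB : c.Line B) (hB' : c.Line B') (h : B ≤ B') : B = B' :=
  eq_of_le_of_card_eq h (hB.2.2.trans hB'.2.2.symm)

theorem Line.exists_not_mem (hB : c.Line B) (hB' : c.Line B') (h : B ≠ B') : ∃ a ∈ B', a ∉ B :=
  SetLike.not_le_iff_exists.1 fun h' => h (hB'.eq_of_le hB h').symm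

theorem Line.cent_A' (hB : c.Line B) (hB' : c.Line B') (h : B ≠ B') (h1 : X ≤ 𝐂(B)) (h2 : X ≤ 𝐂(B')) :
    X ≤ 𝐂(c.A) := by
  obtain ⟨a, ha, ha'⟩ := hB.exists_not_mem hB' h
  exact hB.cent_A (hB'.1 ha) ha' h1 (h2.trans (cent_le_cent1 ha))

theorem Line.exists_inf (hB : c.Line B) (hB' : c.Line B') : ∃ a ∈ B, a ∈ B' ∧ a ≠ 1 := by
  have := card_mul_card_le hB.1 hB'.1
  rw [hB.2.2, hB'.2.2, c.card] at this
  have h1 : B ⊓ B' ≠ ⊥ := by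
    intro h
    rw [h, card_bot, one_mul, ← pow_add] at this
    exact absurd ((Nat.pow_le_pow_iff_right c.hp.one_lt).1 this) (by norm_num)
  obtain ⟨a, ha, h⟩ := exists_ne_one_mem' h1
  exact ⟨a, ha.1, ha.2, h⟩

theorem Line.lt (hB : c.Line B) : B < c.A :=
  lt_of_le_of_card_lt hB.1 (by rw [hB.2.2, c.card]; exact Nat.pow_lt_pow_right c.hp.one_lt (by norm_num))

theorem Line.not_cyclic (hB : c.Line B) : ¬ IsCyclic B := fun h => by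
  have := card_inf_le_prime_of_isCyclic (E := B) h fun a ha => c.ex a (hB.1 ha)
  rw [inf_idem, hB.2.2] at this
  have := c.hp.one_lt
  nlinarith

theorem Line.ne_bot (hB : c.Line B) : B ≠ ⊥ := by
  rintro rfl; exact hB.not_cyclic inferInstance

theorem exists_line_ge (h : B < c.A) : ∃ B', c.Line B' ∧ B ≤ B' := by
  obtain ⟨M, h1, h2, -, h3, -⟩ := exists_relIndex_eq_prime (c.piA.isPGroup c.hp) h
  refine ⟨M, ⟨h2, c.elem.2.1.mono h2, ?_⟩, h1⟩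
  have := card_mul_relIndex h2
  rw [h3, c.card, pow_succ] at this
  exact Nat.eq_of_mul_eq_mul_right c.hp.pos this

theorem exists_line (c : Conf G) : ∃ B, c.Line B := by
  obtain ⟨B, h, -⟩ := exists_line_ge (c := c) (B := ⊥) (bot_lt_iff_ne_bot.2 fun h => by
    have := c.card; rw [h, card_bot] at this
    exact absurd this.symm (Nat.ne_of_gt (Nat.one_lt_pow (by norm_num) c.hp.one_lt)))
  exact ⟨B, h⟩

theorem exists_pt (c : Conf G) : ∃ a ∈ c.A, a ≠ 1 := by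
  obtain ⟨B, h⟩ := c.exists_line
  obtain ⟨a, ha, h1⟩ := exists_ne_one_mem' h.ne_bot
  exact ⟨a, h.1 ha, h1⟩

/-! ### θ-subgroups -/

theorem T.copA (hU : c.T U) : CopAct U c.A := copAct_p_right hU.norm hU.cop c.piA

omit [Finite G] in
theorem T.of_le (hU : c.T U) (h : X ≤ U) (n : c.A ≤ 𝐍(X)) : c.T X :=
  ⟨n, solvable_of_le hU.solv h, hU.cop.of_le h, fun a ha h1 => (inf_le_inf_right _ h).trans (hU.fix a ha h1)⟩

omit [Finite G] in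
theorem t_bot : c.T ⊥ := ⟨norms_bot, solvable_bot, piGrp_bot _, fun _ _ _ => by simp⟩

omit [Finite G] in
theorem t_θ (ha : a ∈ c.A) (h1 : a ≠ 1) : c.T (c.θ a) :=
  ⟨c.fn.norm a ha h1, c.fn.solv a ha h1, c.fn.cop a ha h1, fun b hb b1 => c.fn.bal a ha h1 b hb b1⟩

omit [Finite G] in
theorem th_cent (hB : B ≤ c.A) : th B c.θ ≤ 𝐂(B) ∨ B = ⊥ := by
  by_cases h : B = ⊥
  · exact Or.inr h
  refine Or.inl (cents_symm fun b hb => ?_)
  by_cases b1 : b = 1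
  · subst b1; exact one_mem _
  exact mem_cent_iff_le_cent1.2 ((th_le hb b1).trans (c.fn.cent b (hB hb) b1))

omit [Finite G] in
theorem T.cent_le_th (hU : c.T U) (hB : B ≤ c.A) : U ⊓ 𝐂(B) ≤ th B c.θ :=
  le_th fun b hb b1 => (inf_le_inf_left _ (cent_le_cent1 hb)).trans (hU.fix b (hB hb) b1)

theorem C_cent (c : Conf G) : c.C ≤ 𝐂(c.A) := (th_cent le_rfl).resolve_right (by
  obtain ⟨a, ha, h1⟩ := c.exists_pt; exact ne_bot_of_mem ha h1)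

omit [Finite G] in
theorem C_le (ha : a ∈ c.A) (h1 : a ≠ 1) : c.C ≤ c.θ a := th_le ha h1

omit [Finite G] in
theorem C_le_th (hB : B ≤ c.A) : c.C ≤ th B c.θ := le_th fun _ hb b1 => C_le (hB hb) b1

theorem C_cent' (hB : B ≤ c.A) : c.C ≤ 𝐂(B) := c.C_cent.trans (cent_mono hB)
theorem C_cent1 (ha : a ∈ c.A) : c.C ≤ 𝐂[a] := c.C_cent.trans (cent_le_cent1 ha)

theorem Line.th_cent (hB : c.Line B) : th B c.θ ≤ 𝐂(B) := (Conf.th_cent hB.1).resolve_right hB.ne_bot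

theorem Line.tt (hB : c.Line B) : c.T (th B c.θ) := by
  obtain ⟨b, hb, b1⟩ := exists_ne_one_mem' hB.ne_bot
  exact (t_θ (hB.1 hb) b1).of_le (th_le hb b1) (norms_iInf fun x => c.fn.norm _ (hB.1 x.2.1) x.2.2)

theorem t_C (c : Conf G) : c.T c.C := by
  obtain ⟨b, hb, b1⟩ := c.exists_pt
  exact (t_θ hb b1).of_le (C_le hb b1) (norms_of_cents (cents_symm c.C_cent))

theorem T.gen_pt (hU : c.T U) (hB : c.Line B) (h : ∀ b ∈ B, b ≠ 1 → U ⊓ 𝐂[b] ≤ J) : U ≤ J :=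
  (hU.copA.right hB.1).le_of_cent1 hB.2.1.comm hB.not_cyclic h

theorem T.gen_line (hU : c.T U) (h : ∀ B, c.Line B → U ⊓ 𝐂(B) ≤ J) : U ≤ J :=
  le_of_cent_elem_pred (n := 2) c.elem hU.norm hU.cop h

theorem T.exists_pt (hU : c.T U) (hB : c.Line B) (h : U ≠ ⊥) : ∃ b ∈ B, b ≠ 1 ∧ U ⊓ 𝐂[b] ≠ ⊥ := by
  by_contra hc
  push Not at hc
  exact h (eq_bot_iff.2 (hU.gen_pt hB fun b hb b1 => (hc b hb b1).le))

theorem T.exists_line (hU : c.T U) (h : U ≠ ⊥) : ∃ B, c.Line B ∧ U ⊓ 𝐂(B) ≠ ⊥ := by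
  by_contra hc
  push Not at hc
  exact h (eq_bot_iff.2 (hU.gen_line fun B hB => (hc B hB).le))

theorem T.sup (hU : c.T U) (hV : c.T V) (n : V ≤ 𝐍(U)) : c.T (U ⊔ V) := by
  by_cases h : U = ⊥
  · subst h; simpa using hV
  obtain ⟨N, h1, -, h3⟩ := c.loc U hU h
  exact T.of_le h1 (sup_le (h3 U hU le_normalizer) (h3 V hV n)) (norms_sup hU.norm hV.norm)

omit [Finite G] in
theorem T.inf (hU : c.T U) (n : c.A ≤ 𝐍(X)) : c.T (U ⊓ X) := hU.of_le inf_le_left (norms_inf hU.norm n)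

theorem T.core (hU : c.T U) (π : Set ℕ) : c.T (piCoreOf π U) :=
  hU.of_le (piCoreOf_le _ _) (norms_piCoreOf _ hU.norm)

theorem T.ne_p (hU : c.T U) (hs : PiGrp {s} U) (h : U ≠ ⊥) : c.p ≠ s := fun e =>
  h (PiGrp.eq_bot (π := {c.p}) (e ▸ hs) hU.cop)

theorem T.cop1 (hU : c.T U) (hb : b ∈ c.A) : CopAct U (zpowers b) := hU.copA.zpowers hb

theorem exists_mx (hU : c.T U) (h : c.C ≤ U) : ∃ M, c.Mx M ∧ U ≤ M := by
  obtain ⟨M, h1, h2, h3⟩ := exists_maximal_ge c.T hU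
  exact ⟨M, ⟨h2, h.trans h1, h3⟩, h1⟩

theorem exists_mx_θ (hb : b ∈ c.A) (b1 : b ≠ 1) : ∃ M, c.Mx M ∧ c.θ b ≤ M :=
  exists_mx (t_θ hb b1) (C_le hb b1)

theorem I.exists_mx (hX : c.I X) (h : X ≠ ⊥) : ∃ L, c.Mx L ∧ ∀ V, c.T V → V ≤ 𝐍(X) → V ≤ L := by
  obtain ⟨N, h1, -, h3⟩ := c.loc X hX.t h
  obtain ⟨L, h4, h5⟩ := Conf.exists_mx h1 (h3 _ c.t_C hX.n)
  exact ⟨L, h4, fun V hV n => (h3 V hV n).trans h5⟩

theorem I.exists_mx_le (hX : c.I X) : ∃ L, c.Mx L ∧ X ≤ L := by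
  obtain ⟨L, h1, h2⟩ := Conf.exists_mx (hX.t.sup c.t_C hX.n) le_sup_right
  exact ⟨L, h1, le_sup_left.trans h2⟩

theorem Mx.norm_le (hM : c.Mx M) (hX : c.T X) (h : X ≠ ⊥) (n : M ≤ 𝐍(X)) (hV : c.T V) (nV : V ≤ 𝐍(X)) :
    V ≤ M := by
  obtain ⟨N, h1, -, h3⟩ := c.loc X hX h
  rw [← hM.max N h1 (h3 M hM.t n)]; exact h3 V hV nV

theorem Mx.norm_O (hM : c.Mx M) (h : piCoreOf π M ≠ ⊥) (hV : c.T V) (nV : V ≤ 𝐍(piCoreOf π M)) : V ≤ M :=
  hM.norm_le (hM.t.core π) h (piCoreOf_norm _ _) hV nV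

theorem Mx.cent_O (hM : c.Mx M) (h : piCoreOf π M ≠ ⊥) (hV : c.T V) (nV : V ≤ 𝐂(piCoreOf π M)) : V ≤ M :=
  hM.norm_O h hV (norms_of_cents nV)

omit [Finite G] in
theorem Mx.eq_of_le (hM : c.Mx M) (hL : c.Mx L) (h : M ≤ L) : M = L := (hM.max L hL.t h).symm

theorem Mx.eq_of_O (hM : c.Mx M) (hL : c.Mx L) (h : piCoreOf π M ≠ ⊥) (e : piCoreOf π M = piCoreOf π L) :
    M = L := (hL.eq_of_le hM (hM.norm_O h hL.t (e ▸ piCoreOf_norm _ _))).symm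

omit [Finite G] in
theorem Mx.i (hM : c.Mx M) : c.I M := ⟨hM.t, norms_self_of_le hM.c_le⟩

omit [Finite G] in
theorem I.inf (hX : c.I X) (hY : c.I Y) : c.I (X ⊓ Y) := ⟨hX.t.inf hY.t.norm, norms_inf hX.n hY.n⟩
omit [Finite G] in
theorem I.inf_cent (hX : c.I X) (hY : c.I Y) : c.I (X ⊓ 𝐂(Y)) :=
  ⟨hX.t.inf (norms_cent hY.t.norm), norms_inf hX.n (norms_cent hY.n)⟩
omit [Finite G] in
theorem I.inf_norm (hX : c.I X) (hY : c.I Y) : c.I (X ⊓ 𝐍(Y)) :=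
  ⟨hX.t.inf (norms_norm hY.t.norm), norms_inf hX.n (norms_norm hY.n)⟩
omit [Finite G] in
theorem I.center (hX : c.I X) : c.I 𝐙(X) := hX.inf_cent hX
theorem I.inf_centA (hX : c.I X) (hB : B ≤ c.A) : c.I (X ⊓ 𝐂(B)) :=
  ⟨hX.t.inf (norms_cent (A_norm hB)), norms_inf hX.n (norms_cent (norms_of_cents (C_cent' hB)))⟩
theorem I.inf_cent1 (hX : c.I X) (hb : b ∈ c.A) : c.I (X ⊓ 𝐂[b]) := by
  rw [← cent_zpowers]; exact hX.inf_centA (zpowers_le.2 hb)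
theorem I.core (hX : c.I X) (π : Set ℕ) : c.I (piCoreOf π X) := ⟨hX.t.core π, norms_piCoreOf _ hX.n⟩
theorem Mx.iO (hM : c.Mx M) (π : Set ℕ) : c.I (piCoreOf π M) := hM.i.core π
theorem I.sup (hX : c.I X) (hY : c.I Y) (n : Y ≤ 𝐍(X)) : c.I (X ⊔ Y) := ⟨hX.t.sup hY.t n, norms_sup hX.n hY.n⟩
omit [Finite G] in
theorem I.of_le (hX : c.T X) (h : Y ≤ X) (n1 : c.A ≤ 𝐍(Y)) (n2 : c.C ≤ 𝐍(Y)) : c.I Y := ⟨hX.of_le h n1, n2⟩
omit [Finite G] in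
theorem I.comm (hX : c.I X) (hY : c.I Y) (n : Y ≤ 𝐍(X)) : c.I ⁅X, Y⁆ :=
  ⟨hX.t.of_le (comm_le_left n) (norms_commutator hX.t.norm hY.t.norm), norms_commutator hX.n hY.n⟩
theorem I.commA (hX : c.I X) (hB : B ≤ c.A) : c.I ⁅X, B⁆ :=
  ⟨hX.t.of_le (comm_le_left (hB.trans hX.t.norm)) (norms_commutator hX.t.norm (A_norm hB)),
    norms_commutator hX.n (norms_of_cents (C_cent' hB))⟩
theorem I.ncl (hU : c.T U) (hX : c.A ≤ 𝐍(X)) (hB : c.Line B) (h : ncl X (th B c.θ) ≤ U) :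
    c.I (ncl X (th B c.θ)) :=
  ⟨hU.of_le h (norms_ncl hX hB.tt.norm), (C_le_th hB.1).trans (norm_ncl _ _)⟩

/-! ### Incompleteness -/

theorem i6a (hU : c.T U) (hB : c.Line B) : ∃ b ∈ B, b ≠ 1 ∧ ¬ c.θ b ≤ U := by
  by_contra h
  push Not at h
  exact c.inc ⟨U, hU, fun a ha h1 => (t_θ ha h1).gen_pt hB fun b hb b1 =>
    ((t_θ ha h1).fix b (hB.1 hb) b1).trans (h b hb b1)⟩

theorem exists_bad (hU : c.T U) : ∃ B, c.Line B ∧ ¬ th B c.θ ≤ U := by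
  by_contra h
  push Not at h
  exact c.inc ⟨U, hU, fun a ha h1 => (t_θ ha h1).gen_line fun B hB =>
    ((t_θ ha h1).cent_le_th hB.1).trans (h B hB)⟩

omit [Finite G] in
theorem bad_pt (h : ¬ th B c.θ ≤ U) (hb : b ∈ B) (b1 : b ≠ 1) : ¬ c.θ b ≤ U :=
  fun h' => h ((th_le hb b1).trans h')

theorem Mx.ne_bot (hM : c.Mx M) : M ≠ ⊥ := by
  rintro rfl
  obtain ⟨B, hB, h⟩ := exists_bad (c := c) t_bot
  exact h (hM.max _ hB.tt bot_le).le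

theorem Mx.exists_O (hM : c.Mx M) : ∃ s, s.Prime ∧ piCoreOf {s} M ≠ ⊥ := by
  obtain ⟨s, h1, -, h2⟩ := exists_piCoreOf_singleton_ne_bot hM.t.solv hM.ne_bot
  exact ⟨s, h1, h2⟩

theorem two_col (hU : c.T U) (hV : c.T V) (h : ∀ b ∈ c.A, b ≠ 1 → c.θ b ≤ U ∨ c.θ b ≤ V) : False := by
  obtain ⟨B, hB, h1⟩ := exists_bad hU
  obtain ⟨b, hb, b1, h2⟩ := i6a hV hB
  exact (h b (hB.1 hb) b1).elim (bad_pt h1 hb b1) h2

theorem i6b (hM : c.T M) (ha : a ∈ c.A) (a1 : a ≠ 1) : ∃ B, c.Line B ∧ a ∉ B ∧ ¬ th B c.θ ≤ M := by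
  by_contra h
  push Not at h
  have hZ : zpowers a ≤ c.A := zpowers_le.2 ha
  have h1 : ∀ b ∈ c.A, b ≠ 1 → ⁅c.θ b, zpowers a⁆ ≤ ⁅M, zpowers a⁆ := fun b hb b1 => by
    refine gl c.ab ha (t_θ hb b1).copA (t_θ hb b1).solv fun B hB hc => ?_
    by_cases haB : a ∈ B
    · rw [comm_eq_bot_iff.2 (inf_le_right.trans (cent_mono (zpowers_le.2 haB)))]; exact bot_le
    have hl : c.Line B := by
      obtain ⟨B', h1, h2⟩ := exists_line_ge (lt_of_le_of_ne hB fun e => haB (e ▸ ha))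
      have h3 := relIndex_dvd_of_cocyclic c.elem.2.1 hB hc
      have h4 := card_mul_relIndex hB
      have h5 := card_le_of_le' h2
      rw [h1.2.2] at h5
      rw [c.card] at h4
      refine ⟨hB, c.elem.2.1.mono hB, le_antisymm h5 ?_⟩
      have h6 := Nat.le_of_dvd c.hp.pos h3
      have : c.p ^ 2 * c.p ≤ Nat.card B * c.p := by
        rw [← pow_succ, ← h4]; exact Nat.mul_le_mul_left _ h6
      exact Nat.le_of_mul_le_mul_right this c.hp.pos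
    exact commutator_mono (((t_θ hb b1).cent_le_th hB).trans (h B hl haB)) le_rfl
  have h2 : ∀ b ∈ c.A, b ≠ 1 → c.θ b ≤ ⁅M, zpowers a⁆ ⊔ c.θ a := fun b hb b1 => by
    refine (((t_θ hb b1).cop1 ha).le_sup_cent (h1 b hb b1)).trans (sup_le_sup_left ?_ _)
    rw [cent_zpowers]; exact (t_θ hb b1).fix a ha a1
  have tW : c.T ⁅M, zpowers a⁆ :=
    hM.of_le (comm_le_left (hZ.trans hM.norm)) (norms_commutator hM.norm (A_norm hZ))
  refine c.inc ⟨_, tW.sup (t_θ ha a1) ?_, h2⟩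
  refine (t_θ ha a1).gen_line fun B hB => ?_
  by_cases haB : a ∈ B
  swap
  · exact (((t_θ ha a1).cent_le_th hB.1).trans (h B hB haB)).trans (comm_norm_left _ _)
  refine ((t_θ ha a1).cent_le_th hB.1).trans ?_
  have e : ⁅M, zpowers a⁆ = ⨆ b : {b : G // b ∈ B ∧ b ≠ 1}, ⁅c.θ b, zpowers a⁆ := by
    refine le_antisymm ?_ (iSup_le fun b => h1 b (hB.1 b.2.1) b.2.2)
    refine gl hB.2.1.comm haB (hM.copA.right hB.1) hM.solv fun B0 h0 hc => ?_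
    obtain ⟨b, hb, b1⟩ := exists_ne_one_mem' (ne_bot_of_isCyclic_quo hB.not_cyclic hc)
    refine le_iSup_of_le ⟨b, h0 hb, b1⟩ (commutator_mono ?_ le_rfl)
    exact (inf_le_inf_left _ (cent_le_cent1 hb)).trans (hM.fix b (hB.1 (h0 hb)) b1)
  rw [e]
  exact norms_iSup fun b => norms_commutator (norms_self_of_le (th_le b.2.1 b.2.2))
    (norms_of_cents (hB.th_cent.trans (cent_mono (zpowers_le.2 haB))))

/-- If all points off a line `B` have colour `M`, contradiction. -/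
theorem off_line (hM : c.T M) (hB : c.Line B) (h : ∀ b ∈ c.A, b ∉ B → c.θ b ≤ M) : False := by
  obtain ⟨a, ha, a1⟩ := exists_ne_one_mem' hB.ne_bot
  obtain ⟨B', h1, h2, h3⟩ := i6b hM (hB.1 ha) a1
  obtain ⟨b, hb, hb'⟩ := hB.exists_not_mem h1 fun e => h2 (e ▸ ha)
  exact bad_pt h3 hb (fun e => hb' (e ▸ one_mem _)) (h b (h1.1 hb) hb')

theorem off_lines (hM : c.T M) (hB : B < c.A) (hB' : B' < c.A)
    (h : ∀ b ∈ c.A, b ∉ B → b ∉ B' → c.θ b ≤ M) : False := by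
  obtain ⟨B1, l1, h1⟩ := exists_line_ge hB
  obtain ⟨B2, l2, h2⟩ := exists_line_ge hB'
  obtain ⟨a, a1, a2, a3⟩ := l1.exists_inf l2
  obtain ⟨B0, l0, h3, h4⟩ := i6b hM (l1.1 a1) a3
  have : ∀ b ∈ B0, b ∈ B1 ∨ b ∈ B2 := fun b hb => by
    by_contra hc
    rw [not_or] at hc
    exact bad_pt h4 hb (fun e => hc.1 (e ▸ one_mem _))
      (h b (l0.1 hb) (fun x => hc.1 (h1 x)) fun x => hc.2 (h2 x))
  rcases le_or_le_of_forall this with h5 | h5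
  · exact h3 (l0.eq_of_le l1 h5 ▸ a1)
  · exact h3 (l0.eq_of_le l2 h5 ▸ a2)

/-- All `θ`-subgroups nilpotent is impossible. -/
theorem not_nil (h : ∀ U, c.T U → Group.IsNilpotent U) : False := by
  have key : ∀ n : ℕ, ∀ M L : Subgroup G, c.T M → (∀ U, c.T U → M ≤ U → U = M) → c.T L →
      (∀ U, c.T U → L ≤ U → U = L) → M ⊓ L ≠ ⊥ → Nat.card G < Nat.card ↥(M ⊓ L) + n → M = L := by
    intro n
    induction n with
    | zero => intro M L _ _ _ _ _ h; exact absurd (card_le_card_group (M ⊓ L)) (by omega)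
    | succ n ih =>
    intro M L hM mM hL mL h1 hc
    by_contra hne
    obtain ⟨N, n1, -, n3⟩ := c.loc _ (hM.inf hL.norm) h1
    obtain ⟨K, k1, k2, k3⟩ := exists_maximal_ge c.T n1
    have aux : ∀ M' : Subgroup G, c.T M' → (∀ U, c.T U → M' ≤ U → U = M') → M ⊓ L < M' → M' = K := by
      intro M' hM' mM' hlt
      have h2 := lt_inf_normalizer_nil (h _ hM') hlt
      have h3 : M' ⊓ 𝐍(M ⊓ L) ≤ M' ⊓ K := le_inf inf_le_left
        ((n3 _ (hM'.inf (norms_norm (norms_inf hM.norm hL.norm))) inf_le_right).trans k1)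
      have h4 := card_lt_of_lt' (h2.trans_le h3)
      exact ih M' K hM' mM' k2 k3 (ne_bot_of_gt (h2.trans_le h3)) (by omega)
    exact hne ((aux M hM mM (inf_lt_left.2 fun e => hne (mM L hL e).symm)).trans
      (aux L hL mL (inf_lt_right.2 fun e => hne (mL M hM e))).symm)
  obtain ⟨b0, hb0, b01⟩ := c.exists_pt
  obtain ⟨M, hM, -⟩ := exists_mx_θ hb0 b01
  obtain ⟨B, hB, h1⟩ := hM.t.exists_line hM.ne_bot
  obtain ⟨b, hb, b1, h2⟩ := i6a hM.t hB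
  obtain ⟨L, hL, h3⟩ := exists_mx_θ (hB.1 hb) b1
  refine h2 (key (Nat.card G) M L hM.t hM.max hL.t hL.max (fun e => h1 (eq_bot_iff.2 (e ▸ le_inf inf_le_left ?_)))
    (by have := card_pos' (M ⊓ L); omega) ▸ h3)
  exact ((hM.t.cent_le_th hB.1).trans (th_le hb b1)).trans h3

/-! ### Frobenius-type lemmas inside `Conf` -/

theorem fl0 (hb : b ∈ c.A) (b1 : b ≠ 1) (bY : b ∈ 𝐍(Y)) (hYp : PiGrp {c.p}ᶜ Y) (hX : c.T X) (YX : Y ≤ 𝐍(X))
    (ht : PiGrp {t} X) (hs : PiGrp {s} Y) (st : s ≠ t) (hf : Y ⊓ 𝐂[b] = ⊥) (h : X ⊓ 𝐂[b] ≤ 𝐂(Y)) : Y ≤ 𝐂(X) := by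
  by_cases h1 : X = ⊥
  · subst h1; rw [cent_bot']; exact le_top
  exact fl c.hp (ord hb b1) bY (hX.norm hb) YX ht (hs.compl_singleton (by simpa using st.symm)) hYp (hX.ne_p ht h1) hf h

theorem fl1 (hb : b ∈ c.A) (b1 : b ≠ 1) (bY : b ∈ 𝐍(Y)) (hYp : PiGrp {c.p}ᶜ Y) (hX : c.T X) (YX : Y ≤ 𝐍(X))
    (ht : PiGrp {t} X) (hs : PiGrp {s} Y) (st : s ≠ t) (ab : IsMulCommutative Y) (h : X ⊓ 𝐂[b] ≤ 𝐂(Y)) :
    ⁅Y, zpowers b⁆ ≤ 𝐂(X) := by
  by_cases h1 : X = ⊥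
  · subst h1; rw [cent_bot']; exact le_top
  exact fl_ab c.hp (ord hb b1) bY (hX.norm hb) YX ht (hs.compl_singleton (by simpa using st.symm)) hYp
    (hX.ne_p ht h1) ab h

/-- The colour of `M` is big. -/
def Big (c : Conf G) (M : Subgroup G) : Prop := ∀ B, B < c.A → ∃ b ∈ c.A, b ∉ B ∧ c.θ b ≤ M

theorem d1' (hM : c.Big M) (hY : c.T Y) (hX : c.T X) (YX : Y ≤ 𝐍(X)) (ht : PiGrp {t} X) (hs : PiGrp {s} Y)
    (st : s ≠ t) (ab : IsMulCommutative Y) (h : X ⊓ M ≤ 𝐂(Y)) : ⁅Y, c.A⁆ ≤ 𝐂(X) := by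
  by_cases h1 : X = ⊥
  · subst h1; rw [cent_bot']; exact le_top
  refine d1 c.hp c.ex hY.norm hX.norm YX ht (hs.compl_singleton (by simpa using st.symm)) hY.cop (hX.ne_p ht h1) ab
    fun B hB => ?_
  obtain ⟨b, hb, hbB, h2⟩ := hM B hB
  exact ⟨b, hb, hbB, (le_inf inf_le_left ((hX.fix b hb fun e => hbB (e ▸ one_mem _)).trans h2)).trans h⟩

theorem fg' (hX : c.T X) (ht : PiGrp {t} X) (hc : CopAct X Y) (he : ⁅X, Y⁆ = X)
    (h : ∀ B, c.Line B → X ⊓ 𝐂(B) ≤ M ∨ X ⊓ 𝐂(B) ≤ 𝐂(Y)) : X ≤ M :=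
  fg ht hc he (hX.gen_line fun B hB => (h B hB).elim (fun h => le_sup_of_le_left (le_inf inf_le_left h))
    fun h => le_sup_of_le_right (le_inf inf_le_left h))

end Conf

end CA.SF
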