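/-
Uniqueness results for maximal `θ`-subgroups (Bender method and the amalgam lemma `AMX`).
-/
import Cfsg.Agent.Lib.SF.Base

set_option autoImplicit false

namespace CA.SF

open Cfsg CA CA.Loc Subgroup

/-- The amalgam lemma `amx` for the group `G`. -/
class AMX (G : Type*) [Group G] : Prop where
  out : ∀ {p q : ℕ} (_ : p.Prime) (_ : p ≠ 2) (_ : q.Prime) (_ : p ≠ q)
    {N S A : Subgroup G} (_ : PiGrp {p} A) (_ : S ≠ ⊥) (_ : PiGrp {q} S) (_ : A ≤ 𝐍(S))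
    (_ : Group.IsSolvable N) (_ : PiGrp {p}ᶜ N) (_ : A ≤ 𝐍(N)) (_ : S ≤ N) (_ : N ≤ 𝐍(Je q S))
    (_ : N ⊓ 𝐂(A) ≤ 𝐍(S)),
    ∃ W : Subgroup G, W ≠ ⊥ ∧ W ≤ S ∧ N ≤ 𝐍(W) ∧ A ≤ 𝐍(W) ∧
      ∀ M : Subgroup G, Group.IsSolvable M → PiGrp {p}ᶜ M → A ≤ 𝐍(M) → S ≤ M → M ⊓ 𝐂(A) ≤ 𝐍(S) →
        M ⊓ 𝐍(Je q S) ≤ N → core2 {q}ᶜ {q} M ≤ piCoreOf {q}ᶜ M ⊔ S →
        coreMod {q}ᶜ M (core2 {q}ᶜ {q} M) ≤ piCoreOf {q}ᶜ M ⊔ (M ⊓ 𝐍(W))

variable {G : Type*} [Group G] [Finite G]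

section gen
variable {H X Y U K : Subgroup G} {q : ℕ} {π : Set ℕ}

/-- A `q`-subgroup normalized modulo `O_{q'}(H)` by `O_{q',q,q'}(H)` lies in `O_{q',q}(H)`. -/
theorem le_core2_of_norm (hs : Group.IsSolvable H) (hX : X ≤ H) (hq : PiGrp {q} X)
    (h : coreMod {q}ᶜ H (core2 {q}ᶜ {q} H) ≤ 𝐍(piCoreOf {q}ᶜ H ⊔ X)) : X ≤ core2 {q}ᶜ {q} H := by
  set K := core2 {q}ᶜ {q} H
  set Y := piCoreOf {q}ᶜ H
  have nK : K ⊴ H := core2_normalIn _ _ _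
  have n2 := coreMod_normalIn {q}ᶜ nK
  have YK : Y ≤ K := piCoreOf_le_core2 _ _ _
  have XK : X ≤ 𝐍(K) := hX.trans nK.norm
  have h0 : piCoreOf ({q}ᶜ)ᶜ (H /ₛ K) = ⊥ := by
    rw [compl_compl, ← quo_coreMod, quo_eq_bot_iff ((coreMod_normalIn _ nK).le.trans nK.norm)]
    refine le_core2 (coreMod_normalIn _ nK) ?_
    rw [← relIndex_mul_relIndex _ _ _ YK (le_coreMod_self _ _ _)]
    exact (piNum_relIndex_core2 _ _ _).mul (piNum_relIndex_coreMod _ _ _)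
  have h1 : X /ₛ K ≤ 𝐂(piCoreOf {q}ᶜ (H /ₛ K)) := by
    rw [← comm_eq_bot_iff, eq_bot_iff, ← (hq.quo K).inf_eq_bot (piCoreOf_piGrp {q}ᶜ (H /ₛ K))]
    refine le_inf (comm_le_left ?_) (comm_le_right ((quo_mono K hX).trans (piCoreOf_norm _ _)))
    rw [← quo_coreMod, ← quo_sup_of_le_left YK XK]
    exact quo_norms K h
  have h2 := (le_inf (quo_mono K hX) h1).trans (cent_piCoreOf_le (solvable_quo hs K) h0)
  rw [← quo_eq_bot_iff XK]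
  exact (hq.quo K).eq_bot ((piCoreOf_piGrp _ _).of_le h2)

theorem O_cents {s r : ℕ} (h : s ≠ r) (M : Subgroup G) : piCoreOf {s} M ≤ 𝐂(piCoreOf {r} M) :=
  piCoreOf_cents_of_disjoint (by rintro k - rfl; exact h) M

/-- A `π'`-subgroup centralizing `X` modulo `Y`. -/
theorem le_sup_cent_of_comm (hc : CopAct Y X) (hU : U ≤ H) (hY : Y ≤ H) (h : ⁅U, X⁆ ≤ Y) : U ≤ Y ⊔ (H ⊓ 𝐂(X)) := by
  intro u hu
  obtain ⟨r, hr, d, hd, rfl⟩ := hc.exists_cent_mul (x := u) fun a ha => h (comm_mem hu ha)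
  refine mul_mem_sup hr ⟨?_, hd⟩
  simpa using mul_mem (inv_mem (hY hr)) (hU hu)

end gen

namespace Conf

variable {c : Conf G} {B H J K L M N S U V W X Y : Subgroup G} {a b g : G} {π : Set ℕ} {q r s t : ℕ}

/-- The largest `AC`-invariant `π`-`θ`-subgroup. -/
def LL (c : Conf G) (π : Set ℕ) : Subgroup G := sSup {V | c.I V ∧ PiGrp π V}

/-- `q ∈ π(θ)`. -/
def Pr (c : Conf G) (q : ℕ) : Prop := q.Prime ∧ ∃ a ∈ c.A, a ≠ 1 ∧ q ∣ Nat.card (c.θ a)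

omit [Finite G] in
theorem I.le_LL (hV : c.I V) (h : PiGrp π V) : V ≤ c.LL π := le_sSup ⟨hV, h⟩

theorem LL_spec (hq : c.Pr q) (h : q ∉ π) : c.I (c.LL π) ∧ PiGrp π (c.LL π) := by
  obtain ⟨L, h1, h2, h3, h4⟩ := c.sub π ⟨q, hq.1, h, hq.2⟩
  have : c.LL π = L := le_antisymm (sSup_le fun V hV => h4 V hV.1.t hV.2 hV.1.n) (I.le_LL ⟨h1, h3⟩ h2)
  rw [this]; exact ⟨⟨h1, h3⟩, h2⟩

omit [Finite G] in
theorem LL_mono {ρ : Set ℕ} (h : π ⊆ ρ) : c.LL π ≤ c.LL ρ := sSup_le fun _ hV => hV.1.le_LL (hV.2.mono h)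

theorem T.pr (hU : c.T U) (hq : q.Prime) (h : q ∣ Nat.card U) : c.Pr q := by
  obtain ⟨S, h1, h2⟩ := hU.copA.exists_sylowIn q
  obtain ⟨B, hB⟩ := c.exists_line
  have tS := hU.of_le h1.le h2
  obtain ⟨b, hb, b1, h3⟩ := tS.exists_pt hB (h1.ne_bot hq h)
  exact ⟨hq, b, hB.1 hb, b1, ((h1.piGrp.inf_left _).dvd_card_of_ne_bot h3).trans
    (card_dvd_of_le' (tS.fix b (hB.1 hb) b1))⟩

theorem T.pr' (hU : c.T U) (hq : PiGrp {q} U) (h : U ≠ ⊥) : c.Pr q :=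
  hU.pr (hq.prime_of_ne_bot h) (hq.dvd_card_of_ne_bot h)

theorem T.fixA (hU : c.T U) : U ⊓ 𝐂(c.A) ≤ c.C := hU.cent_le_th le_rfl

/-- `π_N`, the primes dividing `|F(N)|`. -/
def PF (N : Subgroup G) : Set ℕ := {s | piCoreOf {s} N ≠ ⊥}

/-- A `π_N'`-group normalized by `F(N)` meets `N` trivially. -/
theorem wu0 (hN : c.Mx N) (hU : PiGrp (PF N)ᶜ U) (n : fittingOf N ≤ 𝐍(U)) : U ⊓ N = ⊥ := by
  have h1 : U ⊓ N ≤ fittingOf N := by
    refine le_fit_of_cents hN.t.solv inf_le_right fun r _ h => ?_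
    refine cents_of_norms_of_coprime (norms_inf ((piCoreOf_singleton_le_fittingOf _ _).trans n)
      (norms_self_of_le (piCoreOf_le _ _))) (inf_le_right.trans (piCoreOf_norm _ _)) ?_
    exact (hU.inf_left N).coprime' ((piCoreOf_piGrp _ _).singleton_mono h)
  refine PiGrp.eq_bot (π := PF N) (fun r hr hd => ?_) (hU.inf_left N)
  exact (piCoreOf_singleton_ne_bot_iff hr).2 (hd.trans (card_dvd_of_le' h1))

section char
variable (hN : c.Mx N) (ch : piCoreOf {q}ᶜ N = ⊥)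
include hN ch

theorem ch_ne : piCoreOf {q} N ≠ ⊥ := piCoreOf_ne_bot_of_compl hN.t.solv hN.ne_bot ch
theorem ch_prime : q.Prime := (piCoreOf_piGrp _ _).prime_of_ne_bot (ch_ne hN ch)

omit hN in
theorem ch_eq (h : piCoreOf {s} N ≠ ⊥) : s = q := by
  by_contra e
  exact h (eq_bot_iff.2 (ch ▸ piCoreOf_mono_pi (by simpa using Ne.symm e) N))

theorem ch_PF : PF N = {q} := by
  ext s; exact ⟨fun h => ch_eq ch h, fun h => by rw [Set.mem_singleton_iff.1 h]; exact ch_ne hN ch⟩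

theorem zj_a (hU : PiGrp {q}ᶜ U) (n : piCoreOf {q} N ≤ 𝐍(U)) : U ⊓ N = ⊥ :=
  wu0 hN (by rwa [ch_PF hN ch]) (by rwa [fittingOf_eq_piCoreOf ch])

theorem zj_T (hH : c.T H) (hV : piCoreOf {q} N ≤ H) (hC : c.C ≤ H) :
    ∃ S, SylowIn q S (core2 {q}ᶜ {q} H) ∧ c.I S ∧ piCoreOf {q} N ≤ 𝐍(S) ∧
      ∀ X, X ≤ core2 {q}ᶜ {q} H → PiGrp {q} X → c.A ≤ 𝐍(X) → X ≤ S := by
  set K := core2 {q}ᶜ {q} H
  have nK : K ⊴ H := core2_normalIn _ _ _
  have AK : c.A ≤ 𝐍(K) := norms_core2 _ _ hH.norm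
  have cK : CopAct K c.A := hH.copA.left nK.le AK
  obtain ⟨S, hS, AS⟩ := cK.exists_sylowIn q
  have h1 : K ⊓ 𝐂(c.A) ≤ S := by
    have e : K = piCoreOf {q}ᶜ H ⊔ S := hS.sdprod_core2.1.symm
    rw [e, (cK.left hS.le AS).sup_inf_cent_right (norms_piCoreOf _ hH.norm)
      (Or.inl hS.sdprod_core2.2.1)]
    refine sup_le ?_ inf_le_left
    rw [eq_bot_iff.2 (le_trans (le_inf inf_le_left ((hH.core _).fixA.trans hN.c_le))
      (zj_a hN ch (piCoreOf_piGrp _ _) (hV.trans (piCoreOf_norm _ _))).le)]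
    exact bot_le
  have h2 : ∀ X, X ≤ K → PiGrp {q} X → c.A ≤ 𝐍(X) → X ≤ S := fun X h3 h4 h5 => by
    obtain ⟨d, hd, h6⟩ := cK.sylowIn_le_cj hS AS h3 h4 h5
    rwa [cj_eq_of_mem (h1 hd)] at h6
  refine ⟨S, hS, ⟨hH.of_le (hS.le.trans nK.le) AS, fun g hg => mem_normalizer_of_cj_le (h2 _ ?_ (hS.piGrp.cj g) ?_)⟩,
    ?_, h2⟩
  · exact cj_le_of_mem_normalizer hS.le (nK.norm (hC hg))
  · rw [← cj_normalizer, ← cj_eq_of_mem_centralizer (c.C_cent hg)]; exact cj_mono g AS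
  · have nV : c.A ≤ 𝐍(piCoreOf {q} N) := norms_piCoreOf _ hN.t.norm
    obtain ⟨R, hR, AR, h3⟩ := (hH.copA.left (sup_le nK.le hV) (norms_sup AK nV)).exists_sylowIn_ge
      le_sup_right (piCoreOf_piGrp _ _) nV
    have h4 := hR.inf_normal (normalIn_sup_left (hV.trans nK.norm))
    rw [← h4.eq_of_le_hall hS (h2 _ inf_le_right h4.piGrp (norms_inf AR AK))]
    exact norms_inf (norms_self_of_le h3) (hV.trans nK.norm)

theorem zj_frat (hH : c.T H) (hV : piCoreOf {q} N ≤ H) (h : H ≤ 𝐍(piCoreOf {q}ᶜ H ⊔ piCoreOf {q} N)) :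
    H ≤ piCoreOf {q}ᶜ H ⊔ (H ⊓ N) := by
  have h1 := frattini_arg (p := q) ⟨sup_le (piCoreOf_le _ _) hV, h⟩
    (hall_of_sup_right (Or.inl (hV.trans (piCoreOf_norm _ _))) (piCoreOf_piGrp _ _) (piCoreOf_piGrp _ _))
  refine h1.ge.trans (sup_le (sup_le_sup_left (le_inf hV (piCoreOf_le _ _)) _) (le_sup_of_le_right
    (le_inf inf_le_left (hN.norm_O (ch_ne hN ch) (hH.inf (norms_norm (norms_piCoreOf _ hN.t.norm))) inf_le_right))))

end char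

variable [AMX G]

theorem amx' (hS : c.I S) (S1 : S ≠ ⊥) (hq : PiGrp {q} S) : ∃ W, W ≠ ⊥ ∧ W ≤ S ∧ c.I W ∧
    (∀ V, c.T V → V ≤ 𝐍(S) → V ≤ 𝐍(W)) ∧ ∀ M, c.T M → S ≤ M → core2 {q}ᶜ {q} M ≤ piCoreOf {q}ᶜ M ⊔ S →
      coreMod {q}ᶜ M (core2 {q}ᶜ {q} M) ≤ piCoreOf {q}ᶜ M ⊔ (M ⊓ 𝐍(W)) := by
  have qp := hq.prime_of_ne_bot S1
  haveI := Fact.mk qp
  have nJ : c.A ≤ 𝐍(Je q S) := hS.t.norm.trans (norm_le_norm_Je S)
  obtain ⟨N, h1, h2, h3⟩ := c.loc _ (hS.t.of_le (Je_le q S) nJ) (Je_ne_bot (hq.isPGroup qp) S1)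
  have h4 : ∀ V, c.T V → V ≤ 𝐍(S) → V ≤ N := fun V hV n => h3 V hV (n.trans (norm_le_norm_Je S))
  obtain ⟨W, w1, w2, w3, w4, w5⟩ := AMX.out c.hp c.p2 qp (hS.t.ne_p hq S1) c.piA S1 hq hS.t.norm h1.solv h1.cop
    h1.norm (h4 S hS.t le_normalizer) h2 ((T.fixA h1).trans hS.n)
  exact ⟨W, w1, w2, ⟨hS.t.of_le w2 w4, (h4 _ c.t_C hS.n).trans w3⟩, fun V hV n => (h4 V hV n).trans w3,
    fun M hM SM h => w5 M hM.solv hM.cop hM.norm SM (hM.fixA.trans hS.n)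
      (h3 _ (hM.inf (norms_norm nJ)) inf_le_right) h⟩

section char
variable (hN : c.Mx N) (ch : piCoreOf {q}ᶜ N = ⊥)
include hN ch

theorem zj_1 (hH : c.T H) (hV : coreMod {q}ᶜ N (core2 {q}ᶜ {q} N) ≤ H) (hC : c.C ≤ H) :
    piCoreOf {q} N ≤ core2 {q}ᶜ {q} H ∧ H ≤ 𝐍(piCoreOf {q}ᶜ H ⊔ piCoreOf {q} N) := by
  have e0 := core2_eq_piCoreOf ch {q}
  set V := piCoreOf {q} N
  have VH : V ≤ H := (e0 ▸ le_coreMod_self _ _ _ : V ≤ _).trans hV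
  obtain ⟨S, s1, s2, s3, s4⟩ := zj_T hN ch hH VH hC
  have n2 := coreMod_normalIn {q}ᶜ (core2_normalIn {q}ᶜ {q} N)
  have nK := core2_normalIn {q}ᶜ {q} H
  have h1 : S ⊓ N ≤ V := by
    have : N ⊓ core2 {q}ᶜ {q} H ≤ V := by
      rw [← e0]
      refine le_core2_of_norm hN.t.solv inf_le_left ?_ ?_
      · refine piGrp_of_relIndex (A := piCoreOf {q}ᶜ H) ?_ ?_
        · rw [← inf_assoc, zj_a hN ch (piCoreOf_piGrp _ _) (VH.trans (piCoreOf_norm _ _)), bot_inf_eq]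
          exact piGrp_bot _
        · exact (piNum_relIndex_core2 _ _ _).of_dvd (relIndex_dvd_of_norm (piCoreOf_le_core2 _ _ _) inf_le_right
            ((inf_le_right.trans nK.le).trans (piCoreOf_norm _ _)))
      · rw [ch, bot_sup_eq]
        exact norms_inf (norms_self_of_le n2.le) (hV.trans nK.norm)
    exact (le_inf inf_le_right (inf_le_left.trans s1.le)).trans this
  have p1 : PiGrp {q} (S ⊔ V) := s1.piGrp.sup (piCoreOf_piGrp _ _) (Or.inl s3)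
  have h2 : S ≤ V := by
    have := eq_of_inf_normalizer_le_nil p1.nilpotent (le_sup_right : V ≤ S ⊔ V) ?_
    · rw [this]; exact le_sup_left
    have t1 := (s2.sup (hN.iO {q}) s3).inf_norm (hN.iO {q})
    refine (le_inf inf_le_left (hN.norm_O (ch_ne hN ch) t1.t inf_le_right)).trans ?_
    rw [dedekind_right (Or.inl s3) (piCoreOf_le _ _)]
    exact sup_le h1 le_rfl
  obtain ⟨W, w1, w2, w3, w4, w5⟩ := amx' (hN.iO {q}) (ch_ne hN ch) (piCoreOf_piGrp _ _)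
  have h3 := w5 H hH VH (s1.sdprod_core2.1.ge.trans (sup_le_sup_left h2 _))
  have h4 : H ⊓ 𝐍(W) ≤ N := hN.norm_le w3.t w1 (w4 N hN.t (piCoreOf_norm _ _))
    (hH.inf (norms_norm w3.t.norm)) inf_le_right
  have nY : V ≤ 𝐍(piCoreOf {q}ᶜ H) := VH.trans (piCoreOf_norm _ _)
  have h5 : V ≤ core2 {q}ᶜ {q} H := le_core2_of_norm hH.solv VH (piCoreOf_piGrp _ _) (h3.trans (sup_le
    (norms_self_of_le le_sup_left) (norms_sup (inf_le_left.trans (piCoreOf_norm _ _)) (h4.trans (piCoreOf_norm _ _)))))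
  refine ⟨h5, ?_⟩
  rw [le_antisymm (s4 V h5 (piCoreOf_piGrp _ _) (hN.iO {q}).t.norm) h2, s1.sdprod_core2.1]
  exact nK.norm

theorem zj_W (hS : c.I S) (hq : PiGrp {q} S) (VS : piCoreOf {q} N ≤ S) (SN : S ≤ N) : ∃ W H1, c.I W ∧ c.T H1 ∧
    (∀ V, c.T V → V ≤ 𝐍(W) → V ≤ H1) ∧ piCoreOf {q} N ≤ H1 ∧
    piCoreOf {q} N ≤ core2 {q}ᶜ {q} H1 ∧ H1 ≤ 𝐍(piCoreOf {q}ᶜ H1 ⊔ piCoreOf {q} N) ∧
    (∀ V, c.T V → V ≤ 𝐍(S) → V ≤ 𝐍(W)) ∧ ∀ M, c.T M → S ≤ M → core2 {q}ᶜ {q} M ≤ piCoreOf {q}ᶜ M ⊔ S →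
      coreMod {q}ᶜ M (core2 {q}ᶜ {q} M) ≤ piCoreOf {q}ᶜ M ⊔ (M ⊓ 𝐍(W)) := by
  obtain ⟨W, w1, w2, w3, w4, w5⟩ := amx' hS (ne_bot_of_le_ne_bot (ch_ne hN ch) VS) hq
  obtain ⟨H1, h1, h2⟩ := w3.exists_mx w1
  have h3 := w5 N hN.t SN (by rw [core2_eq_piCoreOf ch]; exact le_sup_of_le_right VS)
  rw [ch, bot_sup_eq] at h3
  have n2 := coreMod_normalIn {q}ᶜ (core2_normalIn {q}ᶜ {q} N)
  have h4 := zj_1 hN ch h1.t (h2 _ (hN.t.of_le n2.le (norms_coreMod _ hN.t.norm (norms_core2 _ _ hN.t.norm)))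
    (h3.trans inf_le_right)) h1.c_le
  exact ⟨W, H1, w3, h1.t, h2, h4.1.trans (core2_le _ _ _), h4.1, h4.2, w4, w5⟩

theorem zj_fut (hY : c.I Y) (hq : PiGrp {q} Y) (VY : piCoreOf {q} N ≤ Y) : Y ≤ N := by
  have iS := hY.inf hN.i
  obtain ⟨W, H1, w1, h1, h2, h3, h4, h5, h6, -⟩ := zj_W hN ch iS (hq.inf_left N) (le_inf VY (piCoreOf_le _ _))
    inf_le_right
  have := eq_of_inf_normalizer_le_nil hq.nilpotent (inf_le_left : Y ⊓ N ≤ Y) ?_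
  · rw [← this]; exact inf_le_right
  have t1 := (hY.inf_norm iS).t
  have h7 : Y ⊓ 𝐍(Y ⊓ N) ≤ H1 := h2 _ t1 (h6 _ t1 inf_le_right)
  refine le_inf inf_le_left (hN.norm_O (ch_ne hN ch) t1 ?_)
  have h8 := hall_of_sup_right (Or.inl (h3.trans (piCoreOf_norm {q}ᶜ _))) (piCoreOf_piGrp {q}ᶜ _) (piCoreOf_piGrp {q} N)
  rw [← h8.eq_of_le (K := Y ⊓ (piCoreOf {q}ᶜ H1 ⊔ piCoreOf {q} N)) (le_inf VY le_sup_right) inf_le_right
    (hq.inf_left _)]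
  exact norms_inf (norms_self_of_le inf_le_left) (h7.trans h5)

/-- The characteristic `q` uniqueness theorem. -/
theorem zj (hH : c.T H) (hV : piCoreOf {q} N ≤ H) (hC : c.C ≤ H) :
    piCoreOf {q} N ≤ core2 {q}ᶜ {q} H ∧ H ≤ 𝐍(piCoreOf {q}ᶜ H ⊔ piCoreOf {q} N) := by
  set V := piCoreOf {q} N
  set Y := piCoreOf {q}ᶜ H
  obtain ⟨S, s1, s2, s3, s4⟩ := zj_T hN ch hH hV hC
  have nK := core2_normalIn {q}ᶜ {q} H
  have p1 : PiGrp {q} (S ⊔ V) := s1.piGrp.sup (piCoreOf_piGrp _ _) (Or.inl s3)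
  have i1 := s2.sup (hN.iO {q}) s3
  have SH : S ≤ H := s1.le.trans nK.le
  obtain ⟨W, H1, w1, h1, h2, h3, h4, h5, h6, h7⟩ := zj_W hN ch i1 p1 le_sup_right (zj_fut hN ch i1 p1 le_sup_right)
  have h8 := h7 H hH (sup_le SH hV) (s1.sdprod_core2.1.ge.trans (sup_le_sup_left le_sup_left _))
  set D := H ⊓ 𝐍(W)
  have tD : c.T D := hH.inf (norms_norm w1.t.norm)
  have DH1 : D ≤ H1 := h2 _ tD inf_le_right
  have SVD : S ⊔ V ≤ D := le_inf (sup_le SH hV) (h6 _ i1.t le_normalizer)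
  have nY : H ≤ 𝐍(Y) := piCoreOf_norm _ _
  -- `R0 = O_{q'}(H1) ⊓ D ≤ Y`
  have r0 : D ⊓ piCoreOf {q}ᶜ H1 ≤ Y := by
    have nR : D ≤ 𝐍(D ⊓ piCoreOf {q}ᶜ H1) := norms_inf le_normalizer (DH1.trans (piCoreOf_norm _ _))
    have pR : PiGrp {q}ᶜ (D ⊓ piCoreOf {q}ᶜ H1) := (piCoreOf_piGrp _ _).inf_right _
    have RH : D ⊓ piCoreOf {q}ᶜ H1 ≤ H := inf_le_left.trans inf_le_left
    have hall := hall_piCoreOf_core2' {q} H
    have c1 : ⁅D ⊓ piCoreOf {q}ᶜ H1, S⁆ ≤ Y := by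
      refine hall.le_of_normal (nK.le.trans nY) ((commutator_mono le_rfl s1.le).trans
        (comm_le_right (RH.trans nK.norm))) (pR.of_le (comm_le_left ((le_sup_left.trans SVD).trans nR)))
    have c2 := le_sup_cent_of_comm (copAct_p_right (SH.trans nY) (piCoreOf_piGrp _ _) s1.piGrp) RH
      (piCoreOf_le _ _) c1
    exact hall.le_of_normal (nK.le.trans nY)
      (c2.trans (sup_le (piCoreOf_le_core2 _ _ _) (cent_le_core2 hH.solv s1))) pR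
  have r1 : D ≤ 𝐍(Y ⊔ V) := by
    have e : Y ⊔ V = Y ⊔ (D ⊓ (piCoreOf {q}ᶜ H1 ⊔ V)) := by
      rw [dedekind_right' (Or.inl (h3.trans (piCoreOf_norm _ _))) (le_sup_right.trans SVD), ← sup_assoc,
        sup_eq_left.2 r0]
    rw [e]
    exact norms_sup (inf_le_left.trans nY) (norms_inf le_normalizer (DH1.trans h5))
  have h9 : V ≤ core2 {q}ᶜ {q} H := le_core2_of_norm hH.solv hV (piCoreOf_piGrp _ _)
    (h8.trans (sup_le (norms_self_of_le le_sup_left) r1))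
  refine ⟨h9, (frattini_arg nK s1).ge.trans (sup_le ?_ ?_)⟩
  · rw [← s1.sdprod_core2.1]
    exact sup_le (norms_self_of_le le_sup_left) ((le_sup_left.trans SVD).trans r1)
  · refine le_trans (le_inf inf_le_left (h6 _ (hH.inf (norms_norm s2.t.norm)) ?_)) r1
    rw [sup_eq_left.2 (s4 V h9 (piCoreOf_piGrp _ _) (hN.iO {q}).t.norm)]
    exact inf_le_right

end char

/-- `O_s(N) ≤ O_{π_N', s}(H)` whenever `F(N) C ≤ H`. -/
theorem wz (hN : c.Mx N) (hH : c.T H) (hF : fittingOf N ≤ H) (hC : c.C ≤ H) (s : ℕ) :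
    piCoreOf {s} N ≤ core2 (PF N)ᶜ {s} H := by
  by_cases hs : piCoreOf {s} N = ⊥
  · rw [hs]; exact bot_le
  have OH : ∀ r, piCoreOf {r} N ≤ H := fun r => (piCoreOf_singleton_le_fittingOf _ _).trans hF
  by_cases ch : piCoreOf {s}ᶜ N = ⊥
  · rw [ch_PF hN ch]; exact (zj hN ch hH (OH s) hC).1
  have key : ∀ s r, s ≠ r → r ∈ PF N → piCoreOf {s} N ≤ piCoreOf {r}ᶜ H := fun s r sr hr => by
    refine le_trans (le_piCoreOf ⟨le_inf (OH s) (O_cents sr N), ?_⟩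
      ((piCoreOf_piGrp _ _).compl_singleton (by simpa using sr.symm)))
      (piCoreOf_cent_le hH.solv (OH r) (piCoreOf_piGrp _ _))
    exact (hN.cent_O hr (hH.inf (norms_cent (hN.iO _).t.norm)) inf_le_right).trans (piCoreOf_norm _ _)
  obtain ⟨r, r1, r2, r3⟩ := exists_piCoreOf_singleton_ne_bot (hN.t.core {s}ᶜ).solv ch
  have rs : r ≠ s := by
    rintro rfl
    exact r3 ((piCoreOf_piGrp _ _).eq_bot ((piCoreOf_piGrp _ _).of_le (piCoreOf_le _ _)))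
  have hr : r ∈ PF N := ne_bot_of_le_ne_bot r3 (piCoreOf_le_of_normalIn _ (piCoreOf_normalIn _ _))
  set Y := piCoreOf (PF N)ᶜ H
  set R := piCoreOf ((PF N)ᶜ ∪ {s}) H
  have nR : R ⊴ H := piCoreOf_normalIn _ _
  have nY : Y ⊴ H := piCoreOf_normalIn _ _
  have YR : Y ≤ R := piCoreOf_mono_pi Set.subset_union_left H
  have h1 : piCoreOf {s} N ≤ R := by
    have : piCoreOf {s} N ≤ ⨅ r : {r : ℕ // r ∈ PF N ∧ s ≠ r}, piCoreOf {r.1}ᶜ H :=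
      le_iInf fun r => key s r r.2.2 r.2.1
    refine this.trans (le_piCoreOf ⟨(iInf_le
      (fun r : {r : ℕ // r ∈ PF N ∧ s ≠ r} => piCoreOf {r.1}ᶜ H) ⟨r, hr, rs.symm⟩).trans (piCoreOf_le _ _),
      norms_iInf fun r => piCoreOf_norm _ _⟩ fun k hk hd => ?_)
    by_contra hc
    simp only [Set.mem_union, Set.mem_compl_iff, Set.mem_singleton_iff, not_or, not_not] at hc
    exact (piCoreOf_piGrp {k}ᶜ H).mem hk (hd.trans (card_dvd_of_le' (iInf_le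
      (fun r : {r : ℕ // r ∈ PF N ∧ s ≠ r} => piCoreOf {r.1}ᶜ H) ⟨k, hc.1, fun e => hc.2 e.symm⟩))) rfl
  have h2 : R ≤ Y ⊔ (R ⊓ N) := by
    have cR : CopAct R (piCoreOf {r} N) := copAct_p_right ((OH r).trans nR.norm)
      ((piCoreOf_piGrp _ _).compl_singleton (by simp [hr, rs])) (piCoreOf_piGrp _ _)
    refine (cR.le_sup_cent (V := Y) ?_).trans (sup_le_sup_left (le_inf inf_le_left
      (hN.cent_O hr ((hH.core _).inf (norms_cent (hN.iO _).t.norm)) inf_le_right)) _)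
    have : ⁅R, piCoreOf {r} N⁆ ≤ R ⊓ piCoreOf {s}ᶜ H := le_inf cR.comm_le
      ((commutator_mono le_rfl (key r s rs hs)).trans (comm_le_right (nR.le.trans (piCoreOf_norm _ _))))
    rw [piCoreOf_inf] at this
    refine this.trans (piCoreOf_mono_pi ?_ H)
    rintro k ⟨h | h, h'⟩
    · exact h
    · exact absurd h h'
  rw [le_core2_iff_quo ((OH s).trans nY.norm)]
  refine le_trans (le_piCoreOf ⟨quo_mono _ h1, ?_⟩ ((piCoreOf_piGrp _ _).quo _))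
    (piCoreOf_le_of_normalIn _ (nR.quo Y))
  rw [quo_norms_iff (nR.le.trans nY.norm) ((OH s).trans nY.norm)]
  exact h2.trans (sup_le (norms_self_of_le le_sup_left) (norms_sup ((inf_le_left.trans nR.le).trans nY.norm)
    (inf_le_right.trans (piCoreOf_norm _ _))))

/-- `π_N'`-subgroups normalized by `F(N)` lie in `O_{π_N'}(H)`. -/
theorem wu (hN : c.Mx N) (hH : c.T H) (hF : fittingOf N ≤ H) (hC : c.C ≤ H) (UH : U ≤ H)
    (hU : PiGrp (PF N)ᶜ U) (n : fittingOf N ≤ 𝐍(U)) : U ≤ piCoreOf (PF N)ᶜ H := by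
  obtain ⟨s, -, hs⟩ := hN.exists_O
  set Y := piCoreOf (PF N)ᶜ H
  have nY : Y ⊴ H := piCoreOf_normalIn _ _
  have OF := piCoreOf_singleton_le_fittingOf s N
  have pO : PiGrp (PF N) (piCoreOf {s} N) := (piCoreOf_piGrp _ _).singleton_mono hs
  have h1 : ⁅U, piCoreOf {s} N⁆ ≤ Y := by
    have h2 : ⁅U, piCoreOf {s} N⁆ ≤ U := comm_le_left (OF.trans n)
    have h3 : ⁅U, piCoreOf {s} N⁆ ≤ core2 (PF N)ᶜ {s} H := (commutator_mono le_rfl (wz hN hH hF hC s)).trans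
      (comm_le_right (UH.trans (core2_norm _ _ _)))
    rw [← quo_eq_bot_iff ((h2.trans UH).trans nY.norm)]
    refine PiGrp.eq_bot (π := PF N) ?_ ((hU.of_le h2).quo _)
    refine PiGrp.singleton_mono (PiGrp.of_le ?_ (quo_mono _ h3)) hs
    rw [quo_core2_self]; exact piCoreOf_piGrp _ _
  have h2 := le_sup_cent_of_comm (copAct_of_pi' ((OF.trans hF).trans nY.norm) (piCoreOf_piGrp _ _) pO
    (Or.inr (piCoreOf_piGrp _ _).solvable)) UH nY.le h1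
  have h3 : U ≤ (Y ⊔ N ⊓ H) ⊓ (Y ⊔ U) := le_inf (h2.trans (sup_le_sup_left (le_inf
    (hN.cent_O hs (hH.inf (norms_cent (hN.iO _).t.norm)) inf_le_right) inf_le_left) _)) le_sup_right
  rw [dedekind_left (Or.inl (inf_le_right.trans nY.norm)) le_sup_left] at h3
  refine h3.trans (sup_le le_rfl ?_)
  rw [eq_bot_iff.2 (le_trans (le_inf inf_le_right (inf_le_left.trans inf_le_left)) (wu0 hN
    ((piCoreOf_piGrp _ _).sup hU (Or.inl (UH.trans nY.norm))) (norms_sup (hF.trans nY.norm) n)).le)]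
  exact bot_le

omit [AMX G] in
theorem core_eq_bot (hL : c.T L) (h : PF L ⊆ π) : piCoreOf πᶜ L = ⊥ := by
  by_contra h1
  obtain ⟨r, -, -, r3⟩ := exists_piCoreOf_singleton_ne_bot (hL.core πᶜ).solv h1
  exact (piCoreOf_piGrp {r} _).mem_of_ne_bot r3 ((piCoreOf_piGrp _ _).of_le (piCoreOf_le _ _))
    (h (ne_bot_of_le_ne_bot r3 (piCoreOf_le_of_normalIn _ (piCoreOf_normalIn _ _))))

omit [AMX G] in
theorem PF_subset (h : piCoreOf πᶜ L = ⊥) : PF L ⊆ π := fun s hs => by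
  by_contra hc
  exact hs (eq_bot_iff.2 (h ▸ piCoreOf_mono_pi (by simpa using hc) L))

/-- Bender's uniqueness theorem. -/
theorem bender (hN : c.Mx N) (hL : c.Mx L) (hF : fittingOf N ≤ L) (h : piCoreOf (PF N)ᶜ L = ⊥) : N = L := by
  have h1 : ∀ s, piCoreOf {s} N ≤ piCoreOf {s} L := fun s => by
    rw [← core2_eq_piCoreOf h]; exact wz hN hL.t hF hL.c_le s
  have e : PF L = PF N := (PF_subset h).antisymm fun s hs => ne_bot_of_le_ne_bot hs (h1 s)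
  obtain ⟨s, -, hs⟩ := hN.exists_O
  by_cases ch : piCoreOf {s}ᶜ N = ⊥
  · have := (zj hN ch hL.t ((h1 s).trans (piCoreOf_le _ _)) hL.c_le).2
    rw [← ch_PF hN ch, h, bot_sup_eq, ch_PF hN ch] at this
    exact (hL.eq_of_le hN (hN.norm_O hs hL.t this)).symm
  have hF' : fittingOf L ≤ N := fittingOf_le_of_forall_piCoreOf_le fun k _ _ => by
    have : ∃ r ∈ PF N, k ≠ r := by
      by_contra hc
      push Not at hc
      exact ch (core_eq_bot hN.t fun r hr => (hc r hr).symm.trans (hc s hs))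
    obtain ⟨r, hr, kr⟩ := this
    exact hN.cent_O hr (hL.t.core _) ((O_cents kr L).trans
      (cent_mono (h1 r)))
  have h2 := wz hL hN.t hF' hN.c_le s
  rw [core2_eq_piCoreOf (core_eq_bot hN.t e.ge)] at h2
  exact hN.eq_of_O hL hs (le_antisymm (h1 s) h2)

theorem bender' (hN : c.Mx N) (hL : c.Mx L) (hF : fittingOf N ≤ L) (h : PF L ⊆ PF N) : N = L :=
  bender hN hL hF (core_eq_bot hL.t h)

end Conf

end CA.SF
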