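/-
The solvable signalizer functor theorem: the case of two primes.
-/
import Cfsg.Agent.Lib.SF.ZJ

set_option autoImplicit false

namespace CA.SF

open Cfsg CA Subgroup

variable {G : Type*} [Group G] [Finite G]

namespace Conf

variable {c : Conf G} {B B' H J K L M N N' S U V W X Y : Subgroup G} {a b g : G} {q r s t : ℕ}

/-- `π(θ) = {q, r}`. -/
structure Two (c : Conf G) (q r : ℕ) : Prop where
  ne : q ≠ r
  hq : c.Pr q
  hr : c.Pr r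
  all : ∀ s, c.Pr s → s = q ∨ s = r

omit [Finite G] in
theorem Two.symm (h : c.Two q r) : c.Two r q := ⟨h.ne.symm, h.hr, h.hq, fun s hs => (h.all s hs).symm⟩

/-- Mixed members of `𝓜`. -/
structure Mix (c : Conf G) (q r : ℕ) (M : Subgroup G) : Prop where
  mx : c.Mx M
  hq : piCoreOf {q} M ≠ ⊥
  hr : piCoreOf {r} M ≠ ⊥

omit [Finite G] in
theorem Mix.symm (h : c.Mix q r M) : c.Mix r q M := ⟨h.mx, h.hr, h.hq⟩

/-- Members of `𝓜` of characteristic `q`. -/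
structure Ch (c : Conf G) (q : ℕ) (N : Subgroup G) : Prop where
  mx : c.Mx N
  ch : piCoreOf {q}ᶜ N = ⊥

namespace Two
variable (h : c.Two q r)
include h

theorem pi (hU : c.T U) (hs : s.Prime) (hd : s ∣ Nat.card U) : s = q ∨ s = r := h.all s (hU.pr hs hd)

theorem core (hU : c.T U) : piCoreOf {q}ᶜ U = piCoreOf {r} U :=
  piCoreOf_congr_dvd fun s hs hd => by
    rcases h.pi hU hs hd with rfl | rfl
    · simp [h.ne]
    · simp [h.ne.symm]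

theorem tri (hL : c.Mx L) : c.Mix q r L ∨ c.Ch q L ∨ c.Ch r L := by
  by_cases h1 : piCoreOf {r} L = ⊥
  · exact Or.inr (Or.inl ⟨hL, by rwa [h.core hL.t]⟩)
  by_cases h2 : piCoreOf {q} L = ⊥
  · exact Or.inr (Or.inr ⟨hL, by rwa [h.symm.core hL.t]⟩)
  exact Or.inl ⟨hL, h2, h1⟩

theorem PF_sub (hM : c.Mix q r M) (hL : c.T L) : PF L ⊆ PF M := fun s hs => by
  rcases h.all s ((hL.core _).pr' (piCoreOf_piGrp _ _) hs) with rfl | rfl
  · exact hM.hq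
  · exact hM.hr

theorem fit_le (hL : c.T L) (h1 : piCoreOf {q} L ≤ M) (h2 : piCoreOf {r} L ≤ M) : fittingOf L ≤ M :=
  fittingOf_le_of_forall_piCoreOf_le fun s hs hd => by
    rcases h.pi hL hs (hd.trans (card_dvd_of_le' (fittingOf_le L))) with rfl | rfl
    · exact h1
    · exact h2

theorem le_O (hL : c.T L) (hX : X ≤ L) (hq : PiGrp {q} X) (h1 : X ≤ 𝐂(piCoreOf {q} L))
    (h2 : X ≤ 𝐂(piCoreOf {r} L)) : X ≤ piCoreOf {q} L :=
  le_O_of_le_fit (le_fittingOf_of_cents hL.solv hX (cents_symm (h.fit_le hL (cents_symm h1) (cents_symm h2)))) hq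

theorem gold (hL : c.T L) (hX : X ≤ L) (hY : Y ≤ L) (hq : PiGrp {q} X) (hr : PiGrp {r} Y) (hc : X ≤ 𝐂(Y))
    (n : L ⊓ 𝐂(Y) ≤ 𝐍(X)) : X ≤ piCoreOf {q} L := by
  rw [← h.symm.core hL]
  exact (le_piCoreOf ⟨le_inf hX hc, n⟩ (hq.compl_singleton (by simpa using h.ne.symm))).trans
    (piCoreOf_cent_le hL.solv hY hr)

variable [AMX G]

theorem le_ch (hN : c.Ch q N) (hX : c.I X) (hq : PiGrp {q} X) : X ≤ N := by
  obtain ⟨h1, h2⟩ := LL_spec (π := {q}) h.hr (by simpa using h.ne.symm)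
  exact (hX.le_LL hq).trans (zj_fut hN.mx hN.ch h1 h2 ((hN.mx.iO _).le_LL (piCoreOf_piGrp _ _)))

theorem ch_uniq (hN : c.Ch q N) (hN' : c.Ch q N') : N = N' := by
  refine bender' hN.mx hN'.mx ?_ (by rw [ch_PF hN.mx hN.ch, ch_PF hN'.mx hN'.ch])
  rw [fittingOf_eq_piCoreOf hN.ch]
  exact h.le_ch hN' (hN.mx.iO _) (piCoreOf_piGrp _ _)

theorem sink (hM : c.Mix q r M) (hL : c.Mx L) (h1 : piCoreOf {q} M ≤ L) (h2 : piCoreOf {r} M ≤ L) : M = L :=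
  bender' hM.mx hL (h.fit_le hM.mx.t h1 h2) (h.PF_sub hM hL.t)

/-- Two commuting pieces whose centralizers lie in `M` pull `L` to `M`. -/
theorem k_aux (hM : c.Mix q r M) (hL : c.Mx L) (hX : X ≤ L) (hY : Y ≤ L) (hq : PiGrp {q} X) (hr : PiGrp {r} Y)
    (X1 : X ≠ ⊥) (Y1 : Y ≠ ⊥) (hc : X ≤ 𝐂(Y)) (AX : c.A ≤ 𝐍(X)) (AY : c.A ≤ 𝐍(Y))
    (cX : ∀ V, c.T V → V ≤ 𝐂(X) → V ≤ M) (cY : ∀ V, c.T V → V ≤ 𝐂(Y) → V ≤ M)
    (nX : L ⊓ M ≤ 𝐍(X)) (nY : L ⊓ M ≤ 𝐍(Y)) : L = M := by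
  have h1 := h.gold hL.t hX hY hq hr hc
    ((le_inf inf_le_left (cY _ (hL.t.inf (norms_cent AY)) inf_le_right)).trans nX)
  have h2 := h.symm.gold hL.t hY hX hr hq (cents_symm hc)
    ((le_inf inf_le_left (cX _ (hL.t.inf (norms_cent AX)) inf_le_right)).trans nY)
  exact h.sink ⟨hL, ne_bot_of_le_ne_bot X1 h1, ne_bot_of_le_ne_bot Y1 h2⟩ hM.mx
    (cY _ (hL.t.core _) ((O_cents h.ne L).trans (cent_mono h2)))
    (cX _ (hL.t.core _) ((O_cents h.ne.symm L).trans (cent_mono h1)))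

omit h [AMX G] in
theorem cent_Z (hM : c.Mx M) (h1 : piCoreOf {q} M ≠ ⊥) (hV : c.T V) (n : V ≤ 𝐍(𝐙(piCoreOf {q} M))) : V ≤ M :=
  hM.norm_le (hM.iO _).center.t (center_ne_bot_nil (piCoreOf_piGrp _ _).nilpotent h1)
    (norms_center (piCoreOf_norm _ _)) hV n

theorem k0 (hM : c.Mix q r M) (hX : c.I X) (X1 : X ≠ ⊥) (hq : X ≤ piCoreOf {q} M) (hV : c.T V) (n : V ≤ 𝐍(X)) :
    V ≤ M := by
  obtain ⟨L, hL, h1⟩ := hX.exists_mx X1
  rw [← h.k_aux hM hL (X := 𝐙(piCoreOf {q} M)) (Y := 𝐙(piCoreOf {r} M))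
    (h1 _ (hM.mx.iO _).center.t (norms_of_cents (inf_le_right.trans (cent_mono hq))))
    (h1 _ (hM.mx.iO _).center.t (norms_of_cents (inf_le_left.trans ((O_cents h.ne.symm M).trans (cent_mono hq)))))
    ((piCoreOf_piGrp _ _).inf_left _) ((piCoreOf_piGrp _ _).inf_left _)
    (center_ne_bot_nil (piCoreOf_piGrp _ _).nilpotent hM.hq) (center_ne_bot_nil (piCoreOf_piGrp _ _).nilpotent hM.hr)
    (cents_mono (O_cents h.ne M) inf_le_left inf_le_left) (hM.mx.iO _).center.t.norm (hM.mx.iO _).center.t.norm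
    (fun V hV n => cent_Z hM.mx hM.hq hV (norms_of_cents n)) (fun V hV n => cent_Z hM.mx hM.hr hV (norms_of_cents n))
    (inf_le_right.trans (norms_center (piCoreOf_norm _ _))) (inf_le_right.trans (norms_center (piCoreOf_norm _ _)))]
  exact h1 V hV n

theorem k1 (hM : c.Mix q r M) (hL : c.Mx L) (h1 : piCoreOf {q} M ⊓ L ≠ ⊥) (h2 : piCoreOf {r} M ⊓ L ≠ ⊥) : L = M :=
  h.k_aux hM hL inf_le_right inf_le_right ((piCoreOf_piGrp _ _).inf_left _) ((piCoreOf_piGrp _ _).inf_left _) h1 h2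
    (cents_mono (O_cents h.ne M) inf_le_left inf_le_left) ((hM.mx.iO _).inf hL.i).t.norm
    ((hM.mx.iO _).inf hL.i).t.norm
    (fun _ hV n => h.k0 hM ((hM.mx.iO _).inf hL.i) h1 inf_le_left hV (norms_of_cents n))
    (fun _ hV n => h.symm.k0 hM.symm ((hM.mx.iO _).inf hL.i) h2 inf_le_left hV (norms_of_cents n))
    (norms_inf (inf_le_right.trans (piCoreOf_norm _ _)) (norms_self_of_le inf_le_left))
    (norms_inf (inf_le_right.trans (piCoreOf_norm _ _)) (norms_self_of_le inf_le_left))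

omit h [AMX G] in
theorem meet (hX : c.T X) (hb : b ∈ c.A) (b1 : b ≠ 1) (hL : c.θ b ≤ L) (h1 : X ⊓ 𝐂[b] ≠ ⊥) : X ⊓ L ≠ ⊥ :=
  ne_bot_of_le_ne_bot h1 (le_inf inf_le_left ((hX.fix b hb b1).trans hL))

theorem k2 (hM : c.Mix q r M) (hb : b ∈ c.A) (b1 : b ≠ 1) (h1 : piCoreOf {q} M ⊓ 𝐂[b] ≠ ⊥)
    (h2 : piCoreOf {r} M ⊓ 𝐂[b] ≠ ⊥) : c.θ b ≤ M := by
  obtain ⟨L, hL, h3⟩ := exists_mx_θ hb b1
  rw [← h.k1 hM hL (meet (hM.mx.t.core _) hb b1 h3 h1) (meet (hM.mx.t.core _) hb b1 h3 h2)]; exact h3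

theorem m1' (hM : c.Mix q r M) (hB : c.Line B) (h1 : piCoreOf {q} M ⊓ 𝐂(B) ≠ ⊥) :
    ∃ b ∈ B, b ≠ 1 ∧ c.θ b ≤ M := by
  obtain ⟨b, hb, b1, h2⟩ := (hM.mx.t.core {r}).exists_pt hB hM.hr
  exact ⟨b, hb, b1, h.k2 hM (hB.1 hb) b1 (ne_bot_of_le_ne_bot h1 (inf_le_inf_left _ (cent_le_cent1 hb))) h2⟩

theorem m1 (hM : c.Mix q r M) (hB : c.Line B) (h1 : piCoreOf {q} M ⊓ 𝐂(B) ≠ ⊥) : th B c.θ ≤ M := by
  obtain ⟨b, hb, b1, h2⟩ := h.m1' hM hB h1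
  exact (th_le hb b1).trans h2

theorem fpf (hM : c.Mix q r M) : piCoreOf {q} M ⊓ 𝐂(c.A) = ⊥ := by
  by_contra h1
  obtain ⟨B, hB, h2⟩ := exists_bad hM.mx.t
  exact h2 (h.m1 hM hB (ne_bot_of_le_ne_bot h1 (inf_le_inf_left _ (cent_mono hB.1))))

theorem pl0 (hM : c.Mix q r M) (hL : c.Mix q r L) (h1 : piCoreOf {q} L ⊓ M ≠ ⊥) (h2 : piCoreOf {r} M ⊓ L = ⊥) :
    ∃ B, c.Line B ∧ piCoreOf {q} L ⊓ 𝐂(B) ≠ ⊥ ∧ ∀ b ∈ c.A, b ∉ B → piCoreOf {r} M ⊓ 𝐂[b] ≠ ⊥ := by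
  have i1 := (hL.mx.iO {q}).inf hM.mx.i
  obtain ⟨B, hB, h3⟩ := i1.t.exists_line h1
  have i2 := i1.inf_centA hB.1
  have l2 : piCoreOf {q} L ⊓ M ⊓ 𝐂(B) ≤ piCoreOf {q} L := inf_le_left.trans inf_le_left
  refine ⟨B, hB, ne_bot_of_le_ne_bot h3 (inf_le_inf_right _ inf_le_left), fun b hb hbB h4 => hM.hr ?_⟩
  have b1 : b ≠ 1 := fun e => hbB (e ▸ one_mem _)
  have := fl0 hb b1 (i2.t.norm hb) i2.t.cop (hM.mx.t.core {r})
    ((inf_le_left.trans inf_le_right).trans (piCoreOf_norm _ _)) (piCoreOf_piGrp _ _)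
    ((piCoreOf_piGrp _ _).of_le l2) h.ne (eq_bot_iff.2 (h.fpf hL ▸ le_inf (inf_le_left.trans l2)
      (hB.cent_A hb hbB (inf_le_left.trans inf_le_right) inf_le_right))) (h4 ▸ bot_le)
  exact eq_bot_iff.2 (h2 ▸ le_inf le_rfl (h.k0 hL i2 h3 l2 (hM.mx.t.core _) (norms_of_cents (cents_symm this))))

omit h [AMX G] in
theorem cent_of_off (hX : c.T X) (hB : c.Line B) (h1 : ∀ b ∈ c.A, b ∉ B → X ⊓ 𝐂[b] = ⊥) : X ≤ 𝐂(B) :=
  hX.gen_line fun B' hB' => by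
    by_cases e : B = B'
    · subst e; exact inf_le_right
    obtain ⟨b, hb, hb'⟩ := hB.exists_not_mem hB' e
    exact ((inf_le_inf_left _ (cent_le_cent1 hb)).trans (h1 b (hB'.1 hb) hb').le).trans bot_le

theorem pl (hM : c.Mix q r M) (hL : c.Mix q r L) (ne : L ≠ M) (h1 : piCoreOf {q} M ⊓ L ≠ ⊥) :
    piCoreOf {r} M ⊓ L = ⊥ ∧ piCoreOf {r} L ⊓ M = ⊥ ∧ ∃ B, c.Line B ∧ piCoreOf {q} M ≤ 𝐂(B) ∧
      piCoreOf {q} L ≤ 𝐂(B) ∧ ∀ b ∈ c.A, b ∉ B → piCoreOf {r} M ⊓ 𝐂[b] ≠ ⊥ ∧ piCoreOf {r} L ⊓ 𝐂[b] ≠ ⊥ := by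
  have e1 : piCoreOf {r} M ⊓ L = ⊥ := by_contra fun h2 => ne (h.k1 hM hL.mx h1 h2)
  have i1 := (hM.mx.iO {q}).inf hL.mx.i
  have h2 : piCoreOf {q} L ⊓ M ≠ ⊥ := ne_bot_of_le_ne_bot (inf_cent_ne_bot' ((piCoreOf_piGrp {q} M).inf_left L)
    (piCoreOf_piGrp _ _) (inf_le_right.trans (piCoreOf_norm _ _)) hL.hq) (le_inf inf_le_left
      (h.k0 hM i1 h1 inf_le_left ((hL.mx.iO _).inf_cent i1).t (norms_of_cents inf_le_right)))
  have e2 : piCoreOf {r} L ⊓ M = ⊥ := by_contra fun h3 => ne (h.k1 hL hM.mx h2 h3).symm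
  obtain ⟨B8, l8, a8, b8⟩ := h.pl0 hM hL h2 e1
  obtain ⟨B9, l9, a9, b9⟩ := h.pl0 hL hM h1 e2
  have fM : ∀ b ∈ c.A, b ≠ 1 → c.θ b ≤ M → piCoreOf {r} L ⊓ 𝐂[b] = ⊥ := fun b hb b1 h3 =>
    by_contra fun h4 => meet (hL.mx.t.core _) hb b1 h3 h4 e2
  have fL : ∀ b ∈ c.A, b ≠ 1 → c.θ b ≤ L → piCoreOf {r} M ⊓ 𝐂[b] = ⊥ := fun b hb b1 h3 =>
    by_contra fun h4 => meet (hM.mx.t.core _) hb b1 h3 h4 e1
  have e : B8 = B9 := by
    by_contra e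
    obtain ⟨a, h8, h9, a1⟩ := l8.exists_inf l9
    have aux : ∀ {B B' X : Subgroup G}, c.Line B → c.Line B' → B ≠ B' → a ∈ B → a ∈ B' → c.T X →
        (∀ b ∈ B, b ∉ B' → X ⊓ 𝐂[b] = ⊥) → X ≤ 𝐂[a] := by
      intro B B' X l l' e ha ha' hX hf
      refine hX.gen_pt l fun b hb b1 => ?_
      by_cases hb' : b ∈ B'
      swap
      · rw [hf b hb hb']; exact bot_le
      have hp : (Nat.card ↥(B ⊓ B')).Prime := by
        have h1 : B ⊓ B' < B := inf_lt_left.2 fun h => e (l.eq_of_le l' h)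
        have h2 := card_dvd_of_le' h1.le
        have h3 := card_lt_of_lt' h1
        have h4 := one_lt_card_iff_ne_bot'.2 (ne_bot_of_mem (A := B ⊓ B') ⟨hb, hb'⟩ b1)
        rw [l.2.2] at h2 h3
        obtain ⟨k, hk, h5⟩ := (Nat.dvd_prime_pow c.hp).1 h2
        rw [h5] at h3 h4 ⊢
        interval_cases k
        · simp at h4
        · simpa using c.hp
        · simp at h3
      rw [← cent_zpowers b, ← eq_zpowers_of_prime_card hp ⟨hb, hb'⟩ b1]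
      exact inf_le_right.trans (cent_le_cent1 ⟨ha, ha'⟩)
    have c1 : piCoreOf {r} M ≤ 𝐂[a] := aux l8 l9 e h8 h9 (hM.mx.t.core _) fun b hb hb' =>
      fL b (l8.1 hb) (fun e => hb' (e ▸ one_mem _)) (h.k2 hL (l8.1 hb) (fun e => hb' (e ▸ one_mem _))
        (ne_bot_of_le_ne_bot a8 (inf_le_inf_left _ (cent_le_cent1 hb))) (b9 b (l8.1 hb) hb'))
    have c2 : piCoreOf {r} L ≤ 𝐂[a] := aux l9 l8 (Ne.symm e) h9 h8 (hL.mx.t.core _) fun b hb hb' =>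
      fM b (l9.1 hb) (fun e => hb' (e ▸ one_mem _)) (h.k2 hM (l9.1 hb) (fun e => hb' (e ▸ one_mem _))
        (ne_bot_of_le_ne_bot a9 (inf_le_inf_left _ (cent_le_cent1 hb))) (b8 b (l9.1 hb) hb'))
    have := fM a (l8.1 h8) a1 (h.k2 hM (l8.1 h8) a1 (ne_bot_of_le_ne_bot a9 (inf_le_inf_left _ (cent_le_cent1 h9)))
      (by rw [inf_eq_left.2 c1]; exact hM.hr))
    rw [inf_eq_left.2 c2] at this
    exact hL.hr this
  subst e
  refine ⟨e1, e2, B8, l8, cent_of_off (hM.mx.t.core _) l8 fun b hb hb' => ?_,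
    cent_of_off (hL.mx.t.core _) l8 fun b hb hb' => ?_, fun b hb hb' => ⟨b8 b hb hb', b9 b hb hb'⟩⟩
  · have b1 : b ≠ 1 := fun e => hb' (e ▸ one_mem _)
    exact by_contra fun h3 => b9 b hb hb' (fM b hb b1 (h.k2 hM hb b1 h3 (b8 b hb hb')))
  · have b1 : b ≠ 1 := fun e => hb' (e ▸ one_mem _)
    exact by_contra fun h3 => b8 b hb hb' (fL b hb b1 (h.k2 hL hb b1 h3 (b9 b hb hb')))

theorem inf_ch (hM : c.Mix q r M) (hN : c.Ch q N) : piCoreOf {r} M ⊓ N = ⊥ := by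
  by_contra h1
  have := h.k1 hM hN.mx (by rw [inf_eq_left.2 (h.le_ch hN (hM.mx.iO _) (piCoreOf_piGrp _ _))]; exact hM.hq) h1
  subst this
  exact h.ne (ch_eq hN.ch hM.hr).symm

theorem exists_ch (q : ℕ) (h' : q = q) (hu : ∀ N N', c.Ch s N → c.Ch s N' → N = N') :
    ∃ U, c.T U ∧ ∀ N, c.Ch s N → N = U := by
  by_cases h1 : ∃ N, c.Ch s N
  · obtain ⟨N, hN⟩ := h1
    exact ⟨N, hN.mx.t, fun N' hN' => hu _ _ hN' hN⟩
  · exact ⟨⊥, t_bot, fun N hN => absurd ⟨N, hN⟩ h1⟩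

theorem m2 (hM : c.Mix q r M) (hL : c.Mx L) (ne : L ≠ M) (h1 : piCoreOf {q} M ⊓ L ≠ ⊥) : c.Ch q L := by
  rcases h.tri hL with hL | hL | hL
  swap
  · exact hL
  swap
  · exact absurd (h.symm.inf_ch hM.symm hL) h1
  exfalso
  obtain ⟨e1, e2, B, l, -, -, h2⟩ := h.pl hM hL ne h1
  obtain ⟨U, hU, hU'⟩ := h.exists_ch q rfl fun N N' => h.symm.ch_uniq
  refine off_line hU l fun b hb hb' => ?_
  have b1 : b ≠ 1 := fun e => hb' (e ▸ one_mem _)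
  obtain ⟨K, hK, h3⟩ := exists_mx_θ hb b1
  have m1 := meet (hM.mx.t.core _) hb b1 h3 (h2 b hb hb').1
  have m2 := meet (hL.mx.t.core _) hb b1 h3 (h2 b hb hb').2
  rcases h.tri hK with hK | hK | hK
  · exfalso
    obtain ⟨-, -, B1, l1, x1, x2, x3⟩ := h.symm.pl hM.symm hK.symm (by rintro rfl; exact m2 e2) m1
    obtain ⟨-, -, B2, l2, y1, y2, -⟩ := h.symm.pl hL.symm hK.symm (by rintro rfl; exact m1 e1) m2
    have e : B1 = B2 := by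
      by_contra e
      exact hK.hr (eq_bot_iff.2 (h.symm.fpf hK.symm ▸ le_inf le_rfl (l1.cent_A' l2 e x2 y2)))
    subst e
    obtain ⟨a, ha, a1, h4⟩ := h.symm.m1' hM.symm l1 (by rw [inf_eq_left.2 x1]; exact hM.hr)
    exact meet (hL.mx.t.core _) (l1.1 ha) a1 h4 (by rw [inf_eq_left.2 (y1.trans (cent_le_cent1 ha))]; exact hL.hr) e2
  · exact absurd (h.inf_ch hM hK) m1
  · rw [← hU' K hK]; exact h3

theorem mix_le (hM : c.Mix q r M) (hL : c.Mix q r L) : piCoreOf {r} L ≤ M := by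
  obtain ⟨B, hB, h1⟩ := (hM.mx.t.core {q}).exists_line hM.hq
  refine (hL.mx.t.core _).gen_pt hB fun b hb b1 => ?_
  obtain ⟨K, hK, h3⟩ := exists_mx_θ (hB.1 hb) b1
  have h4 := ((hL.mx.t.core {r}).fix b (hB.1 hb) b1).trans h3
  by_cases e : K = M
  · rwa [← e]
  have := h.inf_ch hL (h.m2 hM hK e (meet (hM.mx.t.core _) (hB.1 hb) b1 h3
    (ne_bot_of_le_ne_bot h1 (inf_le_inf_left _ (cent_le_cent1 hb)))))
  exact (le_inf inf_le_left h4).trans (this.le.trans bot_le)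

theorem mix_uniq (hM : c.Mix q r M) (hL : c.Mix q r L) : L = M :=
  h.sink hL hM.mx (h.symm.mix_le hM.symm hL.symm) (h.mix_le hM hL)

end Two

/-- The three-colour configuration. -/
structure Tri (c : Conf G) (q r : ℕ) (M N N' : Subgroup G) : Prop where
  two : c.Two q r
  hM : c.Mix q r M
  hN : c.Ch q N
  hN' : c.Ch r N'

omit [Finite G] in
theorem Tri.symm (h : c.Tri q r M N N') : c.Tri r q M N' N := ⟨h.two.symm, h.hM.symm, h.hN', h.hN⟩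

namespace Tri
variable [AMX G] (h : c.Tri q r M N N')
include h

theorem mx (hL : c.Mx L) : L = M ∨ L = N ∨ L = N' :=
  (h.two.tri hL).imp (h.two.mix_uniq h.hM) (Or.imp (fun x => h.two.ch_uniq x h.hN)
    fun x => h.two.symm.ch_uniq x h.hN')

theorem col (hb : b ∈ c.A) (b1 : b ≠ 1) : c.θ b ≤ M ∨ c.θ b ≤ N ∨ c.θ b ≤ N' := by
  obtain ⟨L, hL, h1⟩ := exists_mx_θ hb b1
  rcases h.mx hL with rfl | rfl | rfl <;> simp [h1]

theorem line (hB : c.Line B) : th B c.θ ≤ M ∨ th B c.θ ≤ N := by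
  obtain ⟨b, hb, b1, h1⟩ := i6a h.hN'.mx.t hB
  rcases h.col (hB.1 hb) b1 with h2 | h2 | h2
  · exact Or.inl ((th_le hb b1).trans h2)
  · exact Or.inr ((th_le hb b1).trans h2)
  · exact absurd h2 h1

theorem XN : piCoreOf {q} M ≤ N := h.two.le_ch h.hN (h.hM.mx.iO _) (piCoreOf_piGrp _ _)
theorem XN' : piCoreOf {q} M ⊓ N' = ⊥ := h.two.symm.inf_ch h.hM.symm h.hN'

theorem core (hV : piCoreOf {q} N ≤ M) (hX : X ≤ piCoreOf {q} N) (hc : X ≤ 𝐂(piCoreOf {r} M)) :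
    X ≤ piCoreOf {q} M :=
  le_O_of_core2 (hX.trans (zj h.hN.mx h.hN.ch h.hM.mx.t hV h.hM.mx.c_le).1) ((piCoreOf_piGrp _ _).of_le hX)
    (by rwa [h.two.core h.hM.mx.t])

theorem XV : piCoreOf {q} M ⊓ piCoreOf {q} N ≠ ⊥ → piCoreOf {q} N ≤ M → piCoreOf {r} N' ≤ M →
    ¬ piCoreOf {q} N ≤ N' := fun h1 _ _ h2 =>
  h1 (eq_bot_iff.2 (h.XN' ▸ inf_le_inf_left _ h2))

theorem XV1 (hV : piCoreOf {q} N ≤ M) : piCoreOf {q} M ⊓ piCoreOf {q} N ≠ ⊥ := fun h1 => by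
  have h2 : piCoreOf {q} M ≤ 𝐂(piCoreOf {q} N) :=
    cents_of_norms_of_disjoint (hV.trans (piCoreOf_norm _ _)) (h.XN.trans (piCoreOf_norm _ _)) h1
  have h3 := (le_inf h.XN h2).trans (cent_piCoreOf_le h.hN.mx.t.solv h.hN.ch)
  exact h.hM.hq (eq_bot_iff.2 (h1 ▸ le_inf le_rfl h3))

theorem bad (hB : c.Line B) (h1 : ¬ th B c.θ ≤ M) : th B c.θ ≤ N := (h.line hB).resolve_left h1

theorem not_both (h1 : piCoreOf {q} N ≤ M) (h2 : piCoreOf {r} N' ≤ M) : False := by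
  obtain ⟨B, hB, h3⟩ := exists_bad h.hM.mx.t
  set K := piCoreOf {q} N ⊔ piCoreOf {r} N'
  have KM : K ≤ M := sup_le h1 h2
  have iK : c.I K := I.of_le h.hM.mx.t KM (norms_sup (h.hN.mx.iO _).t.norm (h.hN'.mx.iO _).t.norm)
    (norms_sup (h.hN.mx.iO _).n (h.hN'.mx.iO _).n)
  have n1 : piCoreOf {q} K ≠ ⊥ := ne_bot_of_le_ne_bot (h.XV1 h1)
    ((inf_le_inf_left _ le_sup_left).trans (piCoreOf_inf_le _ KM))
  obtain ⟨L, hL, h4⟩ := (iK.core {q}).exists_mx n1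
  have KL : K ≤ L := h4 K iK.t (piCoreOf_norm _ _)
  rcases h.mx hL with rfl | rfl | rfl
  · exact h3 (h4 _ hB.tt (norms_piCoreOf _ (norms_sup ((h.bad hB h3).trans (piCoreOf_norm _ _))
      ((h.symm.bad hB h3).trans (piCoreOf_norm _ _)))))
  · exact h.symm.XV (h.symm.XV1 h2) h2 h1 (le_sup_right.trans KL)
  · exact h.XV (h.XV1 h1) h1 h2 (le_sup_left.trans KL)

section
variable (hV : ¬ piCoreOf {q} N ≤ M)
include hV

theorem w0 : piCoreOf {q} M ⊓ 𝐙(piCoreOf {q} N) = ⊥ := by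
  by_contra h1
  exact hV (h.two.k0 h.hM ((h.hM.mx.iO _).inf (h.hN.mx.iO _).center) h1 inf_le_left (h.hN.mx.t.core _)
    (norms_of_cents (cents_symm (inf_le_right.trans inf_le_right))))

theorem w0a : 𝐙(piCoreOf {q} N) ⊓ M ≤ 𝐂(piCoreOf {q} M) := by
  rw [← comm_eq_bot_iff, eq_bot_iff, ← h.w0 hV]
  exact le_inf (comm_le_right (inf_le_right.trans (piCoreOf_norm _ _)))
    ((commutator_mono inf_le_left le_rfl).trans (comm_le_left (h.XN.trans (norms_center (piCoreOf_norm _ _)))))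

omit hV in
theorem w0b : 𝐙(piCoreOf {q} N) ⊓ 𝐂(piCoreOf {q} M) ≤ M :=
  h.hM.mx.cent_O h.hM.hq ((h.hN.mx.iO _).center.inf_cent (h.hM.mx.iO _)).t inf_le_right

omit hV in
theorem w0c : 𝐙(piCoreOf {q} N) ⊓ M ≠ ⊥ :=
  ne_bot_of_le_ne_bot (inf_cent_ne_bot' (piCoreOf_piGrp {q} M) ((piCoreOf_piGrp {q} N).inf_left _)
    (h.XN.trans (norms_center (piCoreOf_norm _ _))) (center_ne_bot_nil (piCoreOf_piGrp _ _).nilpotent
      (ch_ne h.hN.mx h.hN.ch))) (le_inf inf_le_left h.w0b)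

theorem w0d (hb : b ∈ c.A) (b1 : b ≠ 1) (h1 : c.θ b ≤ N) : b ∈ 𝐂(𝐙(piCoreOf {q} N) ⊓ M) := by
  have i1 := (h.hN.mx.iO {q}).center.inf h.hM.mx.i
  have p1 : PiGrp {q} (𝐙(piCoreOf {q} N) ⊓ M) := ((piCoreOf_piGrp _ _).inf_left _).inf_left _
  have e : piCoreOf {r} M ⊓ 𝐂[b] = ⊥ := by_contra fun h2 => Two.meet (h.hM.mx.t.core _) hb b1 h1 h2 h.symm.XN'
  have h2 := fl1 hb b1 (i1.t.norm hb) i1.t.cop (h.hM.mx.t.core {r}) (inf_le_right.trans (piCoreOf_norm _ _))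
    (piCoreOf_piGrp _ _) p1 h.two.ne (abelian_of_le (abelian_center _) inf_le_left) (e ▸ bot_le)
  have h3 := (i1.t.cop1 hb).comm_le
  have h4 := h.two.le_O h.hM.mx.t (h3.trans inf_le_right) (p1.of_le h3) (h3.trans (h.w0a hV)) h2
  refine comm_eq_bot_iff'.1 (eq_bot_iff.2 ?_) (mem_zpowers b)
  rw [← h.w0 hV]; exact le_inf h4 (h3.trans inf_le_left)

omit hV in
theorem comm_ne (hX : X ≠ ⊥) (hq : PiGrp {q} X) (h1 : X ≤ N') : ⁅piCoreOf {r} N', X⁆ ≠ ⊥ := fun h2 => by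
  have h3 := (le_inf h1 (comm_eq_bot_iff'.1 h2)).trans (cent_piCoreOf_le h.hN'.mx.t.solv h.hN'.ch)
  exact hX (eq_bot_iff.2 ((inf_eq_bot_of_card_coprime (hq.coprime_of_ne (piCoreOf_piGrp {r} N') h.two.ne)) ▸
    le_inf le_rfl h3))

theorem w1 (h1 : 𝐙(piCoreOf {q} N) ⊓ M ≤ N') : piCoreOf {r} N' ≤ M := by
  set W := 𝐙(piCoreOf {q} N) ⊓ M
  have i1 : c.I W := (h.hN.mx.iO {q}).center.inf h.hM.mx.i
  have p1 : PiGrp {q} W := ((piCoreOf_piGrp _ _).inf_left _).inf_left _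
  have n1 : W ≤ 𝐍(piCoreOf {r} N') := h1.trans (piCoreOf_norm _ _)
  have c1 : CopAct (piCoreOf {r} N') W := copAct_of_ne n1 (piCoreOf_piGrp _ _) p1 h.two.ne.symm
  have i2 := (h.hN'.mx.iO {r}).comm i1 n1
  have p2 : PiGrp {r} ⁅piCoreOf {r} N', W⁆ := (piCoreOf_piGrp _ _).of_le c1.comm_le
  have h2 : ⁅piCoreOf {r} N', W⁆ ≤ M := fg' i2.t p2 c1.comm c1.comm_comm fun B hB => by
    refine (h.line hB).imp (fun h3 => (i2.t.cent_le_th hB.1).trans h3) fun h3 => ?_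
    exact cents_of_le_norm (piCoreOf_piGrp {r} N') ((piCoreOf_piGrp {q} N).inf_left 𝐂(piCoreOf {q} N)) h.two.ne.symm
      (inf_le_left.trans c1.comm_le) inf_le_left
      (((i2.t.cent_le_th hB.1).trans h3).trans (norms_center (piCoreOf_norm _ _))) n1
  have h3 : ⁅piCoreOf {r} N', W⁆ ≤ 𝐂(piCoreOf {q} M) := by
    rw [← c1.comm_comm]
    exact (commutator_mono le_rfl (h.w0a hV)).trans (comm_le_right (h2.trans (norms_cent (piCoreOf_norm _ _))))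
  obtain ⟨L, hL, h4⟩ := i2.exists_mx (h.comm_ne h.w0c p1 h1)
  have h5 := h4 _ (h.hN'.mx.t.core {r}) (comm_norm_left _ _)
  have h6 := h4 _ (h.hM.mx.t.core {q}) (norms_of_cents (cents_symm h3))
  rcases h.mx hL with rfl | rfl | rfl
  · exact h5
  · exact absurd (eq_bot_iff.2 (zj_a h.hN'.mx h.hN'.ch ((piCoreOf_piGrp {q} L).compl_singleton
      (by simpa using h.two.ne.symm)) (h5.trans (piCoreOf_norm _ _)) ▸
      le_inf (inf_le_left.trans inf_le_left) h1)) h.w0c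
  · exact absurd (eq_bot_iff.2 (h.XN' ▸ le_inf le_rfl h6)) h.hM.hq

theorem w2a (hV' : piCoreOf {r} N' ≤ M) (hB : c.Line B) (h1 : ¬ th B c.θ ≤ M) :
    B ≤ 𝐂(𝐙(piCoreOf {q} N) ⊓ M) := by
  set Z := 𝐙(piCoreOf {r} M ⊓ piCoreOf {r} N')
  have iZ : c.I Z := ((h.hM.mx.iO {r}).inf (h.hN'.mx.iO {r})).center
  have pZ : PiGrp {r} Z := ((piCoreOf_piGrp _ _).inf_left _).inf_left _
  have Z1 : Z ≠ ⊥ := center_ne_bot_nil ((piCoreOf_piGrp {r} M).inf_left _).nilpotent (h.symm.XV1 hV')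
  have : ∀ b ∈ B, b ∈ 𝐂(𝐙(piCoreOf {q} N) ⊓ M) ∨ b ∈ 𝐂(Z) := fun b hb => by
    by_cases b1 : b = 1
    · subst b1; exact Or.inl (one_mem _)
    have hbA := hB.1 hb
    rcases h.col hbA b1 with h2 | h2 | h2
    · exact absurd h2 (bad_pt h1 hb b1)
    · exact Or.inl (h.w0d hV hbA b1 h2)
    right
    have e : piCoreOf {q} M ⊓ 𝐂[b] = ⊥ := by_contra fun h3 => Two.meet (h.hM.mx.t.core _) hbA b1 h2 h3 h.XN'
    have h3 : ncl ⁅Z, zpowers b⁆ (th B c.θ) ≤ piCoreOf {r} M := ncl_le fun g hg => by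
      have gb : g ∈ 𝐂(zpowers b) := cent_mono (zpowers_le.2 hb) (hB.th_cent hg)
      have l1 : cj g Z ≤ piCoreOf {r} N' := cj_le_of_mem_normalizer (inf_le_left.trans inf_le_right)
        (piCoreOf_norm _ _ (h.symm.bad hB h1 hg))
      have nb : zpowers b ≤ 𝐍(cj g Z) := by
        rw [← cj_normalizer, ← cj_eq_of_mem_centralizer gb]; exact cj_mono g (zpowers_le.2 (iZ.t.norm hbA))
      rw [cj_commutator, cj_eq_of_mem_centralizer gb]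
      exact h.symm.core hV' ((comm_le_left nb).trans l1) (fl1 hbA b1 (nb (mem_zpowers b)) (iZ.t.cop.cj g)
        (h.hM.mx.t.core {q}) ((l1.trans hV').trans (piCoreOf_norm _ _)) (piCoreOf_piGrp _ _) (pZ.cj g)
        h.two.ne.symm ((abelian_cj g).2 (abelian_center _)) (e ▸ bot_le))
    refine comm_eq_bot_iff'.1 (by_contra fun h4 => h1 ?_) (mem_zpowers b)
    exact h.two.symm.k0 h.hM.symm (I.ncl (h.hM.mx.t.core _) (iZ.commA (zpowers_le.2 hbA)).t.norm hB h3)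
      (ne_bot_of_le_ne_bot h4 (le_ncl _ _)) h3 hB.tt (norm_ncl _ _)
  refine (le_or_le_of_forall this).resolve_right fun h2 => h1 (h.two.symm.m1 h.hM.symm hB ?_)
  exact ne_bot_of_le_ne_bot Z1 (le_inf (inf_le_left.trans inf_le_left) (cents_symm h2))

theorem w2b (hV' : piCoreOf {r} N' ≤ M) : 𝐙(piCoreOf {q} N) ≤ M := by
  set W := 𝐙(piCoreOf {q} N)
  set X := piCoreOf {q} M
  have iW : c.I W := (h.hN.mx.iO {q}).center
  have iX : c.I X := h.hM.mx.iO {q}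
  have pW : PiGrp {q} W := (piCoreOf_piGrp _ _).inf_left _
  have XW : X ≤ 𝐍(W) := h.XN.trans (norms_center (piCoreOf_norm _ _))
  have XM : X ≤ M := piCoreOf_le _ _
  have nWM : X ≤ 𝐍(W ⊓ M) := norms_inf XW (norms_self_of_le XM)
  have p1 : PiGrp {q} (W ⊔ X) := pW.sup (piCoreOf_piGrp _ _) (Or.inl XW)
  have iY := (iW.inf h.hM.mx.i).sup iX nWM
  have h1 : W ⊓ 𝐍((W ⊓ M) ⊔ X) ≤ M := by
    have i2 := iW.inf_norm iY
    refine i2.t.gen_line fun B hB => ?_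
    by_cases h2 : th B c.θ ≤ M
    · exact (i2.t.cent_le_th hB.1).trans h2
    refine le_trans (le_inf (inf_le_left.trans inf_le_left) ?_) h.w0b
    have h3 : ⁅W ⊓ 𝐍((W ⊓ M) ⊔ X) ⊓ 𝐂(B), X⁆ ≤ W ⊓ M := by
      have : ⁅W ⊓ 𝐍((W ⊓ M) ⊔ X) ⊓ 𝐂(B), X⁆ ≤ ((W ⊓ M) ⊔ X) ⊓ W := le_inf
        ((commutator_mono le_rfl le_sup_right).trans (comm_le_right (inf_le_left.trans inf_le_right)))
        ((commutator_mono (inf_le_left.trans inf_le_left) le_rfl).trans (comm_le_left XW))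
      rw [dedekind_left (Or.inl nWM) inf_le_left, h.w0 hV, sup_bot_eq] at this
      exact this
    have h4 : ⁅X, B⁆ = X := (iX.t.copA.right hB.1).comm_eq_self_of_cent_eq_bot
      (by_contra fun h5 => h2 (h.two.m1 h.hM hB h5))
    have h5 : ⁅⁅X, B⁆, W ⊓ 𝐍((W ⊓ M) ⊔ X) ⊓ 𝐂(B)⁆ = ⊥ :=
      three_subgroup (by rw [comm_eq_bot_iff'.2 inf_le_right]; simp)
        (comm_eq_bot_iff.2 (h3.trans (cents_symm (h.w2a hV hV' hB h2))))
    rw [h4] at h5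
    exact comm_eq_bot_iff'.1 h5
  have h2 := eq_of_inf_normalizer_le_nil p1.nilpotent (sup_le_sup_right inf_le_left X : (W ⊓ M) ⊔ X ≤ W ⊔ X) (by
    rw [dedekind_right (Or.inl XW) (norms_self_of_le le_sup_right)]
    exact sup_le_sup_right (le_inf inf_le_left h1) X)
  exact (le_sup_left.trans h2.ge).trans (sup_le inf_le_right XM)

theorem w2 (hV' : piCoreOf {r} N' ≤ M) : False := by
  obtain ⟨B, hB, h1⟩ := exists_bad h.hM.mx.t
  have h2 := h.w2b hV hV'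
  have iW := (h.hN.mx.iO {q}).center
  have h3 := h.w2a hV hV' hB h1
  have h4 := h.w0a hV
  have h5 := h.w0c
  rw [inf_eq_left.2 h2] at h3 h4 h5
  have h6 : 𝐙(piCoreOf {q} N) ≤ N' :=
    ((le_inf le_rfl (cents_symm h3)).trans (iW.t.cent_le_th hB.1)).trans (h.symm.bad hB h1)
  have n1 := h6.trans (piCoreOf_norm {r} _)
  refine h1 (h.two.symm.k0 h.hM.symm ((h.hN'.mx.iO {r}).comm iW n1)
    (h.comm_ne h5 ((piCoreOf_piGrp _ _).inf_left _) h6) (h.symm.core hV' (comm_le_left n1) ?_) hB.tt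
    (norms_commutator ((h.symm.bad hB h1).trans (piCoreOf_norm _ _))
      ((h.bad hB h1).trans (norms_center (piCoreOf_norm _ _)))))
  exact (commutator_mono le_rfl h4).trans (comm_le_right (hV'.trans (norms_cent (piCoreOf_norm _ _))))

end

theorem false : False := by
  by_cases h1 : piCoreOf {q} N ≤ M <;> by_cases h2 : piCoreOf {r} N' ≤ M
  · exact h.not_both h1 h2
  · exact h.symm.w2 h2 h1
  · exact h.w2 h1 h2
  obtain ⟨B, hB, h3⟩ := exists_bad h.hM.mx.t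
  have : ∀ b ∈ B, b ∈ 𝐂(𝐙(piCoreOf {q} N) ⊓ M) ∨ b ∈ 𝐂(𝐙(piCoreOf {r} N') ⊓ M) := fun b hb => by
    by_cases b1 : b = 1
    · subst b1; exact Or.inl (one_mem _)
    rcases h.col (hB.1 hb) b1 with h4 | h4 | h4
    · exact absurd h4 (bad_pt h3 hb b1)
    · exact Or.inl (h.w0d h1 (hB.1 hb) b1 h4)
    · exact Or.inr (h.symm.w0d h2 (hB.1 hb) b1 h4)
  rcases le_or_le_of_forall this with h4 | h4
  · exact h2 (h.w1 h1 (((le_inf le_rfl (cents_symm h4)).trans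
      (((h.hN.mx.iO _).center.inf h.hM.mx.i).t.cent_le_th hB.1)).trans (h.symm.bad hB h3)))
  · exact h1 (h.symm.w1 h2 (((le_inf le_rfl (cents_symm h4)).trans
      (((h.hN'.mx.iO _).center.inf h.hM.mx.i).t.cent_le_th hB.1)).trans (h.bad hB h3)))

end Tri

theorem Two.false [AMX G] (h : c.Two q r) : False := by
  obtain ⟨N, hN, uN⟩ := h.exists_ch q rfl fun N N' => h.ch_uniq
  obtain ⟨N', hN', uN'⟩ := h.exists_ch q rfl fun N N' => h.symm.ch_uniq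
  have key : ∀ b ∈ c.A, b ≠ 1 → ∃ L, c.θ b ≤ L ∧ (c.Mix q r L ∨ c.Ch q L ∨ c.Ch r L) := fun b hb b1 => by
    obtain ⟨L, hL, h1⟩ := exists_mx_θ hb b1
    exact ⟨L, h1, h.tri hL⟩
  by_cases h1 : ∃ M, c.Mix q r M
  swap
  · refine two_col hN hN' fun b hb b1 => ?_
    obtain ⟨L, h2, h3 | h3 | h3⟩ := key b hb b1
    · exact absurd ⟨L, h3⟩ h1
    · exact Or.inl (uN L h3 ▸ h2)
    · exact Or.inr (uN' L h3 ▸ h2)
  obtain ⟨M, hM⟩ := h1
  by_cases h2 : ∃ L, c.Ch q L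
  swap
  · refine two_col hM.mx.t hN' fun b hb b1 => ?_
    obtain ⟨L, h4, h3 | h3 | h3⟩ := key b hb b1
    · exact Or.inl (h.mix_uniq hM h3 ▸ h4)
    · exact absurd ⟨L, h3⟩ h2
    · exact Or.inr (uN' L h3 ▸ h4)
  by_cases h2' : ∃ L, c.Ch r L
  swap
  · refine two_col hM.mx.t hN fun b hb b1 => ?_
    obtain ⟨L, h4, h3 | h3 | h3⟩ := key b hb b1
    · exact Or.inl (h.mix_uniq hM h3 ▸ h4)
    · exact Or.inr (uN L h3 ▸ h4)
    · exact absurd ⟨L, h3⟩ h2'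
  obtain ⟨L, hL⟩ := h2
  obtain ⟨L', hL'⟩ := h2'
  exact Tri.false ⟨h, hM, hL, hL'⟩

end Conf

end CA.SF
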