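/-
The solvable signalizer functor theorem: the case of at least three primes.
-/
import Cfsg.Agent.Lib.SF.N2

set_option autoImplicit false

namespace CA.SF

open Cfsg CA Subgroup

variable {G : Type*} [Group G] [Finite G]

namespace Conf

variable {c : Conf G} {B B' H J K L M N N' S U V W X Y : Subgroup G} {a b g : G} {j k q r s t u v w : ℕ}

theorem fit_le (h : ∀ s, s ∈ PF N → piCoreOf {s} N ≤ H) : fittingOf N ≤ H :=
  fittingOf_le_of_forall_piCoreOf_le fun s hs hd => h s ((piCoreOf_singleton_ne_bot_iff hs).2 hd)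

theorem T.pr_PF (hL : c.T L) (h : s ∈ PF L) : c.Pr s := (hL.core _).pr' (piCoreOf_piGrp _ _) h

theorem Mx.iF (hM : c.Mx M) : c.I (fittingOf M) :=
  I.of_le hM.t (fittingOf_le M) (norms_fittingOf hM.t.norm) (norms_fittingOf hM.i.n)

theorem nil_core (hN : c.Mx N) (hb : b ∈ c.A) (b1 : b ≠ 1) (h1 : c.θ b ≤ N) (hH : c.T H) (hF : fittingOf N ≤ H) :
    piCoreOf (PF N)ᶜ H ≤ fittingOf H := by
  refine le_fittingOf (piCoreOf_normalIn _ _) (Loc.nilpotent_of_fpf_prime ((hH.core _).norm hb)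
    (by rw [ord hb b1]; exact c.hp) (by_contra fun h2 => Two.meet (hH.core _) hb b1 h1 h2 ?_))
  exact wu0 hN (piCoreOf_piGrp _ _) (hF.trans (piCoreOf_norm _ _))

variable [AMX G]

theorem f3 (hP : ∀ s, c.I (c.LL {s}) ∧ PiGrp {s} (c.LL {s})) (hM : c.Mx M) (h : ∀ s, c.LL {s} ≤ M) : False := by
  have OP : ∀ {N : Subgroup G} (s : ℕ), c.Mx N → piCoreOf {s} N ≤ c.LL {s} := fun s hN =>
    (hN.iO _).le_LL (piCoreOf_piGrp _ _)
  have hF : ∀ {N : Subgroup G}, c.Mx N → fittingOf N ≤ M := fun hN => fit_le fun s _ => (OP s hN).trans (h s)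
  obtain ⟨B, hB, h1⟩ := exists_bad hM.t
  obtain ⟨b, hb, b1⟩ := exists_ne_one_mem' hB.ne_bot
  obtain ⟨N, hN, h2⟩ := exists_mx_θ (hB.1 hb) b1
  have ne : N ≠ M := by rintro rfl; exact bad_pt h1 hb b1 h2
  obtain ⟨s, s1, s2⟩ := Set.not_subset.1 fun e => ne (bender' hN hM (hF hN) e)
  set D := piCoreOf {s} M ⊓ 𝐙(c.LL {s})
  have iD : c.I D := (hM.iO _).inf (hP s).1.center
  have D1 : D ≠ ⊥ := meet_center_nil (hP s).2.nilpotent ⟨OP s hM, (h s).trans (piCoreOf_norm _ _)⟩ s1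
  have pD : PiGrp {s} D := (piCoreOf_piGrp _ _).inf_left _
  have h3 : ncl D (th B c.θ) ≤ piCoreOf {s} M := ncl_le fun g hg => by
    have h4 : cj g D ≤ M := by
      rw [cj_le_iff]
      refine iD.t.gen_pt hB fun b' hb' b1' => ?_
      obtain ⟨N', hN', h5⟩ := exists_mx_θ (hB.1 hb') b1'
      have h6 : D ⊓ 𝐂[b'] ≤ N' := (iD.t.fix b' (hB.1 hb') b1').trans h5
      rw [← cj_le_iff]
      refine (cj_le_of_mem_normalizer (le_fit_of_cents hN'.t.solv h6 fun r _ _ => ?_)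
        ((fittingOf_normalIn _).norm (h5 (th_le hb' b1' hg)))).trans (hF hN')
      by_cases e : s = r
      · subst e
        exact (inf_le_left.trans (inf_le_right.trans inf_le_right)).trans (cent_mono (OP s hN'))
      · exact cents_of_le_norm (piCoreOf_piGrp {s} M) (piCoreOf_piGrp {r} N') e (inf_le_left.trans inf_le_left)
          le_rfl (h6.trans (piCoreOf_norm _ _)) (((OP r hN').trans (h r)).trans (piCoreOf_norm _ _))
    have gN : g ∈ N := h2 (th_le hb b1 hg)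
    have h5 := wu hN hM.t (hF hN) hM.c_le (U := M ⊓ cj g (piCoreOf (PF N)ᶜ M)) inf_le_left
      (((piCoreOf_piGrp _ _).cj g).inf_right _) (norms_inf (norms_self_of_le (hF hN)) (by
        rw [← cj_normalizer, ← cj_eq_of_mem_normalizer ((fittingOf_normalIn N).norm gN)]
        exact cj_mono g ((hF hN).trans (piCoreOf_norm _ _))))
    exact le_O_of_le_fit (((le_inf h4 (cj_mono g (inf_le_left.trans (piCoreOf_mono_pi (by simpa using s2) M)))).trans
      h5).trans (nil_core hN (hB.1 hb) b1 h2 hM.t (hF hN))) (pD.cj g)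
  have i2 := I.ncl (hM.t.core _) iD.t.norm hB h3
  have n2 := ne_bot_of_le_ne_bot D1 (le_ncl D (th B c.θ))
  obtain ⟨L, hL, h4⟩ := i2.exists_mx n2
  refine h1 (bender' hL hM (hF hL) (fun r hr => by_contra fun hr' => ?_) ▸ h4 _ hB.tt (norm_ncl _ _))
  have h5 := wu0 hL ((piCoreOf_piGrp {r} M).singleton_mono (π := (PF L)ᶜ) hr') ((hF hL).trans (piCoreOf_norm _ _))
  by_cases e : r = s
  · subst e
    exact n2 (eq_bot_iff.2 (h5 ▸ le_inf h3 (h4 _ i2.t le_normalizer)))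
  · exact hr (eq_bot_iff.2 (h5 ▸ le_inf le_rfl (h4 _ (hM.t.core _)
      (norms_of_cents ((O_cents e M).trans (cent_mono h3))))))

/-- At least three primes, with the maximal `θ`-subgroups `M_t ≥ L_{t'}`. -/
structure Fam (c : Conf G) (F : ℕ → Subgroup G) : Prop where
  three : ∀ s u, ∃ r, c.Pr r ∧ r ≠ s ∧ r ≠ u
  mx : ∀ t, c.Pr t → c.Mx (F t)
  le : ∀ t, c.Pr t → c.LL {t}ᶜ ≤ F t

/-- Arrows. -/
def Ar (F : ℕ → Subgroup G) (t u : ℕ) : Prop := fittingOf (F t) ≤ F u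

namespace Fam
variable {F : ℕ → Subgroup G} (h : c.Fam F)
include h

omit [AMX G] in
theorem P (s : ℕ) : c.I (c.LL {s}) ∧ PiGrp {s} (c.LL {s}) := by
  obtain ⟨r, h1, h2, -⟩ := h.three s s
  exact LL_spec h1 (by simpa using h2)

omit [AMX G] [Finite G] in
theorem i_le (ht : c.Pr t) (hX : c.I X) (hp : PiGrp {t}ᶜ X) : X ≤ F t := (hX.le_LL hp).trans (h.le t ht)

omit [AMX G] [Finite G] in
theorem i_le' (ht : c.Pr t) (hX : c.I X) (hp : PiGrp {s} X) (st : s ≠ t) : X ≤ F t :=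
  h.i_le ht hX (hp.compl_singleton (by simpa using st.symm))

omit [AMX G] in
theorem P_le (ht : c.Pr t) (st : s ≠ t) : c.LL {s} ≤ F t := h.i_le' ht (h.P s).1 (h.P s).2 st

omit [AMX G] in
theorem O_le (ht : c.Pr t) (hN : c.Mx N) (st : s ≠ t) : piCoreOf {s} N ≤ F t :=
  h.i_le' ht (hN.iO _) (piCoreOf_piGrp _ _) st

theorem not_P (ht : c.Pr t) : ¬ c.LL {t} ≤ F t := fun h1 =>
  f3 h.P (h.mx t ht) fun s => by
    by_cases e : s = t
    · rw [e]; exact h1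
    · exact h.P_le ht e

theorem not_full (hM : c.Mx M) : ∃ v, c.Pr v ∧ v ∉ PF M := by
  by_contra hc
  push Not at hc
  have key : ∀ u s, c.Pr u → s ≠ u → piCoreOf {s} M ≤ piCoreOf {s} (c.LL {u}ᶜ) := fun u s hu su => by
    obtain ⟨iL, pL⟩ := LL_spec (π := {u}ᶜ) hu (by simp)
    have OL : ∀ r, r ≠ u → piCoreOf {r} M ≤ c.LL {u}ᶜ := fun r ru =>
      (hM.iO _).le_LL ((piCoreOf_piGrp _ _).compl_singleton (by simpa using ru.symm))
    obtain ⟨r0, r1, r2, r3⟩ := h.three s u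
    set f : {r : ℕ // c.Pr r ∧ r ≠ s ∧ r ≠ u} → Subgroup G := fun r => piCoreOf {r.1}ᶜ (c.LL {u}ᶜ)
    have h1 : piCoreOf {s} M ≤ ⨅ r, f r := le_iInf fun r => by
      refine le_trans (le_piCoreOf ⟨le_inf (OL s su) (O_cents r.2.2.1.symm M), ?_⟩
        ((piCoreOf_piGrp _ _).compl_singleton (by simpa using r.2.2.1)))
        (piCoreOf_cent_le iL.t.solv (OL r r.2.2.2) (piCoreOf_piGrp _ _))
      exact (hM.cent_O (hc r r.2.1) (iL.t.inf (norms_cent (hM.iO _).t.norm)) inf_le_right).trans (piCoreOf_norm _ _)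
    have h2 : ⨅ r, f r ≤ c.LL {u}ᶜ := (iInf_le f ⟨r0, r1, r2, r3⟩).trans (piCoreOf_le _ _)
    refine h1.trans (le_piCoreOf ⟨h2, norms_iInf fun r => piCoreOf_norm _ _⟩ fun k hk hd => ?_)
    by_contra e
    have h3 := hd.trans (card_dvd_of_le' h2)
    exact (piCoreOf_piGrp {k}ᶜ (c.LL {u}ᶜ)).mem hk
      (hd.trans (card_dvd_of_le' (iInf_le f ⟨k, iL.t.pr hk h3, e, pL.mem hk h3⟩))) rfl
  refine f3 h.P hM fun s => ?_
  by_cases h0 : c.LL {s} = ⊥
  · rw [h0]; exact bot_le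
  have hs := hc s ((h.P s).1.t.pr' (h.P s).2 h0)
  obtain ⟨u1, p1, n1, -⟩ := h.three s s
  obtain ⟨u2, p2, n2, n3⟩ := h.three s u1
  have i1 := (LL_spec (π := {u1}ᶜ) p1 (by simp)).1
  have i2 := (LL_spec (π := {u2}ᶜ) p2 (by simp)).1
  have h1 := le_inf (key u1 s p1 n1.symm) (key u2 s p2 n2.symm)
  obtain ⟨L, hL, h2⟩ := ((i1.core {s}).inf (i2.core {s})).exists_mx (ne_bot_of_le_ne_bot hs h1)
  have h3 : c.LL {s} ≤ L := h2 _ (h.P s).1.t (norms_inf
    ((LL_mono (by simpa using n1)).trans (piCoreOf_norm _ _))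
    ((LL_mono (by simpa using n2)).trans (piCoreOf_norm _ _)))
  rwa [bender' hM hL (fit_le fun r _ => ?_) fun r hr => hc r (hL.t.pr_PF hr)]
  by_cases e : r = s
  · rw [e]; exact ((hM.iO _).le_LL (piCoreOf_piGrp _ _)).trans h3
  refine h2 _ (hM.t.core _) (norms_of_cents ?_)
  by_cases e1 : r = u1
  · exact cents_mono (O_cents e _) (key u2 r p2 (e1 ▸ n3.symm)) inf_le_right
  · exact cents_mono (O_cents e _) (key u1 r p1 e1) inf_le_left

omit [AMX G] in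
theorem fit (hN : c.Mx N) (hv : c.Pr v) (h1 : v ∉ PF N) : fittingOf N ≤ F v :=
  fit_le fun s hs => h.O_le hv hN (by rintro rfl; exact h1 hs)

theorem self_not (ht : c.Pr t) : t ∉ PF (F t) := fun h1 => by
  have hM := h.mx t ht
  obtain ⟨v, hv, h2⟩ := h.not_full hM
  have h3 := h.fit hM hv h2
  have h4 := wu0 hM (piCoreOf_piGrp (PF (F t))ᶜ (F v)) (h3.trans (piCoreOf_norm _ _))
  rw [inf_eq_left.2 (h.i_le ht ((h.mx v hv).iO _) ((piCoreOf_piGrp _ _).compl_singleton' h1))] at h4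
  exact h.not_P ht (bender hM (h.mx v hv) h3 h4 ▸ h.P_le hv (by rintro rfl; exact h2 h1))

theorem self_bot (ht : c.Pr t) : piCoreOf {t} (F t) = ⊥ := not_not.1 (h.self_not ht)

theorem ne (ht : c.Pr t) (hu : c.Pr u) (tu : t ≠ u) : F u ≠ F t := fun e => h.not_P ht (e ▸ h.P_le hu tu)

theorem out (ht : c.Pr t) (hL : c.Mx L) (ne : L ≠ F t) (hF : fittingOf (F t) ≤ L) :
    piCoreOf (PF (F t))ᶜ L = piCoreOf {t} L ∧ piCoreOf {t} L ≠ ⊥ ∧ piCoreOf {t} L ⊓ F t = ⊥ := by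
  have hM := h.mx t ht
  set Y := piCoreOf (PF (F t))ᶜ L
  have iY : c.I Y := hL.iO _
  have h1 : Y ⊓ F t = ⊥ := wu0 hM (piCoreOf_piGrp _ _) (hF.trans (piCoreOf_norm _ _))
  have e : Y = piCoreOf {t} L := by
    refine le_antisymm (le_piCoreOf (piCoreOf_normalIn _ _) ?_) (piCoreOf_mono_pi (by simpa using h.self_not ht) L)
    obtain ⟨K, hK, AK⟩ := iY.t.copA.exists_hall iY.t.solv {t}ᶜ
    rw [← compl_compl ({t} : Set ℕ), ← hK.eq_bot_iff, eq_bot_iff, ← h1]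
    refine le_inf hK.le (h.i_le ht (I.of_le iY.t hK.le AK fun g hg => ?_) hK.piGrp)
    obtain ⟨d, hd, h2⟩ := iY.t.copA.hall_trans iY.t.solv hK AK (hK.cj_of_mem_norm (iY.n hg)) (by
      rw [← cj_normalizer, ← cj_eq_of_mem_centralizer (c.C_cent hg)]; exact cj_mono g AK)
    have : d = 1 := mem_bot.1 (h1 ▸ ⟨hd.1, hM.c_le (iY.t.fixA hd)⟩)
    rw [mem_normalizer_iff_cj, h2, this, cj_one]
  exact ⟨e, e ▸ fun h2 => ne (bender hM hL hF h2).symm, e ▸ h1⟩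

theorem le_out (ht : c.Pr t) (hL : c.Mx L) (ne : L ≠ F t) (hF : fittingOf (F t) ≤ L) (hU : U ≤ L)
    (hp : PiGrp {t} U) (n : fittingOf (F t) ≤ 𝐍(U)) : U ≤ piCoreOf {t} L :=
  (h.out ht hL ne hF).1 ▸ wu (h.mx t ht) hL.t hF hL.c_le hU (hp.singleton_mono (h.self_not ht)) n

theorem out_uniq (ht : c.Pr t) (hL : c.Mx L) (ne : L ≠ F t) (hF : fittingOf (F t) ≤ L)
    (hK : c.Mx K) (ne' : K ≠ F t) (hF' : fittingOf (F t) ≤ K) : L = K := by
  have l1 : piCoreOf {t} L ⊔ piCoreOf {t} K ≤ c.LL {t} :=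
    sup_le ((hL.iO _).le_LL (piCoreOf_piGrp _ _)) ((hK.iO _).le_LL (piCoreOf_piGrp _ _))
  have iU := I.of_le (h.P t).1.t l1 (norms_sup (hL.iO _).t.norm (hK.iO _).t.norm) (norms_sup (hL.iO _).n (hK.iO _).n)
  have n1 := norms_sup (hF.trans (piCoreOf_norm {t} _)) (hF'.trans (piCoreOf_norm {t} _))
  obtain ⟨H, hH, h1⟩ := (iU.sup (h.mx t ht).iF n1).exists_mx_le
  have FH := le_sup_right.trans h1
  have neH : H ≠ F t := by
    rintro rfl
    exact (h.out ht hL ne hF).2.1 (eq_bot_iff.2 ((h.out ht hL ne hF).2.2 ▸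
      le_inf le_rfl (le_sup_left.trans (le_sup_left.trans h1))))
  have h2 := h.le_out ht hH neH FH (le_sup_left.trans h1) ((h.P t).2.of_le l1) n1
  have aux : ∀ {L : Subgroup G}, c.Mx L → L ≠ F t → fittingOf (F t) ≤ L → piCoreOf {t} L ≤ piCoreOf {t} H →
      L = H := by
    intro L hL ne hF h3
    refine hL.eq_of_O hH (h.out ht hL ne hF).2.1 (eq_of_inf_normalizer_le_nil (piCoreOf_piGrp _ _).nilpotent h3 ?_)
    exact h.le_out ht hL ne hF (hL.norm_O (h.out ht hL ne hF).2.1 ((hH.iO _).inf_norm (hL.iO _)).t inf_le_right)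
      ((piCoreOf_piGrp _ _).inf_left _) (norms_inf (FH.trans (piCoreOf_norm _ _))
        (norms_norm (hF.trans (piCoreOf_norm _ _))))
  exact (aux hL ne hF (le_sup_left.trans h2)).trans (aux hK ne' hF' (le_sup_right.trans h2)).symm

theorem cover (hb : b ∈ c.A) (b1 : b ≠ 1) : ∃ t, c.Pr t ∧ c.θ b ≤ F t := by
  obtain ⟨N, hN, h1⟩ := exists_mx_θ hb b1
  by_contra hc
  push Not at hc
  have key : ∀ t, c.Pr t → t ∉ PF N → ∃ u, u ∈ PF (F t) ∧ u ∉ PF N := fun t ht h2 =>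
    Set.not_subset.1 fun e => hc t ht (bender' hN (h.mx t ht) (h.fit hN ht h2) e ▸ h1)
  obtain ⟨t, ht, t1⟩ := h.not_full hN
  obtain ⟨u, u1, u2⟩ := key t ht t1
  have hu := (h.mx t ht).t.pr_PF u1
  obtain ⟨v, v1, v2⟩ := key u hu u2
  have uv : u ≠ v := by rintro rfl; exact h.self_not hu v1
  obtain ⟨s, -, hs⟩ := hN.exists_O
  obtain ⟨iL, pL⟩ := LL_spec (π := (PF N)ᶜ) (hN.t.pr_PF hs) (fun e => e hs)
  have i1 := (h.mx t ht).iO {u}
  have i2 := (h.mx u hu).iO {v}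
  have p1 : PiGrp (PF N)ᶜ (piCoreOf {u} (F t)) := (piCoreOf_piGrp _ _).singleton_mono u2
  have l1 := sup_le (i1.le_LL p1) (i2.le_LL ((piCoreOf_piGrp _ _).singleton_mono v2))
  have n0 := (h.fit hN ht t1).trans (piCoreOf_norm {u} _)
  have n1 := norms_sup n0 ((h.fit hN hu u2).trans (piCoreOf_norm {v} _))
  obtain ⟨H, hH, h2⟩ := ((I.of_le iL.t l1 (norms_sup i1.t.norm i2.t.norm) (norms_sup i1.n i2.n)).sup hN.iF
    n1).exists_mx_le
  have FH := le_sup_right.trans h2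
  have h3 := (wu hN hH.t FH hH.c_le (le_sup_left.trans h2) (pL.of_le l1) n1).trans (nil_core hN hb b1 h1 hH.t FH)
  have h4 := (h.mx u hu).cent_O v1 i1.t (cents_of_coprime_nil (fittingOf_nilpotent H) (le_sup_left.trans h3)
    (le_sup_right.trans h3) ((piCoreOf_piGrp _ _).coprime_of_ne (piCoreOf_piGrp _ _) uv))
  have h5 := le_O_of_le_fit ((wu hN (h.mx u hu).t (h.fit hN hu u2) (h.mx u hu).c_le h4 p1 n0).trans
    (nil_core hN hb b1 h1 (h.mx u hu).t (h.fit hN hu u2))) (piCoreOf_piGrp _ _)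
  exact u1 (eq_bot_iff.2 (h.self_bot hu ▸ h5))

theorem ar (ht : c.Pr t) (hu : c.Pr u) (tu : t ≠ u) (a : Ar F t u) :
    piCoreOf {t} (F u) ≠ ⊥ ∧ piCoreOf {t} (F u) ⊓ F t = ⊥ := (h.out ht (h.mx u hu) (h.ne ht hu tu) a).2

theorem no2 (ht : c.Pr t) (hu : c.Pr u) (tu : t ≠ u) (a : Ar F t u) (a' : Ar F u t) : False :=
  (h.ar ht hu tu a).1 (eq_bot_iff.2 ((h.ar ht hu tu a).2 ▸
    le_inf le_rfl ((piCoreOf_singleton_le_fittingOf _ _).trans a')))

theorem ar_uniq (ht : c.Pr t) (hu : c.Pr u) (hv : c.Pr v) (tu : t ≠ u) (tv : t ≠ v) (uv : u ≠ v)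
    (a : Ar F t u) (a' : Ar F t v) : False :=
  h.ne hv hu uv.symm (h.out_uniq ht (h.mx u hu) (h.ne ht hu tu) a (h.mx v hv) (h.ne ht hv tv) a')

omit [AMX G] in
theorem ar_of (ht : c.Pr t) (hu : c.Pr u) (h1 : u ∉ PF (F t)) : Ar F t u := h.fit (h.mx t ht) hu h1

theorem edge (ht : c.Pr t) (hu : c.Pr u) (tu : t ≠ u) (h1 : piCoreOf {s} (F t) ⊓ piCoreOf {s} (F u) ≠ ⊥) :
    Ar F t u ∨ Ar F u t := by
  have mt := h.mx t ht
  have mu := h.mx u hu
  have st : s ≠ t := by rintro rfl; exact h1 (by rw [h.self_bot ht, bot_inf_eq])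
  have su : s ≠ u := by rintro rfl; exact h1 (by rw [h.self_bot hu, inf_bot_eq])
  obtain ⟨H, hH, h2⟩ := ((mt.iO {s}).inf (mu.iO {s})).exists_mx h1
  have h3 : F t ⊓ F u ≤ H := h2 _ (mt.i.inf mu.i).t
    (norms_inf (inf_le_left.trans (piCoreOf_norm _ _)) (inf_le_right.trans (piCoreOf_norm _ _)))
  have f1 : fittingOf (F t) ≤ H := fit_le fun r _ => by
    by_cases e : r = s
    · rw [e]; exact (le_inf (piCoreOf_le _ _) (h.O_le hu mt su)).trans h3
    · exact h2 _ (mt.t.core _) (norms_of_cents ((O_cents e _).trans (cent_mono inf_le_left)))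
  have f2 : fittingOf (F u) ≤ H := fit_le fun r _ => by
    by_cases e : r = s
    · rw [e]; exact (le_inf (h.O_le ht mu st) (piCoreOf_le _ _)).trans h3
    · exact h2 _ (mu.t.core _) (norms_of_cents ((O_cents e _).trans (cent_mono inf_le_right)))
  by_cases e1 : H = F t
  · exact Or.inr (f2.trans e1.le)
  by_cases e2 : H = F u
  · exact Or.inl (f1.trans e2.le)
  exfalso
  have t1 : t ∈ PF H := (h.out ht hH e1 f1).2.1
  have u1 : u ∈ PF H := (h.out hu hH e2 f2).2.1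
  obtain ⟨v, hv, v1⟩ := h.not_full hH
  have h4 := h.fit hH hv v1
  have h5 := wu0 hH (piCoreOf_piGrp (PF H)ᶜ (F v)) (h4.trans (piCoreOf_norm _ _))
  rw [inf_eq_left.2 ((le_inf (h.i_le ht ((h.mx v hv).iO _) ((piCoreOf_piGrp _ _).compl_singleton' t1))
    (h.i_le hu ((h.mx v hv).iO _) ((piCoreOf_piGrp _ _).compl_singleton' u1))).trans h3)] at h5
  exact h.not_P hv (bender hH (h.mx v hv) h4 h5 ▸ (le_inf (h.P_le ht (by rintro rfl; exact v1 t1))
    (h.P_le hu (by rintro rfl; exact v1 u1))).trans h3)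

omit [AMX G] in
theorem lp (hu : c.Pr u) (hv : c.Pr v) (tu : t ≠ u) (tv : t ≠ v)
    (h1 : piCoreOf {t} (F u) ⊓ piCoreOf {t} (F v) = ⊥) (Yu : Y ≤ F u)
    (h2 : ∀ r, r ≠ t → Y ≤ 𝐂(piCoreOf {r} (F v))) : Y ≤ 𝐂(piCoreOf {t} (F u)) := by
  have l1 := h.O_le hv (h.mx u hu) tv
  have l2 := h.O_le hu (h.mx v hv) tu
  have l3 : ⁅piCoreOf {t} (F u), Y⁆ ≤ piCoreOf {t} (F u) := comm_le_left (Yu.trans (piCoreOf_norm _ _))
  rw [← comm_eq_bot_iff', eq_bot_iff, ← h1]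
  refine le_inf l3 (le_O_of_cents (h.mx v hv).t.solv (l3.trans l1) ((piCoreOf_piGrp _ _).of_le l3) fun r _ _ => ?_)
  by_cases e : r = t
  · rw [e]
    exact l3.trans (cents_of_norms_of_disjoint (l2.trans (piCoreOf_norm _ _)) (l1.trans (piCoreOf_norm _ _)) h1)
  · exact (commutator_mono le_rfl (h2 r e)).trans (comm_le_right (l1.trans (norms_cent (piCoreOf_norm _ _))))

omit [AMX G] in
theorem iY (ht : c.Pr t) (s : ℕ) : c.I (piCoreOf {s} (F t) ⊓ 𝐙(c.LL {s})) := ((h.mx t ht).iO _).inf (h.P s).1.center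

theorem Y_ne (ht : c.Pr t) (hs : s ∈ PF (F t)) : piCoreOf {s} (F t) ⊓ 𝐙(c.LL {s}) ≠ ⊥ :=
  meet_center_nil (h.P s).2.nilpotent ⟨((h.mx t ht).iO _).le_LL (piCoreOf_piGrp _ _),
    (h.P_le ht (by rintro rfl; exact h.self_not ht hs)).trans (piCoreOf_norm _ _)⟩ hs

omit [AMX G] in
theorem Y_cent (ht : c.Pr t) (hL : c.Mx L) (hY : piCoreOf {s} (F t) ⊓ 𝐙(c.LL {s}) ≤ L) (rt : r ≠ t) :
    piCoreOf {s} (F t) ⊓ 𝐙(c.LL {s}) ≤ 𝐂(piCoreOf {r} L) := by
  by_cases e : s = r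
  · subst e
    exact (inf_le_right.trans inf_le_right).trans (cent_mono ((hL.iO _).le_LL (piCoreOf_piGrp _ _)))
  · exact cents_of_le_norm (piCoreOf_piGrp {s} _) (piCoreOf_piGrp {r} L) e inf_le_left le_rfl
      (hY.trans (piCoreOf_norm _ _)) ((h.O_le ht hL rt).trans (piCoreOf_norm _ _))

theorem four (ht : c.Pr t) (hu : c.Pr u) (hv : c.Pr v) (su : s ≠ u) (sv : s ≠ v) (tu : t ≠ u) (tv : t ≠ v)
    (uv : u ≠ v) (hs : s ∈ PF (F t)) : Ar F u v ∨ Ar F v u := by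
  by_contra hc
  have ne : ∀ k, piCoreOf {k} (F u) ⊓ piCoreOf {k} (F v) = ⊥ := fun k => by_contra fun e => hc (h.edge hu hv uv e)
  have pY : PiGrp {s} (piCoreOf {s} (F t) ⊓ 𝐙(c.LL {s})) := (piCoreOf_piGrp _ _).inf_left _
  have l1 := h.i_le' hu (h.iY ht s) pY su
  have l2 := h.i_le' hv (h.iY ht s) pY sv
  refine h.Y_ne ht hs (eq_bot_iff.2 (ne s ▸ le_inf (le_O_of_cents (h.mx u hu).t.solv l1 pY fun r _ _ => ?_)
    (le_O_of_cents (h.mx v hv).t.solv l2 pY fun r _ _ => ?_)))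
  · by_cases e : r = t
    · rw [e]; exact h.lp hu hv tu tv (ne t) l1 fun r rt => h.Y_cent ht (h.mx v hv) l2 rt
    · exact h.Y_cent ht (h.mx u hu) l1 e
  · by_cases e : r = t
    · rw [e]; exact h.lp hv hu tv tu ((inf_comm _ _).trans (ne t)) l2 fun r rt => h.Y_cent ht (h.mx u hu) l1 rt
    · exact h.Y_cent ht (h.mx v hv) l2 e

theorem four' (hs : c.Pr s) (ht : c.Pr t) (hu : c.Pr u) (hv : c.Pr v) (st : s ≠ t) (su : s ≠ u) (sv : s ≠ v)
    (tu : t ≠ u) (tv : t ≠ v) (uv : u ≠ v) : Ar F u v ∨ Ar F v u := by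
  by_cases h1 : s ∈ PF (F t)
  · exact h.four ht hu hv su sv tu tv uv h1
  by_cases h2 : t ∈ PF (F s)
  · exact h.four hs hu hv tu tv su sv uv h2
  exact (h.no2 hs ht st (h.ar_of hs ht h2) (h.ar_of ht hs h1)).elim

theorem not_four (hs : c.Pr s) (ht : c.Pr t) (hu : c.Pr u) (hv : c.Pr v) (st : s ≠ t) (su : s ≠ u) (sv : s ≠ v)
    (tu : t ≠ u) (tv : t ≠ v) (uv : u ≠ v) : False := by
  have e1 := h.four' hs ht hu hv st su sv tu tv uv
  have e2 := h.four' hs hu ht hv su st sv tu.symm uv tv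
  have e3 := h.four' hs hv ht hu sv st su tv.symm uv.symm tu
  have e4 := h.four' ht hu hs hv tu st.symm tv su.symm uv sv
  have e5 := h.four' ht hv hs hu tv st.symm tu sv.symm uv.symm su
  have e6 := h.four' hu hv hs ht uv su.symm tu.symm sv.symm tv.symm st
  have a1 := h.ar_uniq hs ht hu st su tu
  have a2 := h.ar_uniq hs ht hv st sv tv
  have a3 := h.ar_uniq hs hu hv su sv uv
  have b1 := h.ar_uniq ht hs hu st.symm tu su
  have b2 := h.ar_uniq ht hs hv st.symm tv sv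
  have b3 := h.ar_uniq ht hu hv tu tv uv
  have c1 := h.ar_uniq hu hs ht su.symm tu.symm st
  have c2 := h.ar_uniq hu hs hv su.symm uv sv
  have c3 := h.ar_uniq hu ht hv tu.symm uv tv
  have d1 := h.ar_uniq hv hs ht sv.symm tv.symm st
  have d2 := h.ar_uniq hv hs hu sv.symm uv.symm su
  have d3 := h.ar_uniq hv ht hu tv.symm uv.symm tu
  rcases e1 with e1 | e1 <;> rcases e2 with e2 | e2 <;> rcases e3 with e3 | e3 <;> rcases e4 with e4 | e4 <;>
    rcases e5 with e5 | e5 <;> rcases e6 with e6 | e6 <;>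
    first
    | exact a1 ‹_› ‹_› | exact a2 ‹_› ‹_› | exact a3 ‹_› ‹_› | exact b1 ‹_› ‹_› | exact b2 ‹_› ‹_›
    | exact b3 ‹_› ‹_› | exact c1 ‹_› ‹_› | exact c2 ‹_› ‹_› | exact c3 ‹_› ‹_› | exact d1 ‹_› ‹_›
    | exact d2 ‹_› ‹_› | exact d3 ‹_› ‹_›

theorem big_fix (ht : c.Pr t) (hu : c.Pr u) (tu : t ≠ u) (big : c.Big (F t)) (a : Ar F t u) (hj : j ∈ PF (F t)) :
    𝐙(piCoreOf {j} (F t)) ⊓ 𝐂(c.A) ≠ ⊥ := fun h1 => by
  have iZ := ((h.mx t ht).iO {j}).center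
  obtain ⟨d1, d2⟩ := h.ar ht hu tu a
  have h2 := d1' big iZ.t ((h.mx u hu).t.core {t})
    (((inf_le_left.trans (piCoreOf_singleton_le_fittingOf _ _)).trans a).trans (piCoreOf_norm _ _))
    (piCoreOf_piGrp _ _) ((piCoreOf_piGrp _ _).inf_left _) (by rintro rfl; exact h.self_not ht hj)
    (abelian_center _) (d2 ▸ bot_le)
  rw [iZ.t.copA.comm_eq_self_of_cent_eq_bot h1] at h2
  exact d1 (eq_bot_iff.2 (d2 ▸ le_inf le_rfl (Two.cent_Z (h.mx t ht) hj ((h.mx u hu).t.core _)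
    (norms_of_cents (cents_symm h2)))))

end Fam

/-- Exactly three primes. -/
structure Th (c : Conf G) (F : ℕ → Subgroup G) (t u w : ℕ) : Prop where
  fam : c.Fam F
  ht : c.Pr t
  hu : c.Pr u
  hw : c.Pr w
  tu : t ≠ u
  tw : t ≠ w
  uw : u ≠ w
  all : ∀ s, c.Pr s → s = t ∨ s = u ∨ s = w

namespace Th
variable {F : ℕ → Subgroup G} (h : c.Th F t u w)
include h

omit [Finite G] [AMX G] in
theorem s1 : c.Th F u t w :=
  ⟨h.fam, h.hu, h.ht, h.hw, h.tu.symm, h.uw, h.tw, fun s hs => by have := h.all s hs; tauto⟩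
omit [Finite G] [AMX G] in
theorem s2 : c.Th F t w u :=
  ⟨h.fam, h.ht, h.hw, h.hu, h.tw, h.tu, h.uw.symm, fun s hs => by have := h.all s hs; tauto⟩

theorem le_O (hX : X ≤ F t) (hs : PiGrp {s} X) (h1 : X ≤ 𝐂(piCoreOf {u} (F t))) (h2 : X ≤ 𝐂(piCoreOf {w} (F t))) :
    X ≤ piCoreOf {s} (F t) :=
  le_O_of_cents (h.fam.mx t h.ht).t.solv hX hs fun r _ hr => by
    rcases h.all r ((h.fam.mx t h.ht).t.pr_PF hr) with rfl | rfl | rfl
    · exact absurd hr (h.fam.self_not h.ht)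
    · exact h1
    · exact h2

theorem one (big : c.Big (F t)) (hj : u ∈ PF (F t)) (ne : ¬ (Ar F t w ∨ Ar F w t)) :
    piCoreOf {u} (F t) ⊓ 𝐙(c.LL {u}) ≤ 𝐂(c.A) ∧ (Ar F u w ∨ Ar F w u) := by
  have f := h.fam
  have iY := f.iY h.ht u
  set Y := piCoreOf {u} (F t) ⊓ 𝐙(c.LL {u})
  have pY : PiGrp {u} Y := (piCoreOf_piGrp _ _).inf_left _
  have l1 : Y ≤ F w := f.i_le' h.hw iY pY h.uw
  have e1 : piCoreOf {u} (F t) ⊓ piCoreOf {u} (F w) = ⊥ := by_contra fun e => ne (f.edge h.ht h.hw h.tw e)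
  have c1 : Y ≤ 𝐂(piCoreOf {u} (F w)) := f.Y_cent h.ht (f.mx w h.hw) l1 h.tu.symm
  have key : ∀ X, X ≤ Y → X ≤ 𝐂(piCoreOf {t} (F w)) → X = ⊥ := fun X h1 h2 =>
    eq_bot_iff.2 (e1 ▸ le_inf (h1.trans inf_le_left)
      (h.s2.s1.le_O (h1.trans l1) (pY.of_le h1) h2 (h1.trans c1)))
  have h1 : Y ≤ 𝐂(c.A) := comm_eq_bot_iff.1 (key _ iY.t.copA.comm_le (d1' big iY.t ((f.mx w h.hw).t.core {t})
    (l1.trans (piCoreOf_norm _ _)) (piCoreOf_piGrp _ _) pY h.tu.symm (abelian_of_le (abelian_center _) inf_le_right)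
    (cents_of_le_norm (piCoreOf_piGrp {t} _) (piCoreOf_piGrp {u} (F t)) h.tu inf_le_left inf_le_left
      (inf_le_right.trans (piCoreOf_norm _ _)) (l1.trans (piCoreOf_norm _ _)))))
  refine ⟨h1, by_contra fun ne' => f.Y_ne h.ht hj (key Y le_rfl ?_)⟩
  have l2 : Y ≤ F u := ((le_inf le_rfl h1).trans iY.t.fixA).trans (f.mx u h.hu).c_le
  exact f.lp h.hw h.hu h.tw h.tu (by_contra fun e => ne' (f.edge h.hw h.hu h.uw.symm e).symm) l1
    fun r rt => f.Y_cent h.ht (f.mx u h.hu) l2 rt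

theorem two (big : c.Big (F t)) (a : Ar F t u) : Ar F u w ∨ Ar F w u := by
  have f := h.fam
  have hw : w ∈ PF (F t) := by_contra fun e => f.ar_uniq h.ht h.hu h.hw h.tu h.tw h.uw a (f.ar_of h.ht h.hw e)
  by_contra ne
  have e1 : piCoreOf {t} (F u) ⊓ piCoreOf {t} (F w) = ⊥ := by_contra fun e => ne (f.edge h.hu h.hw h.uw e)
  have iZ := ((f.mx t h.ht).iO {w}).center
  set Z := 𝐙(piCoreOf {w} (F t)) ⊓ 𝐂(c.A)
  have l0 : Z ≤ piCoreOf {w} (F t) := inf_le_left.trans inf_le_left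
  have l1 : Z ≤ F w := iZ.t.fixA.trans (f.mx w h.hw).c_le
  have l2 := f.O_le h.hu (f.mx w h.hw) h.tu
  refine f.big_fix h.ht h.hu h.tu big a hw (eq_bot_iff.2 (f.self_bot h.hw ▸ h.s2.s1.le_O l1
    ((piCoreOf_piGrp _ _).of_le l0) ?_ ?_))
  · rw [← comm_eq_bot_iff, eq_bot_iff, ← e1]
    have h1 : ⁅Z, piCoreOf {t} (F w)⁆ ≤ piCoreOf {t} (F w) := comm_le_right (l1.trans (piCoreOf_norm _ _))
    refine le_inf ?_ h1
    have h2 : ⁅Z, piCoreOf {t} (F w)⁆ ≤ core2 (PF (F t))ᶜ {w} (F u) :=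
      (commutator_mono (l0.trans (wz (f.mx t h.ht) (f.mx u h.hu).t a (f.mx u h.hu).c_le w)) le_rfl).trans
        (comm_le_left (l2.trans (core2_norm _ _ _)))
    rw [← (f.out h.ht (f.mx u h.hu) (f.ne h.ht h.hu h.tu) a).1,
      ← quo_eq_bot_iff ((h1.trans l2).trans (piCoreOf_norm _ _))]
    refine PiGrp.eq_bot (π := {w}) (PiGrp.of_le ?_ (quo_mono _ h2))
      ((((piCoreOf_piGrp _ _).of_le h1).compl_singleton (by simpa using h.tw.symm)).quo _)
    rw [quo_core2_self]; exact piCoreOf_piGrp _ _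
  · exact cents_of_le_norm (piCoreOf_piGrp {w} _) (piCoreOf_piGrp {u} (F w)) h.uw.symm l0 le_rfl
      (l1.trans (piCoreOf_norm _ _)) ((f.O_le h.ht (f.mx w h.hw) h.tu.symm).trans (piCoreOf_norm _ _))

theorem three (big : c.Big (F u)) (a : Ar F t u) : Ar F w u := by
  have f := h.fam
  obtain ⟨d1, d2⟩ := f.ar h.ht h.hu h.tu a
  have key : ∀ X, X ≤ piCoreOf {t} (F u) → X ≤ 𝐂(c.A) → X = ⊥ := fun X h1 h2 =>
    eq_bot_iff.2 (d2 ▸ le_inf h1 (((le_inf h1 h2).trans ((f.mx u h.hu).t.core _).fixA).trans (f.mx t h.ht).c_le))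
  by_contra ne
  by_cases a' : Ar F u w
  · exact f.big_fix h.hu h.hw h.uw big a' d1 (key _ (inf_le_left.trans inf_le_left) inf_le_right)
  · exact f.Y_ne h.hu d1 (key _ inf_le_left (h.s1.one big d1 (not_or.2 ⟨a', ne⟩)).1)

theorem star_aux (a : Ar F t u) (hB : c.Line B) (h1 : ¬ th B c.θ ≤ F u) : th B c.θ ≤ F w := by
  have f := h.fam
  obtain ⟨d1, d2⟩ := f.ar h.ht h.hu h.tu a
  obtain ⟨b, hb, b1, h2⟩ := ((f.mx u h.hu).t.core {t}).exists_pt hB d1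
  obtain ⟨s, hs, h3⟩ := f.cover (hB.1 hb) b1
  rcases h.all s hs with rfl | rfl | rfl
  · exact absurd d2 (Two.meet ((f.mx u h.hu).t.core _) (hB.1 hb) b1 h3 h2)
  · exact absurd h3 (bad_pt h1 hb b1)
  · exact (th_le hb b1).trans h3

theorem star (a : Ar F t u) (a' : Ar F w u) : False := by
  have f := h.fam
  have mu := f.mx u h.hu
  have mw := f.mx w h.hw
  obtain ⟨B, hB, h1⟩ := exists_bad mu.t
  have bw := h.star_aux a hB h1
  have bt := h.s2.s1.s2.star_aux a' hB h1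
  obtain ⟨d1, d2⟩ := f.ar h.ht h.hu h.tu a
  obtain ⟨e1, e2⟩ := f.ar h.hw h.hu h.uw.symm a'
  have iD := f.iY h.hu t
  set D := piCoreOf {t} (F u) ⊓ 𝐙(c.LL {t})
  have pD : PiGrp {t} D := (piCoreOf_piGrp _ _).inf_left _
  have l1 : D ≤ F w := f.i_le' h.hw iD pD h.tw
  have c1 : D ≤ 𝐂(fittingOf (F w)) := cents_symm (fit_le fun r hr => cents_symm (by
    rcases h.all r (mw.t.pr_PF hr) with rfl | rfl | rfl
    · exact f.Y_cent h.hu mw l1 h.tu
    · exact cents_of_le_norm (piCoreOf_piGrp {t} _) (piCoreOf_piGrp {r} _) h.tu inf_le_left le_rfl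
        (l1.trans (piCoreOf_norm _ _)) (((piCoreOf_singleton_le_fittingOf _ _).trans a').trans (piCoreOf_norm _ _))
    · exact absurd hr (f.self_not h.hw)))
  have h2 : ncl D (th B c.θ) ≤ 𝐙(fittingOf (F w)) :=
    ncl_le_of_norm (le_inf (le_fittingOf_of_cents mw.t.solv l1 c1) c1)
      (bw.trans (norms_center (fittingOf_normalIn _).norm))
  have h3 : ncl D (th B c.θ) ≤ piCoreOf {t} (F u) := ncl_le fun g hg => by
    have h4 := f.le_out h.ht mu (f.ne h.ht h.hu h.tu) a (U := F u ⊓ cj g (piCoreOf {t} (F u))) inf_le_left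
      (((piCoreOf_piGrp _ _).cj g).inf_right _) (norms_inf (norms_self_of_le a) (by
        rw [← cj_normalizer, ← cj_eq_of_mem_normalizer ((fittingOf_normalIn (F t)).norm (bt hg))]
        exact cj_mono g (le_trans a (piCoreOf_norm _ _))))
    exact (le_inf (((cj_le_ncl hg).trans (h2.trans inf_le_left)).trans a') (cj_mono g inf_le_left)).trans h4
  obtain ⟨L, hL, h4⟩ := (I.ncl (mu.t.core _) iD.t.norm hB h3).exists_mx
    (ne_bot_of_le_ne_bot (f.Y_ne h.hu d1) (le_ncl _ _))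
  have h5 := h4 _ mw.iF.t (norms_of_cents (cents_symm (h2.trans inf_le_right)))
  have h6 := h4 _ (mu.t.core {w}) (norms_of_cents ((O_cents h.tw.symm _).trans (cent_mono h3)))
  have ne : L ≠ F w := by rintro rfl; exact e1 (eq_bot_iff.2 (e2 ▸ le_inf le_rfl h6))
  exact h1 (f.out_uniq h.hw hL ne h5 mu (f.ne h.hw h.hu h.uw.symm) a' ▸ h4 _ hB.tt (norm_ncl _ _))

theorem no_in (big : c.Big (F u)) : ¬ Ar F t u := fun a => h.star a (h.three big a)

theorem big_aux (bt : c.Big (F t)) (bu : c.Big (F u)) : Ar F t w := by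
  by_contra a
  have n1 := h.no_in bu
  have n2 := h.s1.no_in bt
  have n3 := h.s2.s1.s2.no_in bu
  have n4 := h.s2.s1.no_in bt
  have a1 := ((h.s2.one bt (by_contra fun e => a (h.fam.ar_of h.ht h.hw e)) (not_or.2 ⟨n1, n2⟩)).2).resolve_left n3
  exact (h.s1.s2.two bu a1).elim n4 a

theorem two_big (bt : c.Big (F t)) (bu : c.Big (F u)) : False :=
  h.s2.star (h.big_aux bt bu) (h.s1.big_aux bu bt)

theorem two_small (bt : ¬ c.Big (F t)) (bu : ¬ c.Big (F u)) : False := by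
  simp only [Big, not_forall, not_exists, not_and] at bt bu
  obtain ⟨B1, l1, h1⟩ := bt
  obtain ⟨B2, l2, h2⟩ := bu
  refine off_lines (h.fam.mx w h.hw).t l1 l2 fun b hb n1 n2 => ?_
  obtain ⟨s, hs, h3⟩ := h.fam.cover hb fun e => n1 (e ▸ one_mem _)
  rcases h.all s hs with rfl | rfl | rfl
  · exact absurd h3 (h1 b hb n1)
  · exact absurd h3 (h2 b hb n2)
  · exact h3

theorem false : False := by
  by_cases bt : c.Big (F t) <;> by_cases bu : c.Big (F u) <;> by_cases bw : c.Big (F w)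
  · exact h.two_big bt bu
  · exact h.two_big bt bu
  · exact h.s2.two_big bt bw
  · exact h.s1.s2.two_small bu bw
  · exact h.s1.s2.two_big bu bw
  · exact h.s2.two_small bt bw
  · exact h.two_small bt bu
  · exact h.two_small bt bu

end Th

/-- There is no minimal counterexample. -/
theorem false (c : Conf G) : False := by
  by_cases h1 : ∃ q r, c.Pr q ∧ c.Pr r ∧ q ≠ r
  swap
  · refine not_nil (c := c) fun U hU => ?_
    by_cases e : U = ⊥
    · rw [e]; exact nilpotent_bot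
    obtain ⟨q, hq, hd⟩ := exists_prime_dvd_card e
    exact PiGrp.nilpotent (p := q) fun r hr hd' => by_contra fun ne => h1 ⟨r, q, hU.pr hr hd', hU.pr hq hd, ne⟩
  obtain ⟨q, r, hq, hr, qr⟩ := h1
  by_cases h2 : ∃ w, c.Pr w ∧ w ≠ q ∧ w ≠ r
  swap
  · exact Two.false ⟨qr, hq, hr, fun s hs => by_contra fun e => h2 ⟨s, hs, (not_or.1 e).1, (not_or.1 e).2⟩⟩
  obtain ⟨w, hw, wq, wr⟩ := h2
  have : ∀ t, ∃ M, c.Pr t → c.Mx M ∧ c.LL {t}ᶜ ≤ M := fun t => by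
    by_cases ht : c.Pr t
    · obtain ⟨M, h⟩ := (LL_spec (π := {t}ᶜ) ht (by simp)).1.exists_mx_le
      exact ⟨M, fun _ => h⟩
    · exact ⟨⊥, fun h => absurd h ht⟩
  choose F hF using this
  have f : c.Fam F := by
    refine ⟨fun s u => ?_, fun t ht => (hF t ht).1, fun t ht => (hF t ht).2⟩
    by_contra hc
    push Not at hc
    have a1 := hc q hq
    have a2 := hc r hr
    have a3 := hc w hw
    omega
  by_cases h3 : ∃ v, c.Pr v ∧ v ≠ q ∧ v ≠ r ∧ v ≠ w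
  · obtain ⟨v, hv, n1, n2, n3⟩ := h3
    exact f.not_four hq hr hw hv qr wq.symm n1.symm wr.symm n2.symm n3.symm
  · exact Th.false ⟨f, hq, hr, hw, qr, wq.symm, wr.symm, fun s hs => by_contra fun e => h3 ⟨s, hs, by tauto⟩⟩

end Conf

end CA.SF
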