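/-
Solvable signalizer functors: reduction to a minimal counterexample.
-/
import Cfsg.Agent.Lib.SF.Defs
import Cfsg.Agent.Lib.PF.FT

set_option autoImplicit false
set_option linter.unusedSectionVars false

namespace CA.SF

open Cfsg CA Subgroup

universe u

section
variable {G : Type*} [Group G] [Finite G] {p : ℕ} {A U V J : Subgroup G} {θ : G → Subgroup G}

theorem elem_three (ab : IsMulCommutative A) (ex : ∀ a ∈ A, a ^ p = 1) (card : Nat.card A = p ^ 3) : Elem p 3 A A :=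
  ⟨le_rfl, ⟨ab, ex⟩, card⟩

theorem le_of_fix (hp : p.Prime) (hA : Elem p 3 A A) (hn : A ≤ 𝐍(U)) (hc : PiGrp {p}ᶜ U)
    (h : ∀ a ∈ A, a ≠ 1 → U ⊓ 𝐂[a] ≤ J) : U ≤ J :=
  have := Fact.mk hp
  le_of_cent1_noncyclic hA.comm (hA.not_isCyclic (by norm_num)) hn (hc.coprime' (hA.isPGroup.piGrp hp)) h

theorem exists_fix (hp : p.Prime) (hA : Elem p 3 A A) (hn : A ≤ 𝐍(U)) (hc : PiGrp {p}ᶜ U) (h : U ≠ ⊥) :
    ∃ a ∈ A, a ≠ 1 ∧ U ⊓ 𝐂[a] ≠ ⊥ :=
  have := Fact.mk hp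
  exists_cent1_ne_bot hA.comm (hA.not_isCyclic (by norm_num)) hn (hc.coprime' (hA.isPGroup.piGrp hp)) h

theorem Fn.inf_norm (fn : Fn p A θ) (hn : A ≤ 𝐍(U)) : Fn p A fun a => θ a ⊓ 𝐍(U) where
  cent a ha h1 := inf_le_left.trans (fn.cent a ha h1)
  norm a ha h1 := norms_inf (fn.norm a ha h1) (norms_norm hn)
  solv a ha h1 := solvable_of_le (fn.solv a ha h1) inf_le_left
  cop a ha h1 := (fn.cop a ha h1).inf_left _
  bal a ha h1 b hb h2 := fun _ hx => ⟨fn.bal a ha h1 b hb h2 ⟨hx.1.1, hx.2⟩, hx.1.2⟩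

theorem TS.mono {ψ : G → Subgroup G} (h : TS p A ψ U) (hψ : ∀ a ∈ A, a ≠ 1 → ψ a ≤ θ a) : TS p A θ U :=
  ⟨h.norm, h.solv, h.cop, fun a ha h1 => (h.fix a ha h1).trans (hψ a ha h1)⟩

/-- the largest `A C`-invariant `π`-subgroup of `θ a` -/
def thPi (π : Set ℕ) (A : Subgroup G) (θ : G → Subgroup G) (a : G) : Subgroup G :=
  sSup {X | X ≤ θ a ∧ PiGrp π X ∧ A ≤ 𝐍(X) ∧ th A θ ≤ 𝐍(X)}

theorem thPi_le (π : Set ℕ) (a : G) : thPi π A θ a ≤ θ a := sSup_le fun _ h => h.1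
theorem thPi_norm (π : Set ℕ) (a : G) : A ≤ 𝐍(thPi π A θ a) := norms_sSup fun _ h => h.2.2.1
theorem thPi_norm' (π : Set ℕ) (a : G) : th A θ ≤ 𝐍(thPi π A θ a) := norms_sSup fun _ h => h.2.2.2

theorem Fn.thPi_pi (fn : Fn p A θ) (hA : PiGrp {p} A) (π : Set ℕ) {a : G} (ha : a ∈ A) (h1 : a ≠ 1) :
    PiGrp π (thPi π A θ a) := by
  have c := copAct_p_right (fn.norm a ha h1) (fn.cop a ha h1) hA
  obtain ⟨H, hH, nH⟩ := c.exists_hall (fn.solv a ha h1) π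
  refine hH.piGrp.of_le (sSup_le fun X ⟨x1, x2, x3, x4⟩ => ?_)
  obtain ⟨g, hg, e⟩ := c.hall_le_cj (fn.solv a ha h1) hH nH x1 x2 x3
  rwa [le_cj_iff, cj_eq_of_mem_normalizer (inv_mem (x4 (mem_th.2 fun b hb h2 =>
    fn.bal a ha h1 b hb h2 ⟨hg.1, cent_le_cent1 hb hg.2⟩)))] at e

theorem Fn.le_thPi (fn : Fn p A θ) (ab : IsMulCommutative A) {π : Set ℕ} {X : Subgroup G} (h2 : PiGrp π X)
    (h3 : A ≤ 𝐍(X)) (h4 : th A θ ≤ 𝐍(X)) {b : G} (hb : b ∈ A) (b1 : b ≠ 1) (h1 : X ⊓ 𝐂[b] ≤ θ b) :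
    X ⊓ 𝐂[b] ≤ thPi π A θ b :=
  le_sSup ⟨h1, h2.inf_left _, norms_inf h3 (norms_cent1 ((abelian_iff.1 ab).trans (cent_le_cent1 hb))),
    norms_inf h4 (norms_cent1 ((th_le hb b1).trans (fn.cent b hb b1)))⟩

theorem Fn.thPi (fn : Fn p A θ) (ab : IsMulCommutative A) (hA : PiGrp {p} A) (π : Set ℕ) : Fn p A (thPi π A θ) where
  cent a ha h1 := (thPi_le π a).trans (fn.cent a ha h1)
  norm a _ _ := thPi_norm π a
  solv a ha h1 := solvable_of_le (fn.solv a ha h1) (thPi_le π a)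
  cop a ha h1 := (fn.cop a ha h1).of_le (thPi_le π a)
  bal a ha h1 b hb h2 := fn.le_thPi ab (fn.thPi_pi hA π ha h1) (thPi_norm π a) (thPi_norm' π a) hb h2
    ((inf_le_inf_right _ (thPi_le π a)).trans (fn.bal a ha h1 b hb h2))

end

theorem complete_aux (hC : ∀ (G : Type u) [Group G] [Finite G], Conf G → False) {E : Type*} [Group E] [Fintype E]
    [DecidableEq E] {p : ℕ} (hp : p.Prime) (p2 : p ≠ 2) (n : ℕ) :
    ∀ (G : Type u) [Group G] [Finite G] (ι : E →* G), Function.Injective ι → Elem p 3 ι.range ι.range →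
      ∀ θ : G → Subgroup G, Fn p ι.range θ → ∑ e ∈ Finset.univ.erase 1, Nat.card (θ (ι e)) < n →
      Complete p ι.range θ := by
  induction n with
  | zero => intro _ _ _ _ _ _ _ _ h; omega
  | succ n ih =>
  intro G _ _ ι hι hA θ fn hn
  by_contra inc
  have ne1 : ∀ {e}, e ≠ 1 → ι e ≠ 1 := fun h a => h (hι (a.trans (map_one ι).symm))
  have ne1' : ∀ {e}, ι e ≠ 1 → e ≠ 1 := fun h a => h (by rw [a, map_one])
  have pA : PiGrp {p} ι.range := hA.isPGroup.piGrp hp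
  have lt : ∀ f : E → ℕ, (∀ e, e ≠ 1 → f e ≤ Nat.card (θ (ι e))) → (∃ e, e ≠ 1 ∧ f e < Nat.card (θ (ι e))) →
      ∑ e ∈ Finset.univ.erase 1, f e < n := fun f h1 ⟨e, e1, h2⟩ =>
    (Finset.sum_lt_sum (fun e he => h1 e (Finset.ne_of_mem_erase he)) ⟨e, by simp [e1], h2⟩).trans_le
      (Nat.lt_succ_iff.1 hn)
  have sub : ∀ ψ, Fn p ι.range ψ → (∀ a, ψ a ≤ θ a) → (∃ a ∈ ι.range, a ≠ 1 ∧ ψ a ≠ θ a) → Complete p ι.range ψ :=
    fun ψ f h1 ⟨_, ⟨e, rfl⟩, e1, h2⟩ => ih G ι hι hA ψ f (lt _ (fun e _ => card_le_of_le' (h1 _))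
      ⟨e, ne1' e1, card_lt_of_lt' (lt_of_le_of_ne (h1 _) h2)⟩)
  refine hC G ⟨p, ι.range, θ, hp, p2, hA.comm, fun a ha => hA.elemAb.pow_eq ha, hA.card, fn, fun U hU U1 => ?_,
    fun π ⟨q, hq, qπ, a, ha, a1, qa⟩ => ?_, inc⟩
  · by_cases h : ∀ a ∈ ι.range, a ≠ 1 → θ a ≤ 𝐍(U)
    · exfalso
      have iU : U ⊓ ι.range = ⊥ := hU.cop.inf_eq_bot' pA
      have nU : ∀ e, ι e ∈ 𝐍(U) := fun e => hU.norm ⟨e, rfl⟩
      obtain ⟨κ, hκ⟩ : ∃ κ : E →* Quo U, ∀ e, κ e = qel U (ι e) :=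
        ⟨(qmk U).comp (ι.codRestrict _ nU), fun e => (pel_of_mem (qmk U) (nU e)).symm⟩
      have κi : Function.Injective κ := (injective_iff_map_eq_one κ).2 fun e he => by
        rw [hκ, qel_eq_one_iff (nU e)] at he
        exact hι ((mem_bot.1 (iU.le ⟨he, e, rfl⟩)).trans (map_one ι).symm)
      have κr : κ.range = ι.range /ₛ U := by
        ext z
        rw [mem_quo hU.norm]
        exact ⟨fun ⟨e, a⟩ => ⟨_, ⟨e, rfl⟩, hκ e ▸ a⟩, fun ⟨_, ⟨e, rfl⟩, a⟩ => ⟨e, (hκ e).trans a⟩⟩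
      obtain ⟨ψ, hψ⟩ : ∃ ψ : Quo U → Subgroup (Quo U), ∀ e, ψ (κ e) = θ (ι e) /ₛ U :=
        ⟨Function.extend κ (fun e => θ (ι e) /ₛ U) fun _ => ⊥, fun e => κi.extend_apply _ _ e⟩
      have κ1 : ∀ {e}, κ e ≠ 1 → ι e ≠ 1 := fun h => ne1 fun a => h (by rw [a, map_one])
      have k : ∀ e e', ι e ≠ 1 → (θ (ι e) ⊓ 𝐂[ι e']) /ₛ U = ψ (κ e) ⊓ 𝐂[κ e'] := fun e e' e1 => by
        rw [hψ, hκ]
        exact quo_inf_cent1 (fn.norm _ ⟨e, rfl⟩ e1 ⟨e', rfl⟩) (nU e')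
          (((fn.cop _ ⟨e, rfl⟩ e1).coprime' pA).coprime_dvd_right (orderOf_dvd_card_of_mem (A := ι.range) ⟨e', rfl⟩))
      have f : Fn p κ.range ψ :=
        ⟨by
          rintro _ ⟨e, rfl⟩ e1
          rw [hψ, ← inf_eq_left.2 (fn.cent _ ⟨e, rfl⟩ (κ1 e1)), k e e (κ1 e1)]
          exact inf_le_right, by
          rintro _ ⟨e, rfl⟩ e1
          rw [hψ, κr]; exact quo_norms U (fn.norm _ ⟨e, rfl⟩ (κ1 e1)), by
          rintro _ ⟨e, rfl⟩ e1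
          rw [hψ]; exact solvable_quo (fn.solv _ ⟨e, rfl⟩ (κ1 e1)) U, by
          rintro _ ⟨e, rfl⟩ e1
          rw [hψ]; exact (fn.cop _ ⟨e, rfl⟩ (κ1 e1)).quo U, by
          rintro _ ⟨e, rfl⟩ e1 _ ⟨e', rfl⟩ e2
          rw [← k e e' (κ1 e1), hψ]
          exact quo_mono U (fn.bal _ ⟨e, rfl⟩ (κ1 e1) _ ⟨e', rfl⟩ (κ1 e2))⟩
      obtain ⟨_, ⟨e, rfl⟩, e1, e2⟩ := exists_fix hp hA hU.norm hU.cop U1
      obtain ⟨L, hL, le⟩ := ih (Quo U) κ κi (κr ▸ ⟨le_rfl, hA.elemAb.pmap _, by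
        rw [card_quo_of_disjoint hU.norm iU, hA.card]⟩) ψ f (lt _ (fun e _ => hψ e ▸ card_quo_le _ _)
        ⟨e, ne1' e1, hψ e ▸ card_quo_lt (h _ ⟨e, rfl⟩ e1) fun a => e2 (eq_bot_iff.2
          (a ▸ le_inf inf_le_left (hU.fix _ ⟨e, rfl⟩ e1)))⟩)
      have κ2 : ∀ {e}, ι e ≠ 1 → κ e ≠ 1 := fun h a => ne1' h (κi (a.trans (map_one κ).symm))
      refine inc ⟨coq U L, ⟨norms_coq hU.norm (κr ▸ hL.norm),
        solvable_of_quo (coq_le_norm L) hU.solv (by rw [quo_coq]; exact hL.solv), piGrp_coq hU.cop hL.cop, ?_⟩, ?_⟩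
      · rintro _ ⟨e, rfl⟩ e1 x ⟨x1, x2⟩
        obtain ⟨x3, x4⟩ := mem_coq.1 x1
        have : qel U x ∈ θ (ι e) /ₛ U := hψ e ▸ hL.fix _ ⟨e, rfl⟩ (κ2 e1) ⟨x4, mem_cent1_iff.2 (by
          rw [hκ, ← pel_mul _ x3 (nU e), mem_cent1_iff.1 x2, pel_mul _ (nU e) x3])⟩
        rw [qel_mem_quo_iff' x3 (h _ ⟨e, rfl⟩ e1)] at this
        exact sup_le (hU.fix _ ⟨e, rfl⟩ e1) le_rfl
          ((dedekind_right (Or.inl (h _ ⟨e, rfl⟩ e1)) (fn.cent _ ⟨e, rfl⟩ e1)).le ⟨this, x2⟩)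
      · rintro _ ⟨e, rfl⟩ e1
        rw [le_coq_iff (h _ ⟨e, rfl⟩ e1), ← hψ]
        exact le _ ⟨e, rfl⟩ (κ2 e1)
    · push Not at h
      obtain ⟨a, ha, a1, h⟩ := h
      obtain ⟨N, hN, le⟩ := sub _ (fn.inf_norm hU.norm) (fun _ => inf_le_left) ⟨a, ha, a1, mt inf_eq_left.1 h⟩
      exact ⟨N, hN.mono fun _ _ _ => inf_le_left,
        le_of_fix hp hA hN.norm hN.cop fun b hb b1 => (hN.fix b hb b1).trans inf_le_right, fun V hV nV =>
        le_of_fix hp hA hV.norm hV.cop fun b hb b1 =>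
          (le_inf (hV.fix b hb b1) (inf_le_left.trans nV)).trans (le b hb b1)⟩
  · obtain ⟨L, hL, le⟩ := sub _ (fn.thPi hA.comm pA π) (thPi_le π)
      ⟨a, ha, a1, fun e => qπ ((e ▸ fn.thPi_pi pA π ha a1).mem hq qa)⟩
    refine ⟨L, hL.mono fun b _ _ => thPi_le π b, fun r hr rL => ?_, ?_, fun V hV πV nV =>
      le_of_fix hp hA hV.norm hV.cop fun b hb b1 =>
        (fn.le_thPi hA.comm πV hV.norm nV hb b1 (hV.fix b hb b1)).trans (le b hb b1)⟩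
    · obtain ⟨R, hR, nR⟩ := (copAct_p_right hL.norm hL.cop pA).exists_sylowIn r
      obtain ⟨b, hb, b1, e⟩ := exists_fix hp hA nR (hL.cop.of_le hR.le) (hR.ne_bot hr rL)
      exact (hR.piGrp.inf_left _).mem_of_ne_bot e ((fn.thPi_pi pA π hb b1).of_le
        ((inf_le_inf_right _ hR.le).trans (hL.fix b hb b1)))
    · rw [show L = ⨆ b : {b : G // b ∈ ι.range ∧ b ≠ 1}, thPi π ι.range θ b from le_antisymm
        (le_of_fix hp hA hL.norm hL.cop fun b hb b1 => (hL.fix b hb b1).trans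
          (le_iSup (fun b : {b : G // b ∈ ι.range ∧ b ≠ 1} => thPi π ι.range θ b) ⟨b, hb, b1⟩))
        (iSup_le fun b => le b b.2.1 b.2.2)]
      exact norms_iSup fun b => thPi_norm' π _

theorem complete_of_conf (hC : ∀ (G : Type u) [Group G] [Finite G], Conf G → False)
    {G : Type u} [Group G] [Finite G] {p : ℕ} (hp : p.Prime) (p2 : p ≠ 2) {A : Subgroup G}
    (ab : IsMulCommutative A) (ex : ∀ a ∈ A, a ^ p = 1) (card : Nat.card A = p ^ 3)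
    {θ : G → Subgroup G} (fn : Fn p A θ) : Complete p A θ := by
  classical
  have := Fintype.ofFinite A
  have := complete_aux hC hp p2 _ G A.subtype A.subtype_injective
    (by rw [range_subtype]; exact elem_three ab ex card) θ (by rwa [range_subtype]) (Nat.lt_succ_self _)
  rwa [range_subtype] at this

theorem solvable_of_conf_odd (hC : ∀ (G : Type u) [Group G] [Finite G], Conf G → False)
    {X : Type u} [Group X] [Finite X]
    (p : ℕ) [hp : Fact p.Prime] (p2 : p ≠ 2) (A K : Subgroup X) (hA : IsMulCommutative A) (hAp : ∀ a ∈ A, a ^ p = 1)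
    (hA3 : p ^ 3 ≤ Nat.card A) (hK : (Nat.card K).Coprime p) (hAK : A ≤ Subgroup.normalizer (K : Set X))
    (hC' : ∀ a ∈ A, a ≠ 1 → Group.IsSolvable ((K ⊓ Subgroup.centralizer ({a} : Set X) : Subgroup X))) :
    Group.IsSolvable K := by
  have hE : IsElementaryAbelian p A := ⟨hA, hAp⟩
  obtain ⟨B, hB, -, -, cB⟩ := exists_norm_card_pow hE.isPGroup hE.isPGroup le_normalizer hA3
  have ab := abelian_of_le hA hB
  have cK := (piGrp_compl_singleton_iff_coprime hp.out).2 hK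
  obtain ⟨U, hU, le⟩ := complete_of_conf hC hp.out p2 ab (fun a ha => hAp a (hB ha)) cB (θ := fun a => K ⊓ 𝐂[a])
    ⟨fun _ _ _ => inf_le_right, fun a ha _ => norms_inf (hB.trans hAK)
      (norms_cent1 ((abelian_iff.1 ab).trans (cent_le_cent1 ha))), fun a ha => hC' a (hB ha),
      fun _ _ _ => cK.inf_left _, fun _ _ _ _ _ _ => inf_le_inf_right _ inf_le_left⟩
  exact solvable_of_le hU.solv (le_of_fix hp.out (elem_three ab (fun a ha => hAp a (hB ha)) cB) (hB.trans hAK) cK le)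

/-- S0515 from the non-existence of `Conf` (`p = 2`: Feit-Thompson). -/
theorem solvable_of_conf (hC : ∀ (G : Type u) [Group G] [Finite G], Conf G → False)
    {X : Type u} [Group X] [Finite X]
    (p : ℕ) [Fact p.Prime] (A K : Subgroup X) (hA : IsMulCommutative A) (hAp : ∀ a ∈ A, a ^ p = 1)
    (hA3 : p ^ 3 ≤ Nat.card A) (hK : (Nat.card K).Coprime p) (hAK : A ≤ Subgroup.normalizer (K : Set X))
    (hC' : ∀ a ∈ A, a ≠ 1 → Group.IsSolvable ((K ⊓ Subgroup.centralizer ({a} : Set X) : Subgroup X))) :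
    Group.IsSolvable K := by
  by_cases p2 : p = 2
  · exact feit_thompson (Nat.coprime_two_right.1 (p2 ▸ hK))
  · exact solvable_of_conf_odd hC p p2 A K hA hAp hA3 hK hAK hC'

end CA.SF
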